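import Mathlib
import Cfsg.Agent.Lib.Golay.Elements
import Cfsg.Agent.Lib.Golay.Dec.Counting
import Cfsg.Agent.Lib.Golay.Dec.Classes

/-! The class and the centraliser of a fixed-point-free involution of `M24`. -/

set_option autoImplicit false
set_option maxRecDepth 100000

namespace Cfsg.Lib.Golay.Dec

open Cfsg
open scoped Pointwise

/-- Counting members of a class with a property along its enumeration. -/
theorem ncard_where {Ω : Set Obj} {base : List ℕ} {cert : List (List (List ℕ))} {N : ℕ}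
    {T : List (List (List ℕ))} (hcls : IsCls Ω base N) (hchk : checkCls base cert N T = true)
    (p : Obj → Prop) (q : List ℕ → Bool)
    (hq : ∀ L : List ℕ, (∀ m ∈ L, m < 2 ^ 24) → (q L = true ↔ p (interp L)))
    {k : ℕ} (hk : (clsList base cert).countP q = k) :
    {S | S ∈ Ω ∧ p S}.ncard = k := by
  simp only [checkCls, Bool.and_eq_true, beq_iff_eq] at hchk
  obtain ⟨⟨⟨⟨hg, hok⟩, hwf⟩, hd⟩, hlen⟩ := hchk
  have hreach := okTree_orbit M24 (fun g hg' => isPermList_of_keepsCode (List.all_eq_true.1 hg g hg'))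
    (fun g hg' => permOf_mem_M24 (List.all_eq_true.1 hg g hg')) base cert hok
  have hnd := nodup_interp hwf hd
  set F := ((clsList base cert).map interp).toFinset with hF
  have hsub : (F : Set Obj) ⊆ Ω := by
    intro S hS
    simp only [hF, List.coe_toFinset, Set.mem_ofPred_eq, List.mem_map] at hS
    obtain ⟨s, hs, rfl⟩ := hS
    obtain ⟨σ, hσ, e⟩ := hreach s hs
    exact e ▸ hcls.invar σ hσ _ hcls.mem
  have heq : (F : Set Obj) = Ω := Set.eq_of_subset_of_ncard_le hsub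
    (by rw [Set.ncard_coe_finset, hF, List.toFinset_card_of_nodup hnd, List.length_map, hlen, hcls.card])
  have hfilter : {S | S ∈ Ω ∧ p S} =
      ((((clsList base cert).filter q).map interp).toFinset : Set Obj) := by
    ext S
    rw [← heq]
    simp only [hF, List.coe_toFinset, Set.mem_ofPred_eq, List.mem_map, List.mem_filter]
    constructor
    · rintro ⟨⟨L, hL, rfl⟩, hp⟩
      exact ⟨L, ⟨hL, (hq L fun m hm => lt_of_wf (List.all_eq_true.1 hwf L hL) hm).2 hp⟩, rfl⟩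
    · rintro ⟨L, ⟨hL, hs⟩, rfl⟩
      exact ⟨⟨L, hL, rfl⟩, (hq L fun m hm => lt_of_wf (List.all_eq_true.1 hwf L hL) hm).1 hs⟩
  rw [hfilter, Set.ncard_coe_finset, List.toFinset_card_of_nodup (hnd.sublist (List.filter_sublist.map _)),
    List.length_map, ← List.countP_eq_length_filter]
  exact hk

end Cfsg.Lib.Golay.Dec

namespace Cfsg.Lib.Golay.Elements

open Cfsg
open scoped Pointwise

/-- Elements commuting with the fixed-point-free representative, one for each image of the first point. -/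
def centWit : List (List ℕ) := [
  [0, 1, 2, 3, 4, 5, 6, 7, 8, 9, 10, 11, 12, 13, 14, 15, 16, 17, 18, 19, 20, 21, 22, 23],
  [1, 0, 23, 3, 13, 5, 7, 6, 12, 9, 10, 18, 8, 4, 14, 15, 22, 17, 11, 21, 20, 19, 16, 2],
  [2, 0, 23, 3, 19, 17, 4, 22, 12, 9, 10, 8, 18, 7, 14, 20, 6, 5, 11, 16, 15, 13, 21, 1],
  [3, 0, 23, 1, 13, 7, 5, 6, 12, 2, 8, 14, 10, 20, 18, 21, 22, 16, 11, 15, 4, 19, 17, 9],
  [4, 0, 23, 1, 14, 15, 13, 10, 11, 2, 18, 16, 21, 6, 8, 20, 3, 5, 12, 19, 17, 9, 22, 7],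
  [5, 0, 23, 1, 4, 6, 3, 7, 12, 2, 8, 17, 15, 9, 18, 19, 16, 22, 11, 10, 13, 21, 14, 20],
  [6, 0, 23, 1, 20, 3, 7, 5, 11, 2, 18, 19, 22, 4, 8, 14, 15, 10, 12, 16, 9, 17, 21, 13],
  [7, 0, 23, 1, 9, 5, 6, 3, 11, 2, 18, 21, 16, 13, 8, 17, 10, 15, 12, 22, 20, 14, 19, 4],
  [8, 0, 23, 3, 6, 20, 21, 13, 12, 9, 10, 2, 1, 16, 14, 17, 19, 15, 11, 7, 5, 22, 4, 18],
  [9, 0, 23, 1, 19, 16, 20, 22, 12, 2, 8, 10, 14, 5, 18, 4, 6, 7, 11, 17, 21, 13, 15, 3],
  [10, 0, 23, 1, 6, 4, 15, 13, 12, 2, 8, 9, 3, 17, 18, 16, 19, 21, 11, 5, 7, 22, 20, 14],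
  [11, 1, 2, 3, 16, 15, 22, 21, 8, 9, 10, 0, 23, 19, 14, 5, 4, 20, 18, 13, 17, 7, 6, 12],
  [12, 1, 2, 3, 7, 20, 19, 4, 8, 9, 10, 23, 0, 22, 14, 17, 21, 15, 18, 6, 5, 16, 13, 11],
  [13, 0, 23, 1, 17, 10, 4, 15, 11, 2, 18, 22, 19, 7, 8, 9, 5, 3, 12, 21, 14, 20, 16, 6],
  [14, 0, 23, 1, 22, 21, 17, 19, 12, 2, 8, 3, 9, 15, 18, 7, 13, 4, 11, 20, 16, 6, 5, 10],
  [15, 0, 23, 1, 7, 13, 10, 4, 12, 2, 8, 20, 5, 14, 18, 22, 21, 19, 11, 3, 6, 16, 9, 17],
  [16, 0, 23, 1, 3, 20, 22, 9, 11, 2, 18, 4, 7, 19, 8, 15, 14, 17, 12, 6, 5, 10, 13, 21],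
  [17, 0, 23, 1, 16, 19, 14, 21, 12, 2, 8, 5, 20, 10, 18, 6, 4, 13, 11, 9, 22, 7, 3, 15],
  [18, 0, 23, 3, 22, 15, 16, 19, 12, 9, 10, 1, 2, 21, 14, 5, 13, 20, 11, 4, 17, 6, 7, 8],
  [19, 0, 23, 1, 15, 14, 21, 17, 11, 2, 18, 6, 13, 16, 8, 3, 20, 9, 12, 4, 10, 5, 7, 22],
  [20, 0, 23, 1, 21, 22, 9, 16, 12, 2, 8, 15, 17, 3, 18, 13, 7, 6, 11, 14, 19, 4, 10, 5],
  [21, 0, 23, 1, 10, 17, 19, 14, 11, 2, 18, 7, 4, 22, 8, 5, 9, 20, 12, 13, 15, 3, 6, 16],
  [22, 0, 23, 1, 5, 9, 16, 20, 11, 2, 18, 13, 6, 21, 8, 10, 17, 14, 12, 7, 3, 15, 4, 19],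
  [23, 1, 2, 3, 21, 17, 13, 16, 8, 9, 10, 12, 11, 6, 14, 20, 7, 5, 18, 22, 15, 4, 19, 0]]

theorem centWit_check : (List.range 24).all (fun i =>
    keepsCode (centWit.getD i []) && compL (centWit.getD i []) repInvFree == compL repInvFree (centWit.getD i []) &&
      isPermList (compL repInvFree (centWit.getD i [])) && (centWit.getD i []).getD 0 0 == i) = true := by
  decide +kernel

/-- A sextet all of whose tetrads are fixed by the fixed-point-free representative is unique. -/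
theorem one_sextet_check : (Dec.clsList Dec.SextetCls.base Dec.SextetCls.cert).countP
    (fun L => L.all fun m => imgMask repInvFree m == m) = 1 := by decide +kernel

/-- The conjugates in `M24` of `t`. -/
def classOf (t : Equiv.Perm GolayPt) : Set (Equiv.Perm GolayPt) := {g | ∃ k ∈ M24, g = k * t * k⁻¹}

theorem class_mul_centralizer {t : Equiv.Perm GolayPt} :
    (classOf t).ncard * Nat.card {c : Equiv.Perm GolayPt // c ∈ M24 ∧ c * t = t * c} = 244823040 := by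
  classical
  rw [← card_M24, ← SetLike.coe_sort_coe, Nat.subtype_card
    (Finset.univ.filter fun c : Equiv.Perm GolayPt => c ∈ M24 ∧ c * t = t * c) (fun x => by simp),
    Nat.card_coe_set_eq,
    Set.ncard_eq_toFinset_card' (classOf t), Set.ncard_eq_toFinset_card' (M24 : Set (Equiv.Perm GolayPt))]
  rw [Finset.card_eq_sum_card_fiberwise (s := (M24 : Set (Equiv.Perm GolayPt)).toFinset)
    (f := fun g => g * t * g⁻¹) (t := (classOf t).toFinset) (fun g hg => by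
      simp only [Finset.mem_coe, Set.mem_toFinset] at hg ⊢
      exact ⟨g, hg, rfl⟩)]
  symm
  refine Finset.sum_const_nat fun x hx => ?_
  obtain ⟨k, hk, rfl⟩ := Set.mem_toFinset.1 hx
  refine Finset.card_bij' (fun g _ => k⁻¹ * g) (fun c _ => k * c) ?_ ?_ ?_ ?_
  · intro g hg
    simp only [Finset.mem_filter, Set.mem_toFinset, SetLike.mem_coe] at hg
    simp only [Finset.mem_filter, Finset.mem_univ, true_and]
    refine ⟨M24.mul_mem (M24.inv_mem hk) hg.1, ?_⟩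
    calc k⁻¹ * g * t = k⁻¹ * (g * t * g⁻¹) * g := by group
      _ = t * (k⁻¹ * g) := by rw [hg.2]; group
  · intro c hc
    simp only [Finset.mem_filter, Finset.mem_univ, true_and] at hc
    simp only [Finset.mem_filter, Set.mem_toFinset, SetLike.mem_coe]
    refine ⟨M24.mul_mem hk hc.1, ?_⟩
    calc k * c * t * (k * c)⁻¹ = k * (c * t) * c⁻¹ * k⁻¹ := by group
      _ = k * t * k⁻¹ := by rw [hc.2]; group
  · intro g _; exact mul_inv_cancel_left k g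
  · intro c _; exact inv_mul_cancel_left k c

/-- The fixed-point-free involutions of `M24`. -/
def freeInvols : Set (Equiv.Perm GolayPt) := {g | g ∈ M24 ∧ orderOf g = 2 ∧ (fixPts g).card = 0}

theorem conj_freeInvols {g k : Equiv.Perm GolayPt} (hk : k ∈ M24) (hg : g ∈ freeInvols) :
    k * g * k⁻¹ ∈ freeInvols :=
  ⟨M24.mul_mem (M24.mul_mem hk hg.1) (M24.inv_mem hk),
    by rw [← MulAut.conj_apply, MulEquiv.orderOf_eq]; exact hg.2.1, by rw [card_fixPts_conj]; exact hg.2.2⟩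

theorem classOf_repInvFree : classOf (permOf repInvFree) = freeInvols := by
  ext g
  constructor
  · rintro ⟨k, hk, rfl⟩; exact conj_freeInvols hk rep_spec.1
  · rintro ⟨hg, h2, h0⟩
    obtain ⟨k, hk, ⟨-, e⟩ | ⟨h8, -⟩⟩ := involution_fix hg h2
    · exact ⟨k⁻¹, M24.inv_mem hk, by rw [← e]; group⟩
    · omega

/-- Whether a list is a fixed-point-free involution. -/
def isFreeInv (l : List ℕ) : Bool := compL l l == List.range 24 && (fixIdx l).length == 0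

/-- The fixed-point-free involutions exchanging the first two and the next two base points. -/
def freeL : List (List ℕ) := [
  [23, 2, 1, 4, 3, 13, 10, 15, 11, 19, 6, 8, 18, 5, 16, 7, 14, 22, 12, 9, 21, 20, 17, 0],
  [23, 2, 1, 4, 3, 16, 7, 6, 20, 11, 18, 9, 15, 17, 22, 12, 5, 13, 10, 21, 8, 19, 14, 0],
  [23, 2, 1, 4, 3, 22, 12, 18, 19, 20, 15, 21, 6, 14, 13, 10, 17, 16, 7, 8, 9, 11, 5, 0],
  [23, 2, 1, 5, 8, 3, 10, 9, 4, 7, 6, 13, 16, 11, 17, 21, 12, 14, 22, 20, 19, 15, 18, 0],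
  [23, 2, 1, 5, 11, 3, 20, 15, 13, 21, 19, 4, 22, 8, 17, 7, 18, 14, 16, 10, 6, 9, 12, 0],
  [23, 2, 1, 5, 12, 3, 15, 20, 16, 19, 21, 22, 4, 18, 17, 6, 8, 14, 13, 9, 7, 10, 11, 0],
  [23, 2, 1, 5, 16, 3, 7, 6, 12, 10, 9, 18, 8, 22, 17, 20, 4, 14, 11, 21, 15, 19, 13, 0],
  [23, 2, 1, 5, 18, 3, 9, 10, 22, 6, 7, 16, 13, 12, 17, 19, 11, 14, 4, 15, 21, 20, 8, 0],
  [23, 2, 1, 5, 22, 3, 21, 19, 18, 20, 15, 12, 11, 16, 17, 10, 13, 14, 8, 7, 9, 6, 4, 0],
  [23, 2, 1, 6, 9, 7, 3, 5, 12, 4, 16, 18, 8, 20, 19, 22, 10, 21, 11, 14, 13, 17, 15, 0],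
  [23, 2, 1, 6, 11, 19, 3, 17, 16, 15, 20, 4, 13, 12, 21, 9, 8, 7, 22, 5, 10, 14, 18, 0],
  [23, 2, 1, 6, 22, 21, 3, 14, 20, 18, 12, 15, 10, 16, 7, 11, 13, 19, 9, 17, 8, 5, 4, 0],
  [23, 2, 1, 7, 8, 21, 17, 3, 4, 15, 20, 16, 22, 18, 19, 9, 11, 6, 13, 14, 10, 5, 12, 0],
  [23, 2, 1, 7, 20, 6, 5, 3, 12, 13, 22, 18, 8, 9, 21, 16, 15, 19, 11, 17, 4, 14, 10, 0],
  [23, 2, 1, 7, 22, 19, 14, 3, 10, 11, 8, 9, 20, 16, 6, 18, 13, 21, 15, 5, 12, 17, 4, 0],
  [23, 2, 1, 8, 6, 12, 4, 16, 3, 10, 9, 17, 5, 21, 18, 20, 7, 11, 14, 22, 15, 13, 19, 0],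
  [23, 2, 1, 8, 10, 18, 21, 19, 3, 13, 4, 14, 17, 9, 11, 22, 20, 12, 5, 7, 16, 6, 15, 0],
  [23, 2, 1, 8, 13, 11, 9, 15, 3, 6, 21, 5, 14, 4, 12, 7, 22, 18, 17, 20, 19, 10, 16, 0],
  [23, 2, 1, 9, 7, 20, 13, 4, 18, 3, 14, 12, 11, 6, 10, 17, 21, 15, 8, 22, 5, 16, 19, 0],
  [23, 2, 1, 9, 16, 10, 12, 8, 7, 3, 5, 19, 6, 22, 15, 14, 4, 20, 21, 11, 17, 18, 13, 0],
  [23, 2, 1, 9, 18, 15, 19, 21, 16, 3, 17, 13, 22, 11, 20, 5, 8, 10, 4, 6, 14, 7, 12, 0],
  [23, 2, 1, 10, 11, 20, 19, 21, 22, 17, 3, 4, 16, 18, 15, 14, 12, 9, 13, 6, 5, 7, 8, 0],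
  [23, 2, 1, 10, 16, 9, 18, 11, 19, 5, 3, 7, 21, 22, 20, 17, 4, 15, 6, 8, 14, 12, 13, 0],
  [23, 2, 1, 10, 21, 15, 22, 16, 18, 14, 3, 12, 11, 19, 9, 5, 7, 20, 8, 13, 17, 4, 6, 0],
  [23, 2, 1, 11, 7, 18, 16, 4, 17, 10, 9, 3, 14, 19, 12, 20, 6, 8, 5, 13, 15, 22, 21, 0],
  [23, 2, 1, 11, 13, 8, 10, 20, 5, 21, 6, 3, 17, 4, 18, 19, 22, 12, 14, 15, 7, 9, 16, 0],
  [23, 2, 1, 11, 15, 12, 21, 19, 14, 16, 22, 3, 5, 20, 8, 4, 9, 18, 17, 7, 13, 6, 10, 0],
  [23, 2, 1, 12, 9, 11, 21, 19, 17, 4, 13, 5, 3, 10, 18, 16, 15, 8, 14, 7, 22, 6, 20, 0],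
  [23, 2, 1, 12, 13, 18, 15, 9, 14, 7, 19, 17, 3, 4, 8, 6, 22, 11, 5, 10, 21, 20, 16, 0],
  [23, 2, 1, 12, 19, 8, 22, 13, 5, 10, 9, 14, 3, 7, 11, 20, 21, 18, 17, 4, 15, 16, 6, 0],
  [23, 2, 1, 13, 5, 4, 15, 10, 11, 21, 7, 8, 18, 3, 22, 6, 17, 16, 12, 20, 19, 9, 14, 0],
  [23, 2, 1, 13, 14, 16, 11, 8, 7, 20, 15, 6, 21, 3, 4, 10, 5, 22, 19, 18, 9, 12, 17, 0],
  [23, 2, 1, 13, 17, 22, 7, 6, 15, 18, 11, 10, 20, 3, 16, 8, 14, 4, 9, 21, 12, 19, 5, 0],
  [23, 2, 1, 14, 6, 17, 4, 22, 15, 11, 12, 9, 10, 19, 3, 8, 21, 5, 20, 13, 18, 16, 7, 0],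
  [23, 2, 1, 14, 7, 17, 22, 4, 20, 12, 11, 10, 9, 21, 3, 18, 19, 5, 15, 16, 8, 13, 6, 0],
  [23, 2, 1, 14, 13, 17, 19, 21, 12, 20, 15, 18, 8, 4, 3, 10, 22, 5, 11, 6, 9, 7, 16, 0],
  [23, 2, 1, 14, 16, 17, 21, 19, 11, 15, 20, 8, 18, 22, 3, 9, 4, 5, 12, 7, 10, 6, 13, 0],
  [23, 2, 1, 14, 19, 17, 13, 16, 9, 8, 18, 15, 20, 6, 3, 11, 7, 5, 10, 4, 12, 22, 21, 0],
  [23, 2, 1, 14, 21, 17, 16, 13, 10, 18, 8, 20, 15, 7, 3, 12, 6, 5, 9, 22, 11, 4, 19, 0],
  [23, 2, 1, 15, 8, 9, 19, 21, 4, 5, 14, 22, 13, 12, 10, 3, 18, 20, 16, 6, 17, 7, 11, 0],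
  [23, 2, 1, 15, 16, 20, 8, 12, 6, 14, 17, 21, 7, 22, 9, 3, 4, 10, 19, 18, 5, 11, 13, 0],
  [23, 2, 1, 15, 19, 10, 16, 22, 18, 17, 5, 12, 11, 21, 20, 3, 6, 9, 8, 4, 14, 13, 7, 0],
  [23, 2, 1, 16, 5, 4, 7, 6, 10, 12, 8, 15, 9, 14, 13, 11, 3, 22, 20, 21, 18, 19, 17, 0],
  [23, 2, 1, 16, 14, 22, 9, 20, 11, 6, 19, 8, 18, 17, 4, 21, 3, 13, 12, 10, 7, 15, 5, 0],
  [23, 2, 1, 16, 17, 13, 18, 12, 21, 20, 15, 19, 7, 5, 22, 10, 3, 4, 6, 11, 9, 8, 14, 0],
  [23, 2, 1, 17, 9, 14, 8, 18, 6, 4, 22, 19, 21, 15, 5, 13, 20, 3, 7, 11, 16, 12, 10, 0],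
  [23, 2, 1, 17, 10, 14, 18, 8, 7, 22, 4, 21, 19, 20, 5, 16, 15, 3, 6, 12, 13, 11, 9, 0],
  [23, 2, 1, 17, 13, 14, 7, 6, 18, 15, 20, 12, 11, 4, 5, 9, 22, 3, 8, 21, 10, 19, 16, 0],
  [23, 2, 1, 17, 15, 14, 11, 12, 19, 13, 16, 6, 7, 9, 5, 4, 10, 3, 21, 8, 22, 18, 20, 0],
  [23, 2, 1, 17, 20, 14, 12, 11, 21, 16, 13, 7, 6, 10, 5, 22, 9, 3, 19, 18, 4, 8, 15, 0],
  [23, 2, 1, 17, 22, 14, 19, 21, 11, 10, 9, 8, 18, 16, 5, 20, 13, 3, 12, 6, 15, 7, 4, 0],
  [23, 2, 1, 18, 13, 12, 20, 10, 17, 19, 7, 14, 5, 4, 11, 21, 22, 8, 3, 9, 6, 15, 16, 0],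
  [23, 2, 1, 18, 20, 8, 21, 19, 5, 22, 16, 17, 14, 15, 12, 13, 10, 11, 3, 7, 4, 6, 9, 0],
  [23, 2, 1, 18, 21, 11, 13, 22, 14, 10, 9, 5, 17, 6, 8, 20, 19, 12, 3, 16, 15, 4, 7, 0],
  [23, 2, 1, 19, 10, 21, 14, 17, 12, 16, 4, 18, 8, 15, 6, 13, 9, 7, 11, 3, 22, 5, 20, 0],
  [23, 2, 1, 19, 18, 6, 5, 14, 13, 15, 20, 22, 16, 8, 7, 9, 12, 21, 4, 3, 10, 17, 11, 0],
  [23, 2, 1, 19, 22, 7, 17, 5, 9, 8, 11, 10, 15, 16, 21, 12, 13, 6, 20, 3, 18, 14, 4, 0],
  [23, 2, 1, 20, 6, 9, 4, 13, 18, 5, 17, 12, 11, 7, 15, 14, 19, 10, 8, 16, 3, 22, 21, 0],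
  [23, 2, 1, 20, 12, 10, 19, 21, 13, 14, 5, 16, 4, 8, 9, 17, 11, 15, 22, 6, 3, 7, 18, 0],
  [23, 2, 1, 20, 16, 15, 11, 18, 21, 17, 14, 6, 19, 22, 10, 5, 4, 9, 7, 12, 3, 8, 13, 0],
  [23, 2, 1, 21, 12, 7, 14, 5, 22, 15, 20, 13, 4, 11, 6, 9, 18, 19, 16, 17, 10, 3, 8, 0],
  [23, 2, 1, 21, 15, 19, 17, 14, 12, 22, 13, 18, 8, 10, 7, 4, 20, 6, 11, 5, 16, 3, 9, 0],
  [23, 2, 1, 21, 22, 6, 5, 17, 15, 12, 18, 20, 9, 16, 19, 8, 13, 7, 10, 14, 11, 3, 4, 0],
  [23, 2, 1, 22, 5, 4, 8, 11, 6, 20, 15, 7, 19, 17, 16, 10, 14, 13, 21, 12, 9, 18, 3, 0],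
  [23, 2, 1, 22, 14, 13, 7, 6, 9, 8, 12, 20, 10, 5, 4, 18, 17, 16, 15, 21, 11, 19, 3, 0],
  [23, 2, 1, 22, 17, 16, 20, 9, 11, 7, 21, 8, 18, 14, 13, 19, 5, 4, 12, 15, 6, 10, 3, 0]]

/-- The check of one candidate. -/
def freeTest (n : ℕ) : Bool := !isFreeInv (compL cosetTwo (decodeL n)) || freeL.contains (compL cosetTwo (decodeL n))

theorem freeTest0 : levFourN0.all freeTest = true := by decide +kernel
theorem freeTest1 : levFourN1.all freeTest = true := by decide +kernel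
theorem freeTest2 : levFourN2.all freeTest = true := by decide +kernel
theorem freeTest3 : levFourN3.all freeTest = true := by decide +kernel

theorem freeCand_check : (freeL.all fun l => keepsCode l && l.getD (baseIdx 0) 0 == baseIdx 1 &&
    l.getD (baseIdx 2) 0 == baseIdx 3 && isFreeInv l) = true ∧ freeL.length = 66 ∧ freeL.Nodup ∧
    keepsCode cosetTwo = true ∧ cosetTwo.getD (baseIdx 1) 0 = baseIdx 0 ∧ cosetTwo.getD (baseIdx 3) 0 = baseIdx 2 ∧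
    cosetTwo.getD (baseIdx 0) 0 = baseIdx 1 ∧ cosetTwo.getD (baseIdx 2) 0 = baseIdx 3 := by decide +kernel

theorem freeInvols_base :
    {g | g ∈ freeInvols ∧ g (baseP 0) = baseP 1 ∧ g (baseP 2) = baseP 3}.ncard = 66 := by
  classical
  obtain ⟨hall, hlen, hnd, hu, u1, u3, u0, u2⟩ := freeCand_check
  simp only [List.all_eq_true, Bool.and_eq_true, beq_iff_eq] at hall
  have hset : {g | g ∈ freeInvols ∧ g (baseP 0) = baseP 1 ∧ g (baseP 2) = baseP 3} =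
      ((freeL.map permOf).toFinset : Set (Equiv.Perm GolayPt)) := by
    ext g
    simp only [Set.mem_ofPred_eq, List.coe_toFinset, List.mem_map]
    constructor
    · rintro ⟨⟨hg, h2, h0⟩, g0, g2⟩
      have g1 : g (baseP 1) = baseP 0 := by rw [← g0, apply_two h2]
      have g3 : g (baseP 3) = baseP 2 := by rw [← g2, apply_two h2]
      have hu' := keeps_perm hu
      have hw : (permOf cosetTwo)⁻¹ * g ∈ lev 4 := by
        refine (mem_lev_iff _ 4).2 ⟨M24_le_setSystemAut (M24.mul_mem (M24.inv_mem (permOf_mem_M24 hu)) hg),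
          fun j hj => ?_⟩
        rw [Equiv.Perm.mul_apply, Equiv.Perm.inv_eq_iff_eq]
        rcases j with _ | _ | _ | _ | j
        · rw [g0, baseP, baseP, permOf_pt hu' (baseIdx_lt 0 (by norm_num)), u0]
        · rw [g1, baseP, baseP, permOf_pt hu' (baseIdx_lt 1 (by norm_num)), u1]
        · rw [g2, baseP, baseP, permOf_pt hu' (baseIdx_lt 2 (by norm_num)), u2]
        · rw [g3, baseP, baseP, permOf_pt hu' (baseIdx_lt 3 (by norm_num)), u3]
        · omega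
      obtain ⟨l, hl, e⟩ := mem_levFourL hw
      have hp := List.all_eq_true.1 levFourL_perm l hl
      have hc := isPerm_compL hu' hp
      have hge : g = permOf (compL cosetTwo l) := by
        rw [permOf_mul hu' hp hc rfl, ← e, mul_inv_cancel_left]
      have hfree : isFreeInv (compL cosetTwo l) = true := ?_
      · obtain ⟨n, hn, rfl⟩ := List.mem_map.1 (mem_levFourD hl)
        have ht : freeTest n = true := by
          simp only [List.mem_append] at hn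
          rcases hn with ((h | h) | h) | h
          exacts [List.all_eq_true.1 freeTest0 n h, List.all_eq_true.1 freeTest1 n h,
            List.all_eq_true.1 freeTest2 n h, List.all_eq_true.1 freeTest3 n h]
        simp only [freeTest, hfree, Bool.not_true, Bool.false_or, List.contains_iff_mem] at ht
        exact ⟨_, ht, hge.symm⟩
      simp only [isFreeInv, Bool.and_eq_true, beq_iff_eq]
      refine ⟨eq_range_of_permOf_one (isPerm_compL hc hc) ?_, by rw [← card_fixPts hc, ← hge, h0]⟩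
      rw [permOf_mul hc hc (isPerm_compL hc hc) rfl, ← hge, ← pow_two, ← h2, pow_orderOf_eq_one]
    · rintro ⟨l, hl, rfl⟩
      obtain ⟨⟨⟨hk, e0⟩, e2⟩, hfr⟩ := hall l hl
      have hp := keeps_perm hk
      simp only [isFreeInv, Bool.and_eq_true, beq_iff_eq] at hfr
      obtain ⟨hsq, hfix⟩ := hfr
      refine ⟨⟨permOf_mem_M24 hk, ?_, by rw [card_fixPts hp, hfix]⟩,
        by rw [baseP, baseP, permOf_pt hp (baseIdx_lt 0 (by norm_num)), e0],
        by rw [baseP, baseP, permOf_pt hp (baseIdx_lt 2 (by norm_num)), e2]⟩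
      haveI : Fact (Nat.Prime 2) := ⟨Nat.prime_two⟩
      refine orderOf_eq_prime ?_ fun h => ?_
      · rw [pow_two, ← permOf_mul hp hp (c := List.range 24) (by decide) hsq, permOf_range]
      · have := eq_range_of_permOf_one hp h
        rw [this] at hfix
        revert hfix
        decide
  rw [hset, Set.ncard_coe_finset, List.toFinset_card_of_nodup, List.length_map, hlen]
  exact hnd.map_on fun a ha b hb e => OctKer.permOf_injOn (keeps_perm (hall a ha).1.1.1) (keeps_perm (hall b hb).1.1.1) e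

theorem freeInvols_tuple (x : Fin 4 ↪ GolayPt) :
    {g | g ∈ freeInvols ∧ g (x 0) = x 1 ∧ g (x 2) = x 3}.ncard = 66 := by
  obtain ⟨τ, hτ, hx⟩ := exists_tuple_to_base (by norm_num : 4 ≤ 5) x
  rw [← freeInvols_base, ← Set.ncard_image_of_injective _ (MulAut.conj τ).injective]
  congr 1
  ext g
  simp only [Set.mem_image, Set.mem_ofPred_eq, MulAut.conj_apply]
  have hx0 : τ (x 0) = baseP 0 := hx 0
  have hx1 : τ (x 1) = baseP 1 := hx 1
  have hx2 : τ (x 2) = baseP 2 := hx 2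
  have hx3 : τ (x 3) = baseP 3 := hx 3
  constructor
  · rintro ⟨h, ⟨hh, h0, h2⟩, rfl⟩
    refine ⟨conj_freeInvols hτ hh, ?_, ?_⟩
    · rw [← hx0, ← hx1, Equiv.Perm.mul_apply, Equiv.Perm.mul_apply, show τ⁻¹ (τ (x 0)) = x 0 from τ.symm_apply_apply _, h0]
    · rw [← hx2, ← hx3, Equiv.Perm.mul_apply, Equiv.Perm.mul_apply, show τ⁻¹ (τ (x 2)) = x 2 from τ.symm_apply_apply _, h2]
  · rintro ⟨hg, h0, h2⟩
    refine ⟨τ⁻¹ * g * τ, ⟨by simpa using conj_freeInvols (M24.inv_mem hτ) hg, ?_, ?_⟩, by group⟩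
    · rw [Equiv.Perm.mul_apply, Equiv.Perm.mul_apply, hx0, h0, ← hx1]; exact τ.symm_apply_apply _
    · rw [Equiv.Perm.mul_apply, Equiv.Perm.mul_apply, hx2, h2, ← hx3]; exact τ.symm_apply_apply _

theorem tuples_of_free {g : Equiv.Perm GolayPt} (hg : g ∈ freeInvols) :
    (Finset.univ.filter fun x : Fin 4 ↪ GolayPt => g (x 0) = x 1 ∧ g (x 2) = x 3).card = 528 := by
  classical
  obtain ⟨-, h2, h0⟩ := hg
  have hne : ∀ p, g p ≠ p := fun p hp => by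
    rw [Finset.card_eq_zero] at h0
    exact Finset.notMem_empty p (h0 ▸ mem_fixPts.2 hp)
  have hcard : ((Finset.univ : Finset GolayPt).sigma fun a => ({a, g a} : Finset GolayPt)ᶜ).card = 528 := by
    rw [Finset.card_sigma, Finset.sum_const_nat (m := 22)]
    · rfl
    · intro a _
      rw [Finset.card_compl, Finset.card_pair (Ne.symm (hne a))]
      rfl
  rw [← hcard]
  refine Finset.card_bij' (fun x _ => (⟨x 0, x 2⟩ : Σ _ : GolayPt, GolayPt))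
    (fun p hp => ⟨![p.1, g p.1, p.2, g p.2], ?_⟩) ?_ ?_ ?_ ?_
  · simp only [Finset.mem_sigma, Finset.mem_univ, true_and, Finset.mem_compl, Finset.mem_insert,
      Finset.mem_singleton, not_or] at hp
    obtain ⟨q1, q2⟩ := hp
    intro i j e
    fin_cases i <;> fin_cases j <;> first
      | rfl
      | exact absurd e (hne _) | exact absurd e (Ne.symm (hne _))
      | exact absurd e q1 | exact absurd e (Ne.symm q1)
      | exact absurd e q2 | exact absurd e (Ne.symm q2)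
      | exact absurd (g.injective e) q1 | exact absurd (g.injective e) (Ne.symm q1)
      | exact absurd (show p.1 = g p.2 from e) (fun e' => q2 (by rw [e', apply_two h2]))
      | exact absurd (show g p.2 = p.1 from e) (fun e' => q2 (by rw [← e', apply_two h2]))
  · intro x hx
    simp only [Finset.mem_filter, Finset.mem_univ, true_and] at hx
    simp only [Finset.mem_sigma, Finset.mem_univ, true_and, Finset.mem_compl, Finset.mem_insert,
      Finset.mem_singleton, not_or, hx.1]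
    exact ⟨x.injective.ne (by decide), x.injective.ne (by decide)⟩
  · intro p _; exact Finset.mem_filter.2 ⟨Finset.mem_univ _, rfl, rfl⟩
  · intro x hx
    simp only [Finset.mem_filter, Finset.mem_univ, true_and] at hx
    refine Function.Embedding.ext fun i => ?_
    fin_cases i
    · rfl
    · exact hx.1
    · rfl
    · exact hx.2
  · intro p _; rfl

theorem card_freeInvols : freeInvols.ncard = 31878 := by
  classical
  have h := Finset.sum_card_bipartiteAbove_eq_sum_card_bipartiteBelow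
    (s := freeInvols.toFinset) (t := (Finset.univ : Finset (Fin 4 ↪ GolayPt)))
    (fun g x => g (x 0) = x 1 ∧ g (x 2) = x 3)
  rw [Finset.sum_const_nat (m := 528) (fun g hg => ?_),
    Finset.sum_const_nat (m := 66) (fun x _ => ?_), Finset.card_univ, Fintype.card_embedding_eq,
    ← Set.ncard_eq_toFinset_card'] at h
  · simp only [GolayPt, Fintype.card_option, ZMod.card, Fintype.card_fin] at h
    norm_num [Nat.descFactorial_succ] at h
    omega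
  · rw [← freeInvols_tuple x, Set.ncard_eq_toFinset_card']
    congr 1
    ext g
    simp [Finset.mem_bipartiteBelow]
    tauto
  · rw [← tuples_of_free (Set.mem_toFinset.1 hg)]
    congr 1

theorem card_cent_free : Nat.card {c : Equiv.Perm GolayPt //
    c ∈ M24 ∧ c * permOf repInvFree = permOf repInvFree * c} = 7680 := by
  have h := class_mul_centralizer (t := permOf repInvFree)
  rw [classOf_repInvFree, card_freeInvols] at h
  omega

theorem cent_free_trans (p q : GolayPt) :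
    ∃ c ∈ M24, c * permOf repInvFree = permOf repInvFree * c ∧ c p = q := by
  have hw : ∀ p, ∃ c ∈ M24, Commute c (permOf repInvFree) ∧ c (pt 0) = p := by
    intro p
    have h := List.all_eq_true.1 centWit_check (idx p) (List.mem_range.2 (idx_lt p))
    simp only [Bool.and_eq_true, beq_iff_eq] at h
    obtain ⟨⟨⟨hk, he⟩, hp⟩, h0⟩ := h
    have hr : isPermList repInvFree = true := by decide
    refine ⟨_, permOf_mem_M24 hk, ?_, by rw [permOf_pt (keeps_perm hk) (by norm_num), h0, pt_idx]⟩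
    show _ = _
    rw [← permOf_mul (keeps_perm hk) hr hp he, permOf_mul hr (keeps_perm hk) hp rfl]
  obtain ⟨a, ha, ca, ea⟩ := hw p
  obtain ⟨b, hb, cb, eb⟩ := hw q
  refine ⟨b * a⁻¹, M24.mul_mem hb (M24.inv_mem ha), (cb.mul_left ca.inv_left).eq, ?_⟩
  rw [Equiv.Perm.mul_apply, ← eb, ← ea]
  exact congrArg b (a.symm_apply_apply _)

theorem unique_sextet : {S | S ∈ sextets ∧ ∀ X ∈ S, permOf repInvFree • X = X}.ncard = 1 := by
  have hr : isPermList repInvFree = true := by decide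
  refine Dec.ncard_where Dec.SextetCls.isCls Dec.sextet_check (fun S => ∀ X ∈ S, permOf repInvFree • X = X)
    (fun L => L.all fun m => imgMask repInvFree m == m) (fun L hL => ?_) one_sextet_check
  simp only [List.all_eq_true, Dec.interp, List.mem_toFinset, List.mem_map, forall_exists_index, and_imp,
    forall_apply_eq_imp_iff₂]
  refine forall₂_congr fun m hm => ?_
  rw [← toSet_imgMask hr, toSet_eq_iff (imgMask_lt hr m) (hL m hm), beq_iff_eq]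

end Cfsg.Lib.Golay.Elements
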