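import Mathlib
import Cfsg.Agent.Lib.Golay.InvFreeCent

/-! An element of order three with six fixed points commutes with no fixed-point-free involution. -/

set_option autoImplicit false
set_option maxRecDepth 100000

namespace Cfsg.Lib.Golay.Elements

open Cfsg
open scoped Pointwise

/-- Whether two lists commute as functions. -/
def commL (x s : List ℕ) : Bool := (List.range 24).all fun i => x.getD (s.getD i 0) 0 == s.getD (x.getD i 0) 0

/-- The check of one candidate. -/
def noComm (n : ℕ) : Bool :=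
  decodeL n == List.range 24 || !(compL (compL (decodeL n) (decodeL n)) (decodeL n) == List.range 24) ||
    freeL.all fun s => !commL (decodeL n) s

theorem noComm0 : levFourN0.all noComm = true := by decide +kernel
theorem noComm1 : levFourN1.all noComm = true := by decide +kernel
theorem noComm2 : levFourN2.all noComm = true := by decide +kernel
theorem noComm3 : levFourN3.all noComm = true := by decide +kernel

theorem not_commute_lev_four {x g : Equiv.Perm GolayPt} (hx : x ∈ lev 4) (h3 : orderOf x = 3)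
    (hg : g ∈ freeInvols) (g0 : g (baseP 0) = baseP 1) (g2 : g (baseP 2) = baseP 3) : ¬ Commute x g := by
  intro hc
  obtain ⟨hall, hlen, hnd, -⟩ := freeCand_check
  simp only [List.all_eq_true, Bool.and_eq_true, beq_iff_eq] at hall
  have hsub : ((freeL.map permOf).toFinset : Set (Equiv.Perm GolayPt)) ⊆
      {g | g ∈ freeInvols ∧ g (baseP 0) = baseP 1 ∧ g (baseP 2) = baseP 3} := by
    intro h hh
    simp only [List.coe_toFinset, Set.mem_ofPred_eq, List.mem_map] at hh
    obtain ⟨l, hl, rfl⟩ := hh
    obtain ⟨⟨⟨hk, e0⟩, e2⟩, hfr⟩ := hall l hl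
    simp only [isFreeInv, Bool.and_eq_true, beq_iff_eq] at hfr
    have hp := keeps_perm hk
    refine ⟨⟨permOf_mem_M24 hk, ?_, by rw [card_fixPts hp, hfr.2]⟩,
      by rw [baseP, baseP, permOf_pt hp (baseIdx_lt 0 (by norm_num)), e0],
      by rw [baseP, baseP, permOf_pt hp (baseIdx_lt 2 (by norm_num)), e2]⟩
    haveI : Fact (Nat.Prime 2) := ⟨Nat.prime_two⟩
    refine orderOf_eq_prime ?_ fun h => ?_
    · rw [pow_two, ← permOf_mul hp hp (c := List.range 24) (by decide) hfr.1, permOf_range]
    · have h' := eq_range_of_permOf_one hp h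
      have h2 := hfr.2
      rw [h'] at h2
      revert h2
      decide
  have heq := Set.eq_of_subset_of_ncard_le hsub (by
    rw [freeInvols_base, Set.ncard_coe_finset, List.toFinset_card_of_nodup, List.length_map, hlen]
    exact hnd.map_on fun a ha b hb e =>
      OctKer.permOf_injOn (keeps_perm (hall a ha).1.1.1) (keeps_perm (hall b hb).1.1.1) e)
  have hgm : g ∈ ((freeL.map permOf).toFinset : Set (Equiv.Perm GolayPt)) := heq.ge ⟨hg, g0, g2⟩
  simp only [List.coe_toFinset, Set.mem_ofPred_eq, List.mem_map] at hgm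
  obtain ⟨s, hs, rfl⟩ := hgm
  obtain ⟨l, hl, rfl⟩ := mem_levFourL hx
  have hlp := List.all_eq_true.1 levFourL_perm l hl
  have hsp := keeps_perm (hall s hs).1.1.1
  obtain ⟨n, hn, rfl⟩ := List.mem_map.1 (mem_levFourD hl)
  have ht : noComm n = true := by
    simp only [List.mem_append] at hn
    rcases hn with ((h | h) | h) | h
    exacts [List.all_eq_true.1 noComm0 n h, List.all_eq_true.1 noComm1 n h,
      List.all_eq_true.1 noComm2 n h, List.all_eq_true.1 noComm3 n h]
  simp only [noComm, Bool.or_eq_true, Bool.not_eq_true', beq_iff_eq, beq_eq_false_iff_ne,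
    List.all_eq_true] at ht
  rcases ht with (ht | ht) | ht
  · rw [ht, permOf_range, orderOf_one] at h3
    norm_num at h3
  · have hp2 := isPerm_compL hlp hlp
    refine ht (eq_range_of_permOf_one (isPerm_compL hp2 hlp) ?_)
    rw [permOf_mul hp2 hlp (isPerm_compL hp2 hlp) rfl, permOf_mul hlp hlp hp2 rfl, ← pow_two, ← pow_succ]
    show _ ^ 3 = (1 : Equiv.Perm GolayPt)
    rw [← h3, pow_orderOf_eq_one]
  · have h := ht s hs
    simp only [commL, List.all_eq_false, List.mem_range, beq_iff_eq] at h
    obtain ⟨i, hi, hne⟩ := h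
    have e := congrArg idx (Equiv.ext_iff.1 hc.eq (pt i))
    rw [Equiv.Perm.mul_apply, Equiv.Perm.mul_apply, idx_permOf hlp, idx_permOf hsp, idx_permOf hsp, idx_permOf hlp,
      idx_pt hi] at e
    exact hne e

theorem three_fix_not_commute_free {x s : Equiv.Perm GolayPt} (hx : x ∈ M24) (h3 : orderOf x = 3)
    (h6 : (fixPts x).card = 6) (hs : s ∈ freeInvols) : ¬ Commute x s := by
  intro hc
  have hs0 : ∀ p, s p ≠ p := fun p hp => by
    have h0 := hs.2.2
    rw [Finset.card_eq_zero] at h0
    exact Finset.notMem_empty p (h0 ▸ mem_fixPts.2 hp)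
  have hinv : ∀ p, x p = p → x (s p) = s p := fun p hp => by
    rw [← Equiv.Perm.mul_apply, hc.eq, Equiv.Perm.mul_apply, hp]
  obtain ⟨a, ha⟩ := Finset.card_pos.1 (show 0 < (fixPts x).card by omega)
  obtain ⟨c, hc', hca⟩ := Finset.exists_mem_notMem_of_card_lt_card (t := fixPts x) (s := {a, s a})
    (Finset.card_le_two.trans_lt (by omega))
  simp only [Finset.mem_insert, Finset.mem_singleton, not_or] at hca
  rw [mem_fixPts] at ha hc'
  let t : Fin 4 ↪ GolayPt := ⟨![a, s a, c, s c], by
    intro i j e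
    fin_cases i <;> fin_cases j <;> first
      | rfl
      | exact absurd e (hs0 _) | exact absurd e (Ne.symm (hs0 _))
      | exact absurd e hca.1 | exact absurd e (Ne.symm hca.1)
      | exact absurd e hca.2 | exact absurd e (Ne.symm hca.2)
      | exact absurd (s.injective e) hca.1 | exact absurd (s.injective e) (Ne.symm hca.1)
      | exact absurd (show a = s c from e) (fun e' => hca.2 (by rw [e', apply_two hs.2.1]))
      | exact absurd (show s c = a from e) (fun e' => hca.2 (by rw [← e', apply_two hs.2.1]))⟩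
  obtain ⟨τ, hτ, ht⟩ := exists_tuple_to_base (by norm_num : 4 ≤ 5) t
  have hconj : ∀ (g : Equiv.Perm GolayPt) p, (τ * g * τ⁻¹) (τ p) = τ (g p) := fun g p => by
    rw [Equiv.Perm.mul_apply, Equiv.Perm.mul_apply, show τ⁻¹ (τ p) = p from τ.symm_apply_apply p]
  have e0 : τ a = baseP 0 := ht 0
  have e1 : τ (s a) = baseP 1 := ht 1
  have e2 : τ c = baseP 2 := ht 2
  have e3 : τ (s c) = baseP 3 := ht 3
  refine not_commute_lev_four (x := τ * x * τ⁻¹) (g := τ * s * τ⁻¹) ?_
    (by rw [← MulAut.conj_apply, MulEquiv.orderOf_eq, h3]) (conj_freeInvols hτ hs)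
    (by rw [← e0, hconj, e1]) (by rw [← e2, hconj, e3]) ?_
  · refine (mem_lev_iff _ 4).2 ⟨M24_le_setSystemAut (M24.mul_mem (M24.mul_mem hτ hx) (M24.inv_mem hτ)), fun j hj => ?_⟩
    rcases j with _ | _ | _ | _ | j
    · rw [← e0, hconj, ha]
    · rw [← e1, hconj, hinv a ha]
    · rw [← e2, hconj, hc']
    · rw [← e3, hconj, hinv c hc']
    · omega
  · exact hc.map (MulAut.conj τ)

theorem three_free_not_commute_fix {x s : Equiv.Perm GolayPt} (h3 : orderOf x = 3)
    (h0 : (fixPts x).card = 0) (h8 : (fixPts s).card = 8) : ¬ Commute x s := by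
  intro hc
  haveI : Fact (Nat.Prime 3) := ⟨Nat.prime_three⟩
  have hinv : ∀ p, p ∈ fixPts s ↔ x p ∈ fixPts s := fun p => by
    simp only [mem_fixPts]
    rw [show s (x p) = x (s p) from (Equiv.ext_iff.1 hc.eq p).symm]
    exact ⟨fun h => by rw [h], fun h => x.injective h⟩
  obtain ⟨a, ha⟩ := Equiv.Perm.exists_fixed_point_of_prime (p := 3) (n := 1)
    (σ := x.subtypePerm (fun p => (hinv p).symm)) (by rw [Fintype.card_coe, h8]; norm_num) (by
      refine Equiv.ext fun a => Subtype.ext ?_
      simp only [pow_one, Equiv.Perm.subtypePerm_pow, Equiv.Perm.subtypePerm_apply, Equiv.Perm.one_apply]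
      rw [← h3, pow_orderOf_eq_one, Equiv.Perm.one_apply])
  have : (a : GolayPt) ∈ fixPts x := mem_fixPts.2 (congrArg Subtype.val ha)
  rw [Finset.card_eq_zero] at h0
  rw [h0] at this
  exact Finset.notMem_empty _ this

end Cfsg.Lib.Golay.Elements
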