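import Mathlib
import Cfsg.Prelude.Def_SporadicCombinatorics
import Cfsg.Agent.Lib.Golay.Elements
import Cfsg.Agent.Lib.Golay.Dodecads
import Cfsg.Agent.Lib.Golay.Dec.Counting
import Cfsg.Agent.Lib.Golay.Dec.Classes

/-! Octads, trios, sextets and dodecads fixed by involutions and by elements of order three. -/

set_option autoImplicit false
set_option maxRecDepth 100000

namespace Cfsg.Lib.Golay.Elements

open Cfsg
open scoped Pointwise

theorem octads_fixed {r : List ℕ} (hr : isPermList r = true) {k : ℕ}
    (hk : octMasks.countP (fun o => imgMask r o == o) = k) :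
    {o : Finset GolayPt | o ∈ octads ∧ permOf r • o = o}.ncard = k := by
  rw [ncard_octads_filter (fun o => permOf r • o = o) (fun o => imgMask r o == o), hk]
  intro n hn
  rw [← toSet_imgMask hr, toSet_eq_iff (imgMask_lt hr n) (lt_of_inCode (inCode_of_mem_octMasks hn).1), beq_iff_eq]

theorem dodecads_fixed {r : List ℕ} (hr : isPermList r = true) {k : ℕ}
    (hk : dodMasks.countP (fun o => imgMask r o == o) = k) :
    {o : Finset GolayPt | o ∈ dodecads ∧ permOf r • o = o}.ncard = k := by
  rw [ncard_dodecads_filter (fun o => permOf r • o = o) (fun o => imgMask r o == o), hk]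
  intro n hn
  rw [← toSet_imgMask hr, toSet_eq_iff (imgMask_lt hr n) (lt_of_inCode (inCode_of_mem_dodMasks hn).1), beq_iff_eq]

theorem rep_perm : isPermList repInvFree = true ∧ isPermList repInvFix = true ∧
    isPermList repThreeFix = true ∧ isPermList repThreeFree = true := by decide +kernel

theorem invFix_octads : octMasks.countP (fun o => imgMask repInvFix o == o) = 71 := by decide +kernel
theorem invFree_octads : octMasks.countP (fun o => imgMask repInvFree o == o) = 15 := by decide +kernel
theorem threeFix_octads : octMasks.countP (fun o => imgMask repThreeFix o == o) = 21 := by decide +kernel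
theorem threeFix_dodecads : dodMasks.countP (fun o => imgMask repThreeFix o == o) = 20 := by decide +kernel
theorem invFix_trios : Dec.fixCount Dec.TrioCls.base Dec.TrioCls.cert repInvFix = 99 := by decide +kernel
theorem invFree_trios : Dec.fixCount Dec.TrioCls.base Dec.TrioCls.cert repInvFree = 75 := by decide +kernel
theorem threeFix_trios : Dec.fixCount Dec.TrioCls.base Dec.TrioCls.cert repThreeFix = 15 := by decide +kernel
theorem threeFree_trios : Dec.fixCount Dec.TrioCls.base Dec.TrioCls.cert repThreeFree = 15 := by decide +kernel
theorem invFix_sextets : Dec.fixCount Dec.SextetCls.base Dec.SextetCls.cert repInvFix = 91 := by decide +kernel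
theorem invFree_sextets : Dec.fixCount Dec.SextetCls.base Dec.SextetCls.cert repInvFree = 51 := by decide +kernel
theorem threeFix_sextets : Dec.fixCount Dec.SextetCls.base Dec.SextetCls.cert repThreeFix = 16 := by decide +kernel
theorem threeFree_sextets : Dec.fixCount Dec.SextetCls.base Dec.SextetCls.cert repThreeFree = 7 := by decide +kernel

theorem trios_fixed {r : List ℕ} (hr : isPermList r = true) {k : ℕ}
    (hk : Dec.fixCount Dec.TrioCls.base Dec.TrioCls.cert r = k) :
    {T : Finset (Finset GolayPt) | T ∈ trios ∧ permOf r • T = T}.ncard = k :=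
  Dec.ncard_fixed Dec.TrioCls.isCls Dec.trio_check hr hk

theorem sextets_fixed {r : List ℕ} (hr : isPermList r = true) {k : ℕ}
    (hk : Dec.fixCount Dec.SextetCls.base Dec.SextetCls.cert r = k) :
    {T : Finset (Finset GolayPt) | T ∈ sextets ∧ permOf r • T = T}.ncard = k :=
  Dec.ncard_fixed Dec.SextetCls.isCls Dec.sextet_check hr hk

end Cfsg.Lib.Golay.Elements
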