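import Mathlib
import Cfsg.Agent.Lib.Golay.Quartets
import Cfsg.Agent.Lib.Golay.OctKer

/-! The stabiliser of a quartet in the stabiliser of its dodecad: nine times `GL(2,3)`. -/

set_option autoImplicit false
set_option maxRecDepth 100000
set_option linter.constructorNameAsVariable false

namespace Cfsg.Lib.Golay.QuartetStab

open Cfsg Chain Quartets
open scoped Pointwise

/-- The normal subgroup of order nine. -/
def nL : List (List ℕ) := [
  [0, 1, 2, 3, 4, 5, 6, 7, 8, 9, 10, 11, 12, 13, 14, 15, 16, 17, 18, 19, 20, 21, 22, 23],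
  [0, 1, 2, 4, 12, 15, 16, 7, 9, 13, 10, 22, 3, 8, 21, 19, 18, 17, 6, 5, 14, 20, 23, 11],
  [0, 1, 2, 12, 3, 19, 18, 7, 13, 8, 10, 23, 4, 9, 20, 5, 6, 17, 16, 15, 21, 14, 11, 22],
  [1, 2, 0, 3, 4, 23, 18, 7, 9, 13, 10, 21, 12, 8, 5, 11, 6, 17, 16, 22, 19, 15, 20, 14],
  [1, 2, 0, 4, 12, 11, 6, 7, 13, 8, 10, 20, 3, 9, 15, 22, 16, 17, 18, 23, 5, 19, 14, 21],
  [1, 2, 0, 12, 3, 22, 16, 7, 8, 9, 10, 14, 4, 13, 19, 23, 18, 17, 6, 11, 15, 5, 21, 20],
  [2, 0, 1, 3, 4, 14, 16, 7, 13, 8, 10, 15, 12, 9, 23, 21, 18, 17, 6, 20, 22, 11, 19, 5],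
  [2, 0, 1, 4, 12, 21, 18, 7, 8, 9, 10, 19, 3, 13, 11, 20, 6, 17, 16, 14, 23, 22, 5, 15],
  [2, 0, 1, 12, 3, 20, 6, 7, 9, 13, 10, 5, 4, 8, 22, 14, 16, 17, 18, 21, 11, 23, 15, 19]]

/-- The complement, indexed by matrix codes. -/
def cTab : List (List ℕ) := [
  [],
  [],
  [],
  [],
  [],
  [],
  [],
  [],
  [],
  [],
  [],
  [],
  [9, 13, 8, 4, 3, 11, 6, 17, 2, 0, 10, 5, 12, 1, 15, 14, 16, 7, 18, 19, 20, 23, 22, 21],
  [6, 16, 18, 13, 9, 11, 3, 10, 2, 0, 7, 15, 8, 1, 19, 20, 4, 17, 12, 5, 21, 23, 22, 14],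
  [3, 4, 12, 16, 6, 11, 9, 7, 2, 0, 17, 19, 18, 1, 5, 21, 13, 10, 8, 15, 14, 23, 22, 20],
  [9, 13, 8, 16, 6, 11, 3, 7, 2, 1, 10, 21, 18, 0, 20, 19, 4, 17, 12, 14, 15, 23, 22, 5],
  [6, 16, 18, 4, 3, 11, 9, 17, 2, 1, 7, 14, 12, 0, 21, 5, 13, 10, 8, 20, 19, 23, 22, 15],
  [3, 4, 12, 13, 9, 11, 6, 10, 2, 1, 17, 20, 8, 0, 14, 15, 16, 7, 18, 21, 5, 23, 22, 19],
  [],
  [],
  [],
  [13, 9, 8, 6, 16, 23, 4, 7, 2, 0, 10, 5, 18, 1, 19, 20, 3, 17, 12, 15, 14, 11, 22, 21],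
  [4, 3, 12, 9, 13, 23, 16, 10, 2, 0, 17, 19, 8, 1, 15, 14, 6, 7, 18, 5, 21, 11, 22, 20],
  [16, 6, 18, 3, 4, 23, 13, 17, 2, 0, 7, 15, 12, 1, 5, 21, 9, 10, 8, 19, 20, 11, 22, 14],
  [13, 9, 8, 3, 4, 23, 16, 17, 2, 1, 10, 21, 12, 0, 14, 15, 6, 7, 18, 20, 19, 11, 22, 5],
  [4, 3, 12, 6, 16, 23, 13, 7, 2, 1, 17, 20, 18, 0, 21, 5, 9, 10, 8, 14, 15, 11, 22, 19],
  [16, 6, 18, 9, 13, 23, 4, 10, 2, 1, 7, 14, 8, 0, 20, 19, 3, 17, 12, 21, 5, 11, 22, 15],
  [],
  [0, 1, 2, 3, 4, 5, 6, 7, 8, 9, 10, 11, 12, 13, 14, 15, 16, 17, 18, 19, 20, 21, 22, 23],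
  [1, 0, 2, 6, 16, 21, 3, 17, 8, 9, 10, 11, 18, 13, 19, 20, 4, 7, 12, 14, 15, 5, 22, 23],
  [],
  [0, 1, 2, 9, 13, 15, 3, 17, 18, 6, 7, 11, 8, 16, 20, 19, 4, 10, 12, 5, 21, 14, 22, 23],
  [1, 0, 2, 3, 4, 14, 9, 10, 18, 6, 7, 11, 12, 16, 5, 21, 13, 17, 8, 20, 19, 15, 22, 23],
  [],
  [0, 1, 2, 6, 16, 19, 9, 10, 12, 3, 17, 11, 18, 4, 21, 5, 13, 7, 8, 15, 14, 20, 22, 23],
  [1, 0, 2, 9, 13, 20, 6, 7, 12, 3, 17, 11, 8, 4, 15, 14, 16, 10, 18, 21, 5, 19, 22, 23],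
  [],
  [6, 16, 18, 1, 0, 5, 4, 10, 8, 9, 17, 14, 2, 13, 19, 20, 3, 7, 12, 11, 23, 21, 22, 15],
  [3, 4, 12, 0, 1, 21, 16, 10, 8, 9, 7, 19, 2, 13, 14, 15, 6, 17, 18, 11, 23, 5, 22, 20],
  [9, 13, 8, 0, 1, 14, 4, 7, 18, 6, 17, 5, 2, 16, 20, 19, 3, 10, 12, 11, 23, 15, 22, 21],
  [],
  [3, 4, 12, 1, 0, 15, 13, 7, 18, 6, 10, 20, 2, 16, 5, 21, 9, 17, 8, 11, 23, 14, 22, 19],
  [9, 13, 8, 1, 0, 19, 16, 17, 12, 3, 7, 21, 2, 4, 15, 14, 6, 10, 18, 11, 23, 20, 22, 5],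
  [6, 16, 18, 0, 1, 20, 13, 17, 12, 3, 10, 15, 2, 4, 21, 5, 9, 7, 8, 11, 23, 19, 22, 14],
  [],
  [],
  [4, 3, 12, 16, 6, 5, 0, 17, 8, 9, 7, 19, 18, 13, 11, 23, 1, 10, 2, 14, 15, 21, 22, 20],
  [16, 6, 18, 4, 3, 21, 1, 7, 8, 9, 17, 14, 12, 13, 11, 23, 0, 10, 2, 19, 20, 5, 22, 15],
  [13, 9, 8, 4, 3, 15, 0, 10, 18, 6, 17, 5, 12, 16, 11, 23, 1, 7, 2, 20, 19, 14, 22, 21],
  [4, 3, 12, 13, 9, 14, 1, 17, 18, 6, 10, 20, 8, 16, 11, 23, 0, 7, 2, 5, 21, 15, 22, 19],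
  [],
  [13, 9, 8, 16, 6, 20, 1, 10, 12, 3, 7, 21, 18, 4, 11, 23, 0, 17, 2, 15, 14, 19, 22, 5],
  [],
  [16, 6, 18, 13, 9, 19, 0, 7, 12, 3, 10, 15, 8, 4, 11, 23, 1, 17, 2, 21, 5, 20, 22, 14],
  [],
  [0, 1, 2, 16, 6, 5, 4, 17, 8, 13, 10, 23, 18, 9, 20, 19, 3, 7, 12, 15, 14, 21, 22, 11],
  [1, 0, 2, 4, 3, 21, 16, 7, 8, 13, 10, 23, 12, 9, 15, 14, 6, 17, 18, 20, 19, 5, 22, 11],
  [],
  [0, 1, 2, 13, 9, 19, 16, 7, 12, 4, 17, 23, 8, 3, 14, 15, 6, 10, 18, 5, 21, 20, 22, 11],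
  [1, 0, 2, 16, 6, 20, 13, 10, 12, 4, 17, 23, 18, 3, 5, 21, 9, 7, 8, 14, 15, 19, 22, 11],
  [],
  [0, 1, 2, 4, 3, 15, 13, 10, 18, 16, 7, 23, 12, 6, 21, 5, 9, 17, 8, 19, 20, 14, 22, 11],
  [1, 0, 2, 13, 9, 14, 4, 17, 18, 16, 7, 23, 8, 6, 19, 20, 3, 10, 12, 21, 5, 15, 22, 11],
  [],
  [6, 16, 18, 3, 4, 5, 0, 7, 8, 13, 17, 15, 12, 9, 23, 11, 1, 10, 2, 20, 19, 21, 22, 14],
  [3, 4, 12, 6, 16, 21, 1, 17, 8, 13, 7, 20, 18, 9, 23, 11, 0, 10, 2, 15, 14, 5, 22, 19],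
  [9, 13, 8, 6, 16, 19, 0, 10, 12, 4, 7, 5, 18, 3, 23, 11, 1, 17, 2, 14, 15, 20, 22, 21],
  [6, 16, 18, 9, 13, 20, 1, 7, 12, 4, 10, 14, 8, 3, 23, 11, 0, 17, 2, 5, 21, 19, 22, 15],
  [],
  [9, 13, 8, 3, 4, 14, 1, 10, 18, 16, 17, 21, 12, 6, 23, 11, 0, 7, 2, 19, 20, 15, 22, 5],
  [],
  [3, 4, 12, 9, 13, 15, 0, 17, 18, 16, 10, 19, 8, 6, 23, 11, 1, 7, 2, 21, 5, 14, 22, 20],
  [],
  [4, 3, 12, 1, 0, 5, 6, 10, 8, 13, 7, 20, 2, 9, 15, 14, 16, 17, 18, 23, 11, 21, 22, 19],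
  [16, 6, 18, 0, 1, 21, 3, 10, 8, 13, 17, 15, 2, 9, 20, 19, 4, 7, 12, 23, 11, 5, 22, 14],
  [13, 9, 8, 0, 1, 20, 6, 17, 12, 4, 7, 5, 2, 3, 14, 15, 16, 10, 18, 23, 11, 19, 22, 21],
  [],
  [16, 6, 18, 1, 0, 19, 9, 17, 12, 4, 10, 14, 2, 3, 5, 21, 13, 7, 8, 23, 11, 20, 22, 15],
  [13, 9, 8, 1, 0, 15, 3, 7, 18, 16, 17, 21, 2, 6, 19, 20, 4, 10, 12, 23, 11, 14, 22, 5],
  [4, 3, 12, 0, 1, 14, 9, 7, 18, 16, 10, 19, 2, 6, 21, 5, 13, 17, 8, 23, 11, 15, 22, 20],
  []]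

/-- The stabiliser of the base quartet in the stabiliser of the base dodecad. -/
def H₀ : Subgroup (Equiv.Perm GolayPt) :=
  G12 ⊓ MulAction.stabilizer (Equiv.Perm GolayPt) qBase

/-- Whether a list lies in `H₀`. -/
def inH (l : List ℕ) : Bool :=
  inTwelve l && (tBase :: uBase :: vBase).all fun a => (tBase :: uBase :: vBase).contains (imgMask l a)

/-- The valid codes. -/
def codes : List ℕ := (List.range 81).filter fun i => !(((i / 27) * (i % 3) % 3) == ((i / 9 % 3) * (i / 3 % 3) % 3))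

/-- Multiplication of codes. -/
def mulC (i j : ℕ) : ℕ :=
  27 * (((i / 27) * (j / 27) + (i / 9 % 3) * (j / 3 % 3)) % 3) +
  9 * (((i / 27) * (j / 9 % 3) + (i / 9 % 3) * (j % 3)) % 3) +
  3 * (((i / 3 % 3) * (j / 27) + (i % 3) * (j / 3 % 3)) % 3) +
  ((i / 3 % 3) * (j / 9 % 3) + (i % 3) * (j % 3)) % 3

theorem nL_check : nL.all inH = true ∧ nL.length = 9 ∧ nL.Nodup ∧
    (nL.all fun a => nL.all fun b => nL.contains (compL a b)) = true := by decide +kernel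

theorem cTab_check : (codes.all fun i => inH (cTab.getD i []) &&
    (!(nL.contains (cTab.getD i [])) || cTab.getD i [] == List.range 24)) = true := by decide +kernel

theorem cTab_inj : (codes.all fun i => i == 28 || !(cTab.getD i [] == List.range 24)) = true := by decide +kernel

theorem cTab_mul : (codes.all fun i => codes.all fun j =>
    compL (cTab.getD i []) (cTab.getD j []) == cTab.getD (mulC i j) []) = true := by decide +kernel

theorem norm_check : (codes.all fun i => nL.all fun n => nL.any fun k =>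
    compL (cTab.getD i []) n == compL k (cTab.getD i [])) = true := by decide +kernel

theorem cover_check : (dodIdx.all fun k => nL.any fun n => codes.any fun i =>
    n.getD ((cTab.getD i []).getD dodPt 0) 0 == k) = true := by decide +kernel

theorem inH_spec {l : List ℕ} (h : inH l = true) : isPermList l = true ∧ permOf l ∈ H₀ := by
  simp only [inH, Bool.and_eq_true, List.all_eq_true, List.contains_iff_mem] at h
  obtain ⟨hp, hm⟩ := inTwelve_spec l h.1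
  refine ⟨hp, hm, ?_⟩
  show permOf l • qBase = qBase
  refine Finset.eq_of_subset_of_card_le (fun x hx => ?_) (by rw [Finset.card_smul_finset])
  obtain ⟨y, hy, rfl⟩ := Finset.mem_smul_finset.1 hx
  simp only [qBase, List.mem_toFinset, List.mem_map] at hy ⊢
  obtain ⟨a, ha, rfl⟩ := hy
  exact ⟨_, h.2 a ha, toSet_imgMask hp a⟩

theorem card_H₀ : Nat.card H₀ = 432 := by
  have horb : MulAction.orbit G12 qBase = quartets (toSet baseDod) := by
    ext Q
    constructor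
    · rintro ⟨g, rfl⟩
      have := quartets_smul g.2.1 qBase_mem
      rwa [show g.1 • toSet baseDod = toSet baseDod from g.2.2] at this
    · intro hQ
      obtain ⟨g, hg, e⟩ := quartet_trans qBase_mem hQ
      exact ⟨⟨g, hg⟩, e⟩
  have h := Nat.card_congr (MulAction.orbitProdStabilizerEquivGroup G12 qBase)
  rw [Nat.card_prod, Nat.card_coe_set_eq, horb, ncard_quartets, card_G12] at h
  have e : Nat.card H₀ = Nat.card (MulAction.stabilizer G12 qBase) :=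
    Nat.card_congr
      { toFun := fun g => ⟨⟨g.1, g.2.1⟩, g.2.2⟩
        invFun := fun g => ⟨g.1.1, g.1.2, g.2⟩
        left_inv := fun _ => rfl
        right_inv := fun _ => rfl }
  omega

theorem nL_spec {l : List ℕ} (hl : l ∈ nL) : isPermList l = true ∧ permOf l ∈ H₀ :=
  inH_spec (List.all_eq_true.1 nL_check.1 l hl)

theorem c_spec {i : ℕ} (hi : i ∈ codes) :
    isPermList (cTab.getD i []) = true ∧ permOf (cTab.getD i []) ∈ H₀ := by
  have h := List.all_eq_true.1 cTab_check i hi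
  simp only [Bool.and_eq_true] at h
  exact inH_spec h.1

/-- The normal subgroup, as a subgroup of the permutations. -/
noncomputable def N₀ : Subgroup (Equiv.Perm GolayPt) :=
  Subgroup.closure ((nL.map permOf).toFinset : Set (Equiv.Perm GolayPt))

theorem N₀_eq : (N₀ : Set (Equiv.Perm GolayPt)) = ((nL.map permOf).toFinset : Set _) := by
  classical
  set s := ((nL.map permOf).toFinset : Set (Equiv.Perm GolayPt)) with hs
  have hmul : ∀ a ∈ s, ∀ b ∈ s, a * b ∈ s := by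
    intro a ha b hb
    simp only [hs, List.coe_toFinset, Set.mem_ofPred_eq, List.mem_map] at ha hb ⊢
    obtain ⟨l, hl, rfl⟩ := ha
    obtain ⟨k, hk, rfl⟩ := hb
    have h := List.all_eq_true.1 (List.all_eq_true.1 nL_check.2.2.2 l hl) k hk
    rw [List.contains_iff_mem] at h
    exact ⟨_, h, permOf_mul (nL_spec hl).1 (nL_spec hk).1 (nL_spec h).1 rfl⟩
  refine le_antisymm (fun x hx => ?_) Subgroup.subset_closure
  rw [SetLike.mem_coe, N₀, ← Subgroup.mem_toSubmonoid, Subgroup.closure_toSubmonoid_of_finite] at hx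
  · obtain ⟨l, hl⟩ : ∃ l, l ∈ nL := List.exists_mem_of_length_pos (by rw [nL_check.2.1]; norm_num)
    have hone : (1 : Equiv.Perm GolayPt) ∈ s := by
      have hfin : IsOfFinOrder (permOf l) := isOfFinOrder_of_finite _
      have key : ∀ n, 0 < n → permOf l ^ n ∈ s := by
        intro n hn
        induction n with
        | zero => omega
        | succ n ih =>
          rcases Nat.eq_zero_or_pos n with rfl | hn'
          · rw [pow_one]; simp only [hs, List.coe_toFinset, Set.mem_ofPred_eq, List.mem_map]; exact ⟨l, hl, rfl⟩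
          · rw [pow_succ]
            exact hmul _ (ih hn') _ (by simp only [hs, List.coe_toFinset, Set.mem_ofPred_eq, List.mem_map]; exact ⟨l, hl, rfl⟩)
      have := key _ hfin.orderOf_pos
      rwa [pow_orderOf_eq_one] at this
    induction hx using Submonoid.closure_induction with
    | mem y hy => exact hy
    | one => exact hone
    | mul a b _ _ ha hb => exact hmul a ha b hb

theorem card_N₀ : Nat.card N₀ = 9 := by
  classical
  rw [← SetLike.coe_sort_coe, Nat.card_coe_set_eq, N₀_eq, Set.ncard_coe_finset, List.toFinset_card_of_nodup,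
    List.length_map, nL_check.2.1]
  exact nL_check.2.2.1.map_on fun a ha b hb e => OctKer.permOf_injOn (nL_spec ha).1 (nL_spec hb).1 e

theorem mem_N₀ {g : Equiv.Perm GolayPt} : g ∈ N₀ ↔ ∃ l ∈ nL, permOf l = g := by
  rw [← SetLike.mem_coe, N₀_eq]
  simp

/-- The code of an invertible matrix. -/
def code (u : GL (Fin 2) (ZMod 3)) : ℕ :=
  27 * (u.1 0 0).val + 9 * (u.1 0 1).val + 3 * (u.1 1 0).val + (u.1 1 1).val

theorem code_digits : ∀ a b c d : ZMod 3,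
    (27 * a.val + 9 * b.val + 3 * c.val + d.val < 81) ∧ (a * d - b * c ≠ 0 → 27 * a.val + 9 * b.val + 3 * c.val + d.val ∈ codes) := by
  decide +kernel

theorem code_mem (u : GL (Fin 2) (ZMod 3)) : code u ∈ codes := by
  refine (code_digits _ _ _ _).2 ?_
  rw [← Matrix.det_fin_two]
  exact IsUnit.ne_zero ((Matrix.isUnit_iff_isUnit_det u.1).1 u.isUnit)

theorem code_mul_digits : ∀ a b c d a' b' c' d' : ZMod 3,
    27 * (a * a' + b * c').val + 9 * (a * b' + b * d').val + 3 * (c * a' + d * c').val + (c * b' + d * d').val =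
      mulC (27 * a.val + 9 * b.val + 3 * c.val + d.val) (27 * a'.val + 9 * b'.val + 3 * c'.val + d'.val) := by
  decide +kernel

theorem code_mul (u v : GL (Fin 2) (ZMod 3)) : code (u * v) = mulC (code u) (code v) := by
  simp only [code, Units.val_mul, Matrix.mul_apply, Fin.sum_univ_two]
  exact code_mul_digits _ _ _ _ _ _ _ _

theorem code_inj : Function.Injective code := by
  intro u v h
  have key : ∀ a b c d a' b' c' d' : ZMod 3,
      27 * a.val + 9 * b.val + 3 * c.val + d.val = 27 * a'.val + 9 * b'.val + 3 * c'.val + d'.val →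
        a = a' ∧ b = b' ∧ c = c' ∧ d = d' := by
    intro a b c d a' b' c' d' h
    have := ZMod.val_lt a; have := ZMod.val_lt b; have := ZMod.val_lt c; have := ZMod.val_lt d
    have := ZMod.val_lt a'; have := ZMod.val_lt b'; have := ZMod.val_lt c'; have := ZMod.val_lt d'
    exact ⟨ZMod.val_injective 3 (by omega), ZMod.val_injective 3 (by omega), ZMod.val_injective 3 (by omega),
      ZMod.val_injective 3 (by omega)⟩
  obtain ⟨h1, h2, h3, h4⟩ := key _ _ _ _ _ _ _ _ h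
  refine Units.ext (Matrix.ext fun i j => ?_)
  fin_cases i <;> fin_cases j
  exacts [h1, h2, h3, h4]

theorem code_one {u : GL (Fin 2) (ZMod 3)} (h : code u = 28) : u = 1 := code_inj (h.trans (by decide))

/-- The complement, as a homomorphism. -/
noncomputable def cHom : GL (Fin 2) (ZMod 3) →* H₀ :=
  MonoidHom.mk' (fun u => ⟨permOf (cTab.getD (code u) []), (c_spec (code_mem u)).2⟩) fun u v => by
    refine Subtype.ext ?_
    show permOf (cTab.getD (code (u * v)) []) = permOf (cTab.getD (code u) []) * permOf (cTab.getD (code v) [])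
    have h := List.all_eq_true.1 (List.all_eq_true.1 cTab_mul _ (code_mem u)) _ (code_mem v)
    rw [beq_iff_eq, ← code_mul] at h
    exact permOf_mul (c_spec (code_mem u)).1 (c_spec (code_mem v)).1 (c_spec (code_mem _)).1 h

theorem cHom_inter {u : GL (Fin 2) (ZMod 3)} (h : (cHom u).1 ∈ N₀) : u = 1 := by
  obtain ⟨l, hl, e⟩ := mem_N₀.1 h
  have e' : l = cTab.getD (code u) [] := OctKer.permOf_injOn (nL_spec hl).1 (c_spec (code_mem u)).1 e
  have h1 := List.all_eq_true.1 cTab_check _ (code_mem u)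
  simp only [Bool.and_eq_true, Bool.or_eq_true, Bool.not_eq_true', beq_iff_eq] at h1
  have h2 : cTab.getD (code u) [] = List.range 24 := h1.2.resolve_left fun hc => by
    have hm : nL.contains (cTab.getD (code u) []) = true := List.contains_iff_mem.2 (e' ▸ hl)
    rw [hm] at hc; exact absurd hc (by decide)
  have h3 := List.all_eq_true.1 cTab_inj _ (code_mem u)
  simp only [Bool.or_eq_true, beq_iff_eq, Bool.not_eq_true', beq_eq_false_iff_ne] at h3
  exact code_one (h3.resolve_right fun hne => hne h2)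

theorem card_GL23 : Nat.card (GL (Fin 2) (ZMod 3)) = 48 := by
  rw [Matrix.card_GL_field]
  simp [Fin.prod_univ_two, ZMod.card]

theorem exists_prod {h : Equiv.Perm GolayPt} (hh : h ∈ H₀) : ∃ n ∈ N₀, ∃ u, h = n * (cHom u).1 := by
  classical
  have hN : ∀ n ∈ N₀, n ∈ H₀ := fun n hn => by
    obtain ⟨l, hl, rfl⟩ := mem_N₀.1 hn; exact (nL_spec hl).2
  let f : N₀ × GL (Fin 2) (ZMod 3) → H₀ := fun x => ⟨x.1.1 * (cHom x.2).1, H₀.mul_mem (hN _ x.1.2) (cHom x.2).2⟩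
  have hinj : Function.Injective f := by
    rintro ⟨n, u⟩ ⟨n', u'⟩ e
    have e' : n.1 * (cHom u).1 = n'.1 * (cHom u').1 := congrArg Subtype.val e
    have hu : (cHom (u * u'⁻¹)).1 ∈ N₀ := by
      rw [map_mul, map_inv, Subgroup.coe_mul, Subgroup.coe_inv,
        show (cHom u).1 * ((cHom u').1)⁻¹ = n.1⁻¹ * n'.1 by
          rw [eq_inv_mul_iff_mul_eq, ← mul_assoc, e', mul_inv_cancel_right]]
      exact N₀.mul_mem (N₀.inv_mem n.2) n'.2
    have := mul_inv_eq_one.1 (cHom_inter hu)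
    subst this
    exact Prod.ext (Subtype.ext (mul_right_cancel e')) rfl
  have hbij := (Nat.bijective_iff_injective_and_card f).2 ⟨hinj, by
    rw [Nat.card_prod, card_N₀, card_GL23, card_H₀]⟩
  obtain ⟨⟨n, u⟩, e⟩ := hbij.2 ⟨h, hh⟩
  exact ⟨n, n.2, u, (congrArg Subtype.val e).symm⟩

theorem normal_N₀ {h n : Equiv.Perm GolayPt} (hh : h ∈ H₀) (hn : n ∈ N₀) : h * n * h⁻¹ ∈ N₀ := by
  obtain ⟨m, hm, u, rfl⟩ := exists_prod hh
  obtain ⟨l, hl, rfl⟩ := mem_N₀.1 hn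
  obtain ⟨k, hk, e⟩ := List.any_eq_true.1 (List.all_eq_true.1 (List.all_eq_true.1 norm_check _ (code_mem u)) l hl)
  rw [beq_iff_eq] at e
  have hp := (c_spec (code_mem u)).1
  have hconj : (cHom u).1 * permOf l * ((cHom u).1)⁻¹ = permOf k := by
    rw [mul_inv_eq_iff_eq_mul]
    show permOf (cTab.getD (code u) []) * permOf l = permOf k * permOf (cTab.getD (code u) [])
    refine Equiv.ext fun p => idx_inj ?_
    rw [Equiv.Perm.mul_apply, Equiv.Perm.mul_apply, idx_permOf hp, idx_permOf (nL_spec hl).1, idx_permOf (nL_spec hk).1,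
      idx_permOf hp]
    have e' := congrArg (fun L => L.getD (idx p) 0) e
    have hmap : ∀ {a b : List ℕ}, isPermList b = true → (compL a b).getD (idx p) 0 = a.getD (b.getD (idx p) 0) 0 := by
      intro a b hb
      simp only [isPermList, Bool.and_eq_true, beq_iff_eq] at hb
      have hi : idx p < b.length := by rw [hb.1.1]; exact idx_lt p
      rw [compL, List.getD_eq_getElem _ _ (by rw [List.length_map]; exact hi), List.getElem_map,
        List.getD_eq_getElem b _ hi]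
    change (compL _ _).getD (idx p) 0 = (compL _ _).getD (idx p) 0 at e'
    rw [hmap (nL_spec hl).1, hmap hp] at e'
    exact e'
  rw [show m * (cHom u).1 * permOf l * (m * (cHom u).1)⁻¹ = m * ((cHom u).1 * permOf l * ((cHom u).1)⁻¹) * m⁻¹ by group, hconj]
  exact N₀.mul_mem (N₀.mul_mem hm (mem_N₀.2 ⟨k, hk, rfl⟩)) (N₀.inv_mem hm)

theorem trans_H₀ {q : GolayPt} (hq : q ∈ toSet baseDod) : ∃ h ∈ H₀, h (pt dodPt) = q := by
  have hm : idx q ∈ dodIdx := by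
    simp only [dodIdx, List.mem_filter, List.mem_range]
    exact ⟨idx_lt q, mem_toSet.1 hq⟩
  obtain ⟨n, hn, h⟩ := List.any_eq_true.1 (List.all_eq_true.1 cover_check _ hm)
  obtain ⟨i, hi, e⟩ := List.any_eq_true.1 h
  rw [beq_iff_eq] at e
  refine ⟨permOf n * permOf (cTab.getD i []), H₀.mul_mem (nL_spec hn).2 (c_spec hi).2, ?_⟩
  rw [Equiv.Perm.mul_apply, permOf_pt (c_spec hi).1 dodPt_lt, permOf_pt (nL_spec hn).1 (getD_lt (c_spec hi).1 dodPt_lt), e, pt_idx]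

/-- Transported structure. -/
theorem of_iso {H : Type*} [Group H] (e : H ≃* H₀) :
    Nat.card H = 432 ∧ ∃ (N : Subgroup H) (_ : N.Normal), Nat.card N = 9 ∧ Nonempty (H ⧸ N ≃* GL (Fin 2) (ZMod 3)) := by
  classical
  have hcard : Nat.card H = 432 := by rw [Nat.card_congr e.toEquiv, card_H₀]
  have hfin : Finite H := Nat.finite_of_card_ne_zero (by rw [hcard]; norm_num)
  let φ : H →* Equiv.Perm GolayPt := H₀.subtype.comp e.toMonoidHom
  have hN : (N₀.comap φ).Normal := ⟨fun n hn g => by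
    rw [Subgroup.mem_comap, map_mul, map_mul, map_inv]
    exact normal_N₀ (e g).2 hn⟩
  have hNc : Nat.card (N₀.comap φ) = 9 := by
    rw [← card_N₀]
    refine Nat.card_congr
      { toFun := fun g => ⟨φ g.1, g.2⟩
        invFun := fun n => ⟨e.symm ⟨n.1, by obtain ⟨l, hl, h⟩ := mem_N₀.1 n.2; rw [← h]; exact (nL_spec hl).2⟩, by
          show (e (e.symm _) : Equiv.Perm GolayPt) ∈ N₀
          rw [MulEquiv.apply_symm_apply]; exact n.2⟩
        left_inv := fun g => Subtype.ext (e.injective (by rw [MulEquiv.apply_symm_apply]; exact Subtype.ext rfl))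
        right_inv := fun n => Subtype.ext (by show (e (e.symm _) : Equiv.Perm GolayPt) = _; rw [MulEquiv.apply_symm_apply]) }
  let ψ : GL (Fin 2) (ZMod 3) →* H ⧸ N₀.comap φ := (QuotientGroup.mk' _).comp (e.symm.toMonoidHom.comp cHom)
  have hinj : Function.Injective ψ := by
    rw [injective_iff_map_eq_one]
    intro u hu
    have hu' := (QuotientGroup.eq_one_iff _).1 hu
    refine cHom_inter ?_
    have h : (e (e.symm (cHom u)) : Equiv.Perm GolayPt) ∈ N₀ := hu'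
    rwa [MulEquiv.apply_symm_apply] at h
  have hbij := (Nat.bijective_iff_injective_and_card ψ).2 ⟨hinj, by
    have h := Subgroup.card_eq_card_quotient_mul_card_subgroup (N₀.comap φ)
    rw [hcard, hNc] at h
    rw [card_GL23]; omega⟩
  exact ⟨hcard, N₀.comap φ, hN, hNc, ⟨(MulEquiv.ofBijective ψ hbij).symm⟩⟩

end Cfsg.Lib.Golay.QuartetStab
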