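import Mathlib
import Cfsg.Agent.Lib.Golay.QuartetStab
import Cfsg.Agent.Lib.Golay.HexadStab
import Cfsg.Agent.Lib.Golay.Elements

/-! The centraliser of an involution in the stabiliser of a dodecad and one of its points. -/

set_option autoImplicit false
set_option maxRecDepth 100000
set_option linter.constructorNameAsVariable false

namespace Cfsg.Lib.Golay.ElevenInv

open Cfsg Chain
open scoped Pointwise

/-- The candidates, by the image of the fifth point. -/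
def candL : List (List ℕ) := [
  [0, 1, 3, 2, 4, 5, 9, 10, 13, 6, 7, 11, 12, 8, 14, 20, 18, 23, 16, 21, 15, 19, 22, 17],
  [0, 1, 3, 2, 6, 14, 4, 11, 16, 12, 22, 7, 9, 13, 5, 15, 8, 17, 18, 19, 21, 20, 10, 23],
  [0, 1, 3, 2, 8, 17, 13, 19, 6, 18, 15, 21, 16, 12, 23, 11, 9, 14, 4, 22, 10, 7, 20, 5],
  [0, 1, 3, 2, 9, 14, 12, 22, 8, 4, 11, 10, 6, 18, 5, 19, 16, 17, 13, 15, 20, 21, 7, 23],
  [0, 1, 3, 2, 12, 5, 6, 7, 18, 9, 10, 22, 4, 16, 14, 21, 13, 23, 8, 20, 19, 15, 11, 17],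
  [0, 1, 3, 2, 13, 23, 16, 20, 12, 8, 21, 19, 18, 9, 17, 7, 4, 5, 6, 10, 11, 22, 15, 14],
  [0, 1, 3, 2, 16, 17, 18, 15, 9, 13, 19, 20, 8, 4, 23, 22, 6, 14, 12, 11, 7, 10, 21, 5],
  [0, 1, 3, 2, 18, 23, 8, 21, 4, 16, 20, 15, 13, 6, 17, 10, 12, 5, 9, 7, 22, 11, 19, 14]]

/-- Conjugators for the candidates. -/
def candConj : List (List ℕ) := [
  [0, 1, 8, 16, 13, 17, 3, 14, 6, 2, 5, 15, 18, 4, 23, 22, 12, 20, 9, 7, 10, 11, 19, 21],
  [0, 1, 9, 12, 16, 7, 8, 14, 4, 3, 21, 5, 2, 13, 11, 17, 6, 15, 18, 23, 10, 22, 20, 19],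
  [0, 1, 2, 3, 4, 5, 6, 7, 8, 9, 10, 11, 12, 13, 14, 15, 16, 17, 18, 19, 20, 21, 22, 23],
  [0, 13, 6, 4, 8, 21, 12, 22, 18, 16, 5, 14, 9, 3, 20, 7, 1, 15, 2, 11, 17, 19, 10, 23],
  [0, 13, 12, 9, 8, 17, 1, 23, 4, 18, 15, 10, 16, 3, 19, 11, 2, 5, 6, 20, 21, 7, 22, 14],
  [0, 1, 2, 3, 4, 5, 6, 7, 8, 9, 10, 11, 12, 13, 14, 15, 16, 17, 18, 19, 20, 21, 22, 23],
  [0, 1, 2, 3, 4, 5, 6, 7, 8, 9, 10, 11, 12, 13, 14, 15, 16, 17, 18, 19, 20, 21, 22, 23],
  [0, 1, 2, 3, 4, 5, 6, 7, 8, 9, 10, 11, 12, 13, 14, 15, 16, 17, 18, 19, 20, 21, 22, 23]]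

/-- The representative. -/
def repX : List ℕ := [0, 1, 3, 2, 6, 14, 4, 11, 16, 12, 22, 7, 9, 13, 5, 15, 8, 17, 18, 19, 21, 20, 10, 23]

/-- The centraliser, indexed by matrix codes. -/
def xTab : List (List ℕ) := [
  [],
  [],
  [],
  [],
  [],
  [],
  [],
  [],
  [],
  [],
  [],
  [],
  [0, 1, 2, 3, 12, 5, 9, 10, 16, 6, 7, 22, 4, 18, 14, 19, 8, 17, 13, 15, 21, 20, 11, 23],
  [0, 13, 16, 8, 3, 22, 2, 20, 9, 6, 7, 21, 4, 1, 10, 23, 12, 19, 18, 15, 5, 14, 11, 17],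
  [0, 18, 9, 12, 8, 21, 16, 14, 2, 6, 7, 5, 4, 13, 20, 17, 3, 23, 1, 15, 22, 10, 11, 19],
  [0, 1, 16, 8, 12, 20, 9, 22, 2, 4, 7, 10, 6, 13, 21, 19, 3, 23, 18, 15, 14, 5, 11, 17],
  [0, 13, 9, 12, 3, 14, 2, 21, 16, 4, 7, 20, 6, 18, 5, 23, 8, 17, 1, 15, 10, 22, 11, 19],
  [0, 18, 2, 3, 8, 10, 16, 5, 9, 4, 7, 14, 6, 1, 22, 17, 12, 19, 13, 15, 20, 21, 11, 23],
  [],
  [],
  [],
  [0, 1, 8, 16, 9, 21, 12, 10, 3, 6, 11, 22, 4, 13, 20, 19, 2, 23, 18, 15, 5, 14, 7, 17],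
  [0, 18, 3, 2, 16, 22, 8, 14, 12, 6, 11, 5, 4, 1, 10, 17, 9, 19, 13, 15, 21, 20, 7, 23],
  [0, 13, 12, 9, 2, 5, 3, 20, 8, 6, 11, 21, 4, 18, 14, 23, 16, 17, 1, 15, 22, 10, 7, 19],
  [0, 1, 3, 2, 9, 14, 12, 22, 8, 4, 11, 10, 6, 18, 5, 19, 16, 17, 13, 15, 20, 21, 7, 23],
  [0, 18, 12, 9, 16, 20, 8, 5, 3, 4, 11, 14, 6, 13, 21, 17, 2, 23, 1, 15, 10, 22, 7, 19],
  [0, 13, 8, 16, 2, 10, 3, 21, 12, 4, 11, 20, 6, 1, 22, 23, 9, 19, 18, 15, 14, 5, 7, 17],
  [],
  [0, 1, 2, 3, 4, 5, 6, 7, 8, 9, 10, 11, 12, 13, 14, 15, 16, 17, 18, 19, 20, 21, 22, 23],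
  [0, 1, 16, 8, 6, 20, 4, 7, 3, 9, 22, 11, 12, 18, 21, 15, 2, 23, 13, 19, 5, 14, 10, 17],
  [],
  [0, 13, 16, 8, 4, 22, 6, 7, 12, 2, 20, 11, 3, 18, 10, 15, 9, 19, 1, 23, 14, 5, 21, 17],
  [0, 13, 9, 12, 6, 14, 4, 7, 8, 2, 21, 11, 3, 1, 5, 15, 16, 17, 18, 23, 22, 10, 20, 19],
  [],
  [0, 18, 9, 12, 4, 21, 6, 7, 3, 16, 14, 11, 8, 1, 20, 15, 2, 23, 13, 17, 10, 22, 5, 19],
  [0, 18, 2, 3, 6, 10, 4, 7, 12, 16, 5, 11, 8, 13, 22, 15, 9, 19, 1, 17, 21, 20, 14, 23],
  [],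
  [0, 18, 8, 16, 3, 11, 2, 21, 6, 9, 10, 20, 12, 1, 7, 23, 4, 15, 13, 19, 5, 14, 22, 17],
  [0, 13, 3, 2, 8, 11, 16, 14, 4, 9, 22, 5, 12, 1, 7, 17, 6, 15, 18, 19, 20, 21, 10, 23],
  [0, 18, 8, 16, 12, 11, 9, 10, 4, 2, 21, 22, 3, 13, 7, 19, 6, 15, 1, 23, 14, 5, 20, 17],
  [],
  [0, 1, 12, 9, 8, 11, 16, 5, 6, 2, 20, 14, 3, 13, 7, 17, 4, 15, 18, 23, 22, 10, 21, 19],
  [0, 13, 3, 2, 12, 11, 9, 22, 6, 16, 14, 10, 8, 18, 7, 19, 4, 15, 1, 17, 21, 20, 5, 23],
  [0, 1, 12, 9, 3, 11, 2, 20, 4, 16, 5, 21, 8, 18, 7, 23, 6, 15, 13, 17, 10, 22, 14, 19],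
  [],
  [],
  [0, 13, 6, 4, 16, 20, 8, 14, 2, 9, 10, 5, 12, 18, 21, 17, 3, 23, 1, 19, 11, 7, 22, 15],
  [0, 18, 4, 6, 2, 5, 3, 21, 16, 9, 22, 20, 12, 13, 14, 23, 8, 17, 1, 19, 11, 7, 10, 15],
  [0, 18, 6, 4, 9, 14, 12, 10, 16, 2, 20, 22, 3, 1, 5, 19, 8, 17, 13, 23, 11, 7, 21, 15],
  [0, 1, 4, 6, 16, 22, 8, 5, 9, 2, 21, 14, 3, 18, 10, 17, 12, 19, 13, 23, 11, 7, 20, 15],
  [],
  [0, 13, 4, 6, 9, 21, 12, 22, 2, 16, 5, 10, 8, 1, 20, 19, 3, 23, 18, 17, 11, 7, 14, 15],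
  [],
  [0, 1, 6, 4, 2, 10, 3, 20, 9, 16, 14, 21, 8, 13, 22, 23, 12, 19, 18, 17, 11, 7, 5, 15],
  [],
  [0, 1, 8, 16, 4, 21, 6, 11, 2, 12, 10, 7, 9, 18, 20, 15, 3, 23, 13, 19, 14, 5, 22, 17],
  [0, 1, 3, 2, 6, 14, 4, 11, 16, 12, 22, 7, 9, 13, 5, 15, 8, 17, 18, 19, 21, 20, 10, 23],
  [],
  [0, 18, 3, 2, 4, 22, 6, 11, 9, 8, 14, 7, 16, 13, 10, 15, 12, 19, 1, 17, 20, 21, 5, 23],
  [0, 18, 12, 9, 6, 20, 4, 11, 2, 8, 5, 7, 16, 1, 21, 15, 3, 23, 13, 17, 22, 10, 14, 19],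
  [],
  [0, 13, 12, 9, 4, 5, 6, 11, 16, 3, 20, 7, 2, 1, 14, 15, 8, 17, 18, 23, 10, 22, 21, 19],
  [0, 13, 8, 16, 6, 10, 4, 11, 9, 3, 21, 7, 2, 18, 22, 15, 12, 19, 1, 23, 5, 14, 20, 17],
  [],
  [0, 18, 6, 4, 3, 14, 2, 20, 8, 12, 10, 21, 9, 13, 5, 23, 16, 17, 1, 19, 7, 11, 22, 15],
  [0, 13, 4, 6, 8, 21, 16, 5, 3, 12, 22, 14, 9, 18, 20, 17, 2, 23, 1, 19, 7, 11, 10, 15],
  [0, 13, 6, 4, 12, 20, 9, 10, 3, 8, 14, 22, 16, 1, 21, 19, 2, 23, 18, 17, 7, 11, 5, 15],
  [0, 1, 4, 6, 3, 22, 2, 21, 12, 8, 5, 20, 16, 13, 10, 23, 9, 19, 18, 17, 7, 11, 14, 15],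
  [],
  [0, 18, 4, 6, 12, 5, 9, 22, 8, 3, 21, 10, 2, 1, 14, 19, 16, 17, 13, 23, 7, 11, 20, 15],
  [],
  [0, 1, 6, 4, 8, 10, 16, 14, 12, 3, 20, 5, 2, 18, 22, 17, 9, 19, 13, 23, 7, 11, 21, 15],
  [],
  [0, 13, 2, 3, 16, 7, 8, 5, 6, 12, 10, 14, 9, 1, 11, 17, 4, 15, 18, 19, 21, 20, 22, 23],
  [0, 18, 16, 8, 2, 7, 3, 20, 4, 12, 22, 21, 9, 1, 11, 23, 6, 15, 13, 19, 14, 5, 10, 17],
  [0, 13, 2, 3, 9, 7, 12, 10, 4, 8, 5, 22, 16, 18, 11, 19, 6, 15, 1, 17, 20, 21, 14, 23],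
  [],
  [0, 1, 9, 12, 2, 7, 3, 21, 6, 8, 14, 20, 16, 18, 11, 23, 4, 15, 13, 17, 22, 10, 5, 19],
  [0, 18, 16, 8, 9, 7, 12, 22, 6, 3, 20, 10, 2, 13, 11, 19, 4, 15, 1, 23, 5, 14, 21, 17],
  [0, 1, 9, 12, 16, 7, 8, 14, 4, 3, 21, 5, 2, 13, 11, 17, 6, 15, 18, 23, 10, 22, 20, 19],
  []]

/-- The points of the base dodecad in order. -/
def dp (k : ℕ) : GolayPt := pt (dodIdx.getD k 0)

theorem dp_lt : ∀ k < 12, dodIdx.getD k 0 < 24 := by decide +kernel

theorem dp_mem : ∀ k : Fin 12, dp k ∈ toSet baseDod := by decide +kernel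

theorem dp_inj : Function.Injective (fun k : Fin 12 => dp k) := by decide +kernel

theorem cand_check : ((List.range candL.length).all fun i => inEleven (candL.getD i []) &&
      (candL.getD i []).getD (dodIdx.getD 1 0) 0 == dodIdx.getD 1 0 &&
      (candL.getD i []).getD (dodIdx.getD 2 0) 0 == dodIdx.getD 3 0 &&
      (candL.getD i []).getD (dodIdx.getD 3 0) 0 == dodIdx.getD 2 0) = true ∧
    ((dodIdx.drop 4).all fun k => (List.range candL.length).any fun i =>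
      (candL.getD i []).getD (dodIdx.getD 4 0) 0 == k) = true := by decide +kernel

theorem conj_check : ((List.range candL.length).all fun i =>
      !(compL (candL.getD i []) (candL.getD i []) == List.range 24) ||
      (inEleven (candConj.getD i []) &&
        compL (candConj.getD i []) (candL.getD i []) == compL repX (candConj.getD i []))) = true := by decide +kernel

theorem rep_check : inEleven repX = true ∧ compL repX repX = List.range 24 ∧ repX ≠ List.range 24 := by decide +kernel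

theorem xTab_ok : (QuartetStab.codes.all fun i => inEleven (xTab.getD i []) &&
    compL (xTab.getD i []) repX == compL repX (xTab.getD i []) &&
    (i == 28 || !(xTab.getD i [] == List.range 24))) = true := by decide +kernel

theorem xTab_mul : (QuartetStab.codes.all fun i => QuartetStab.codes.all fun j =>
    compL (xTab.getD i []) (xTab.getD j []) == xTab.getD (QuartetStab.mulC i j) []) = true := by decide +kernel

/-- The fixed points of the representative, away from the first point. -/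
noncomputable def fixX : Finset GolayPt := ((toSet baseDod).erase (pt dodPt)).filter fun p => permOf repX p = p

/-- The moved points of the representative in the dodecad. -/
noncomputable def movX : Finset GolayPt := (toSet baseDod).filter fun p => permOf repX p ≠ p

theorem eq_of_two_eq {l k : List ℕ} (hl : isPermList l = true) (hk : isPermList k = true)
    (hc : isPermList (compL l k) = true) (hd : isPermList (compL k l) = true) (h : compL l k = compL k l) :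
    permOf l * permOf k = permOf k * permOf l := by
  rw [← permOf_mul hl hk hc rfl, ← permOf_mul hk hl hd rfl, h]

theorem eq_of_five {g h : Equiv.Perm GolayPt} (hg : g ∈ G12) (hh : h ∈ G12) (x : Fin 5 ↪ GolayPt)
    (hx : ∀ i, x i ∈ toSet baseDod) (e : ∀ i, g (x i) = h (x i)) : g = h :=
  sharp12.2 x hx g hg h hh e

theorem dp_zero : dp 0 = pt dodPt := by decide +kernel

theorem exists_conj {y : Equiv.Perm GolayPt} (hy : y ∈ G11) (h2 : orderOf y = 2) :
    ∃ k ∈ G11, k * y * k⁻¹ = permOf repX := by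
  classical
  have hyd : y • toSet baseDod = toSet baseDod := hy.1.2
  have hyp : y (pt dodPt) = pt dodPt := hy.2
  have hne : y ≠ 1 := fun e => by rw [e, orderOf_one] at h2; norm_num at h2
  obtain ⟨a, ha, hay⟩ : ∃ a ∈ toSet baseDod, y a ≠ a := by
    by_contra hno; push Not at hno
    exact hne (faithful12 y hy.1 hno)
  have hya : y a ∈ toSet baseDod := apply_mem_of_fix hyd ha
  set F := (toSet baseDod).filter fun p => y p = p with hF
  obtain ⟨r, hr, hrp⟩ : ∃ r ∈ toSet baseDod, y r = r ∧ r ≠ pt dodPt := by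
    by_contra hno; push Not at hno
    haveI : Fact (Nat.Prime 2) := ⟨Nat.prime_two⟩
    have hiff : ∀ p, y p ∈ (toSet baseDod).erase (pt dodPt) ↔ p ∈ (toSet baseDod).erase (pt dodPt) := by
      intro p
      rw [Finset.mem_erase, Finset.mem_erase, HexadStab.mem_iff_of_smul hyd]
      exact and_congr (not_congr ⟨fun e => y.injective (e.trans hyp.symm), fun e => e ▸ hyp⟩) Iff.rfl
    obtain ⟨q, hq⟩ := Equiv.Perm.exists_fixed_point_of_prime (p := 2) (n := 1) (σ := y.subtypePerm hiff)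
      (by rw [Fintype.card_coe, Finset.card_erase_of_mem dodPt_mem, card_baseDod]; decide) (by
        refine Equiv.ext fun q => Subtype.ext ?_
        simp only [pow_one, Equiv.Perm.subtypePerm_pow, Equiv.Perm.subtypePerm_apply, Equiv.Perm.one_apply]
        rw [← h2, pow_orderOf_eq_one, Equiv.Perm.one_apply])
    exact (Finset.mem_erase.1 q.2).1 (hno q (Finset.mem_erase.1 q.2).2 (congrArg Subtype.val hq))
  obtain ⟨b, hb, hbn⟩ := Finset.exists_mem_notMem_of_card_lt_card (t := toSet baseDod)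
    (s := insert (pt dodPt) {r, a, y a}) (lt_of_le_of_lt ((Finset.card_insert_le _ _).trans
      (Nat.succ_le_succ Finset.card_le_three)) (by rw [card_baseDod]; norm_num))
  simp only [Finset.mem_insert, Finset.mem_singleton, not_or] at hbn
  have hap : a ≠ pt dodPt := fun e => hay (e ▸ hyp)
  have hyap : y a ≠ pt dodPt := fun e => hap (y.injective (e.trans hyp.symm))
  have har : a ≠ r := fun e => hay (e ▸ hrp.1)
  have hyar : y a ≠ r := fun e => har (y.injective (e.trans hrp.1.symm))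
  let x : Fin 5 ↪ GolayPt := ⟨![pt dodPt, r, a, y a, b], by
    intro i j e
    fin_cases i <;> fin_cases j <;> first
      | rfl
      | exact absurd e hrp.2 | exact absurd (Eq.symm e) hrp.2
      | exact absurd e hap | exact absurd (Eq.symm e) hap
      | exact absurd e hyap | exact absurd (Eq.symm e) hyap
      | exact absurd e har | exact absurd (Eq.symm e) har
      | exact absurd e hyar | exact absurd (Eq.symm e) hyar
      | exact absurd e hay | exact absurd (Eq.symm e) hay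
      | exact absurd e hbn.1 | exact absurd (Eq.symm e) hbn.1
      | exact absurd e hbn.2.1 | exact absurd (Eq.symm e) hbn.2.1
      | exact absurd e hbn.2.2.1 | exact absurd (Eq.symm e) hbn.2.2.1
      | exact absurd e hbn.2.2.2 | exact absurd (Eq.symm e) hbn.2.2.2⟩
  let z : Fin 5 ↪ GolayPt := ⟨fun i => dp (i.castLE (by norm_num : 5 ≤ 12)), fun i j e =>
    Fin.castLE_injective _ (dp_inj e)⟩
  obtain ⟨g, hg, hge⟩ := trans12 (k := 5) le_rfl x z
    (fun i => by fin_cases i; exacts [dodPt_mem, hr, ha, hya, hb]) (fun i => dp_mem _)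
  have g0 : g (pt dodPt) = dp 0 := hge 0
  have g1 : g r = dp 1 := hge 1
  have g2 : g a = dp 2 := hge 2
  have g3 : g (y a) = dp 3 := hge 3
  have hg11 : g ∈ G11 := ⟨hg, g0.trans dp_zero⟩
  set y' := g * y * g⁻¹ with hy'
  have hy'm : y' ∈ G11 := G11.mul_mem (G11.mul_mem hg11 hy) (G11.inv_mem hg11)
  have hconj : ∀ p, y' (g p) = g (y p) := fun p => by
    rw [hy', Equiv.Perm.mul_apply, Equiv.Perm.mul_apply, show g⁻¹ (g p) = p from g.symm_apply_apply p]
  have i0 : y' (dp 0) = dp 0 := by rw [← g0, hconj, hyp]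
  have i1 : y' (dp 1) = dp 1 := by rw [← g1, hconj, hrp.1]
  have i2 : y' (dp 2) = dp 3 := by rw [← g2, hconj, g3]
  have i3 : y' (dp 3) = dp 2 := by rw [← g3, hconj, Elements.apply_two h2, g2]
  have hu : idx (y' (dp 4)) ∈ dodIdx.drop 4 := by
    have hm : y' (dp 4) ∈ toSet baseDod := apply_mem_of_fix hy'm.1.2 (dp_mem 4)
    have hin : idx (y' (dp 4)) ∈ dodIdx := by
      simp only [dodIdx, List.mem_filter, List.mem_range]
      exact ⟨idx_lt _, mem_toSet.1 hm⟩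
    rw [← List.take_append_drop 4 dodIdx, List.mem_append] at hin
    refine hin.resolve_left fun h => ?_
    have hne4 : ∀ k : Fin 12, (k : ℕ) ≠ 4 → y' (dp 4) ≠ y' (dp k) := fun k hk e =>
      hk (Fin.val_eq_of_eq (dp_inj (a₁ := (4 : Fin 12)) (a₂ := k) (y'.injective e))).symm
    have h' : idx (y' (dp 4)) ∈ [dodIdx.getD 0 0, dodIdx.getD 1 0, dodIdx.getD 2 0, dodIdx.getD 3 0] :=
      (show dodIdx.take 4 = [dodIdx.getD 0 0, dodIdx.getD 1 0, dodIdx.getD 2 0, dodIdx.getD 3 0] by decide +kernel) ▸ h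
    have hback : ∀ k < 12, idx (y' (dp 4)) = dodIdx.getD k 0 → y' (dp 4) = dp k := fun k hk e => by
      rw [dp, dp, ← e, pt_idx]; rfl
    simp only [List.mem_cons, List.not_mem_nil, or_false] at h'
    rcases h' with e | e | e | e
    · exact hne4 0 (by decide) ((hback 0 (by norm_num) e).trans i0.symm)
    · exact hne4 1 (by decide) ((hback 1 (by norm_num) e).trans i1.symm)
    · exact hne4 3 (by decide) ((hback 2 (by norm_num) e).trans i3.symm)
    · exact hne4 2 (by decide) ((hback 3 (by norm_num) e).trans i2.symm)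
  obtain ⟨i, hi, he⟩ := List.any_eq_true.1 (List.all_eq_true.1 cand_check.2 _ hu)
  rw [beq_iff_eq] at he
  have hc := List.all_eq_true.1 cand_check.1 i hi
  simp only [Bool.and_eq_true, beq_iff_eq] at hc
  obtain ⟨⟨⟨hc0, c1⟩, c2⟩, c3⟩ := hc
  obtain ⟨hp, hm⟩ := inEleven_spec _ hc0
  have hyl : y' = permOf (candL.getD i []) := by
    refine eq_of_five hy'm.1 hm.1 z (fun j => dp_mem _) fun j => ?_
    fin_cases j
    · exact i0.trans (by show dp 0 = permOf _ (dp 0); rw [dp_zero]; exact hm.2.symm)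
    · refine i1.trans ?_
      show dp 1 = permOf _ (pt (dodIdx.getD 1 0))
      rw [permOf_pt hp (dp_lt 1 (by norm_num)), c1]; rfl
    · refine i2.trans ?_
      show dp 3 = permOf _ (pt (dodIdx.getD 2 0))
      rw [permOf_pt hp (dp_lt 2 (by norm_num)), c2]; rfl
    · refine i3.trans ?_
      show dp 2 = permOf _ (pt (dodIdx.getD 3 0))
      rw [permOf_pt hp (dp_lt 3 (by norm_num)), c3]; rfl
    · show y' (dp 4) = permOf _ (pt (dodIdx.getD 4 0))
      rw [permOf_pt hp (dp_lt 4 (by norm_num)), he, pt_idx]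
  have hsq : compL (candL.getD i []) (candL.getD i []) = List.range 24 := by
    have hp2 := Elements.isPerm_compL hp hp
    refine Elements.eq_range_of_permOf_one hp2 ?_
    rw [permOf_mul hp hp hp2 rfl, ← hyl, ← pow_two, hy', conj_pow, show y ^ 2 = 1 from h2 ▸ pow_orderOf_eq_one y,
      mul_one, mul_inv_cancel]
  have hcc := List.all_eq_true.1 conj_check i hi
  simp only [hsq, beq_self_eq_true, Bool.not_true, Bool.false_or, Bool.and_eq_true, beq_iff_eq] at hcc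
  obtain ⟨hkp, hkm⟩ := inEleven_spec _ hcc.1
  obtain ⟨hrpl, -⟩ := inEleven_spec _ rep_check.1
  refine ⟨permOf (candConj.getD i []) * g, G11.mul_mem hkm hg11, ?_⟩
  rw [show permOf (candConj.getD i []) * g * y * (permOf (candConj.getD i []) * g)⁻¹ =
    permOf (candConj.getD i []) * y' * (permOf (candConj.getD i []))⁻¹ by rw [hy']; group, mul_inv_eq_iff_eq_mul, hyl,
    ← permOf_mul hkp hp (Elements.isPerm_compL hkp hp) rfl, ← permOf_mul hrpl hkp (Elements.isPerm_compL hrpl hkp) rfl,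
    hcc.2]

/-- The centraliser of the representative. -/
def C₀ : Subgroup (Equiv.Perm GolayPt) := G11 ⊓ Subgroup.centralizer {permOf repX}

/-- The homomorphism onto the centraliser. -/
noncomputable def xHom : GL (Fin 2) (ZMod 3) →* C₀ :=
  MonoidHom.mk' (fun u => ⟨permOf (xTab.getD (QuartetStab.code u) []), by
    have h := List.all_eq_true.1 xTab_ok _ (QuartetStab.code_mem u)
    simp only [Bool.and_eq_true, beq_iff_eq] at h
    obtain ⟨hp, hm⟩ := inEleven_spec _ h.1.1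
    obtain ⟨hrpl, -⟩ := inEleven_spec _ rep_check.1
    refine ⟨hm, Subgroup.mem_centralizer_singleton_iff.2 ?_⟩
    exact eq_of_two_eq hp hrpl (Elements.isPerm_compL hp hrpl) (Elements.isPerm_compL hrpl hp) h.1.2⟩) fun u v => by
    refine Subtype.ext ?_
    show permOf (xTab.getD (QuartetStab.code (u * v)) []) =
      permOf (xTab.getD (QuartetStab.code u) []) * permOf (xTab.getD (QuartetStab.code v) [])
    have h := List.all_eq_true.1 (List.all_eq_true.1 xTab_mul _ (QuartetStab.code_mem u)) _ (QuartetStab.code_mem v)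
    rw [beq_iff_eq, ← QuartetStab.code_mul] at h
    have hp : ∀ w, isPermList (xTab.getD (QuartetStab.code w) []) = true := fun w => by
      have h := List.all_eq_true.1 xTab_ok _ (QuartetStab.code_mem w)
      simp only [Bool.and_eq_true] at h
      exact (inEleven_spec _ h.1.1).1
    exact permOf_mul (hp u) (hp v) (hp _) h

theorem xHom_injective : Function.Injective xHom := by
  rw [injective_iff_map_eq_one]
  intro u hu
  have h := List.all_eq_true.1 xTab_ok _ (QuartetStab.code_mem u)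
  simp only [Bool.and_eq_true, Bool.or_eq_true, Bool.not_eq_true', beq_eq_false_iff_ne, beq_iff_eq] at h
  have h1 := Elements.eq_range_of_permOf_one (inEleven_spec _ h.1.1).1 (congrArg Subtype.val hu)
  exact QuartetStab.code_one (h.2.resolve_right fun hne => hne h1)

theorem fix_counts : fixX.card = 3 ∧ movX.card = 8 := by decide +kernel

theorem card_C₀_le : Nat.card C₀ ≤ 48 := by
  classical
  obtain ⟨hf, hm⟩ := fix_counts
  obtain ⟨r, hr⟩ := Finset.card_pos.1 (show 0 < fixX.card by omega)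
  obtain ⟨s, hs, hrs⟩ := Finset.exists_mem_ne (show 1 < fixX.card by omega) r
  obtain ⟨a, ha⟩ := Finset.card_pos.1 (show 0 < movX.card by omega)
  have hcount : (fixX.offDiag ×ˢ movX).card = 48 := by rw [Finset.card_product, Finset.offDiag_card, hf, hm]
  have hstab : ∀ g ∈ C₀, ∀ p, permOf repX (g p) = g (permOf repX p) := fun g hg p =>
    (Equiv.ext_iff.1 (Subgroup.mem_centralizer_singleton_iff.1 hg.2) p).symm
  have hfix : ∀ g ∈ C₀, ∀ p ∈ fixX, g p ∈ fixX := by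
    intro g hg p hp
    simp only [fixX, Finset.mem_filter, Finset.mem_erase] at hp ⊢
    refine ⟨⟨fun e => hp.1.1 (g.injective (e.trans (show g (pt dodPt) = pt dodPt from hg.1.2).symm)),
      apply_mem_of_fix hg.1.1.2 hp.1.2⟩, ?_⟩
    rw [hstab g hg, hp.2]
  have hmov : ∀ g ∈ C₀, g a ∈ movX := by
    intro g hg
    simp only [movX, Finset.mem_filter] at ha ⊢
    refine ⟨apply_mem_of_fix hg.1.1.2 ha.1, ?_⟩
    rw [hstab g hg]
    exact fun e => ha.2 (g.injective e)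
  rw [← hcount, ← Nat.card_eq_finsetCard]
  refine Nat.card_le_card_of_injective
    (fun g : C₀ => (⟨((g.1 r, g.1 s), g.1 a), Finset.mem_product.2 ⟨Finset.mem_offDiag.2 ⟨hfix _ g.2 r hr, hfix _ g.2 s hs,
      fun e => hrs (g.1.injective e).symm⟩, hmov _ g.2⟩⟩ : ↥(fixX.offDiag ×ˢ movX))) ?_
  rintro ⟨g, hg⟩ ⟨h, hh⟩ e
  simp only [Subtype.mk.injEq, Prod.mk.injEq] at e
  obtain ⟨⟨er, es⟩, ea⟩ := e
  simp only [fixX, Finset.mem_filter, Finset.mem_erase] at hr hs
  simp only [movX, Finset.mem_filter] at ha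
  have hinv2 : ∀ p, permOf repX (permOf repX p) = p := fun p => by
    have hrpl := (inEleven_spec _ rep_check.1).1
    rw [← Equiv.Perm.mul_apply, ← permOf_mul hrpl hrpl (c := List.range 24) (by decide) rep_check.2.1, permOf_range,
      Equiv.Perm.one_apply]
  have hR : ∀ {p}, p ∈ toSet baseDod → permOf repX p ∈ toSet baseDod := fun hp =>
    apply_mem_of_fix (inEleven_spec _ rep_check.1).2.1.2 hp
  have hxp : permOf repX (pt dodPt) = pt dodPt := (inEleven_spec _ rep_check.1).2.2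
  let x : Fin 5 ↪ GolayPt := ⟨![pt dodPt, r, s, a, permOf repX a], by
    intro i j e
    fin_cases i <;> fin_cases j <;> first
      | rfl
      | exact absurd e hr.1.1 | exact absurd (Eq.symm e) hr.1.1
      | exact absurd e hs.1.1 | exact absurd (Eq.symm e) hs.1.1
      | exact absurd e hrs | exact absurd (Eq.symm e) hrs
      | exact absurd e ha.2 | exact absurd (Eq.symm e) ha.2
      | exact absurd (show a = pt dodPt from e) (fun e' => ha.2 (e' ▸ hxp))
      | exact absurd (show pt dodPt = a from e) (fun e' => ha.2 (e' ▸ hxp))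
      | exact absurd (show a = r from e) (fun e' => ha.2 (e' ▸ hr.2))
      | exact absurd (show r = a from e) (fun e' => ha.2 (e' ▸ hr.2))
      | exact absurd (show a = s from e) (fun e' => ha.2 (e' ▸ hs.2))
      | exact absurd (show s = a from e) (fun e' => ha.2 (e' ▸ hs.2))
      | exact absurd (show permOf repX a = pt dodPt from e) (fun e' => ha.2 (by rw [e', ← hxp, ← e', hinv2]))
      | exact absurd (show pt dodPt = permOf repX a from e) (fun e' => ha.2 (by rw [← e', ← hxp, e', hinv2]))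
      | exact absurd (show permOf repX a = r from e) (fun e' => ha.2 (by rw [e', ← hr.2, ← e', hinv2]))
      | exact absurd (show r = permOf repX a from e) (fun e' => ha.2 (by rw [← e', ← hr.2, e', hinv2]))
      | exact absurd (show permOf repX a = s from e) (fun e' => ha.2 (by rw [e', ← hs.2, ← e', hinv2]))
      | exact absurd (show s = permOf repX a from e) (fun e' => ha.2 (by rw [← e', ← hs.2, e', hinv2]))⟩
  refine Subtype.ext (eq_of_five hg.1.1 hh.1.1 x (fun i => ?_) fun i => ?_)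
  · fin_cases i
    exacts [dodPt_mem, hr.1.2, hs.1.2, ha.1, hR ha.1]
  · fin_cases i
    · exact (show g (pt dodPt) = pt dodPt from hg.1.2).trans (show h (pt dodPt) = pt dodPt from hh.1.2).symm
    · exact er
    · exact es
    · exact ea
    · show g (permOf repX a) = h (permOf repX a)
      rw [← hstab g hg, ← hstab h hh, ea]

theorem C₀_iso : Nonempty (C₀ ≃* GL (Fin 2) (ZMod 3)) := by
  classical
  haveI : Finite C₀ := inferInstance
  have h1 := Nat.card_le_card_of_injective _ xHom_injective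
  rw [QuartetStab.card_GL23] at h1
  have hbij := (Nat.bijective_iff_injective_and_card xHom).2
    ⟨xHom_injective, by rw [QuartetStab.card_GL23]; exact le_antisymm h1 card_C₀_le⟩
  exact ⟨(MulEquiv.ofBijective xHom hbij).symm⟩

end Cfsg.Lib.Golay.ElevenInv
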