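import Mathlib
import Cfsg.Agent.Lib.Golay.DodGroups
import Cfsg.Agent.Lib.Golay.Dodecads

/-! A point stabiliser in the action of `M11` on twelve points is simple of order `660`. -/

set_option autoImplicit false
set_option linter.style.haveILetI false

namespace Cfsg.Lib.Golay.ElevenPoint

open Cfsg Cfsg.Lib.Golay.Chain
open scoped Pointwise

/-- Simplicity criterion at order `660`. -/
theorem isSimpleGroup_of_card {A : Type*} [Group A] [Finite A] (hA : Nat.card A = 660)
    (h11 : ∀ N : Subgroup A, N.Normal → N ≠ ⊥ → 11 ∣ Nat.card N)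
    (hP : ∀ P : Subgroup A, P.Normal → Nat.card P = 11 → False) : IsSimpleGroup A := by
  classical
  haveI : Fact (Nat.Prime 11) := ⟨by norm_num⟩
  haveI : Nontrivial A := Finite.one_lt_card_iff_nontrivial.1 (by omega)
  refine ⟨fun N hN => ?_⟩
  by_contra hcon
  push Not at hcon
  obtain ⟨hNb, hNt⟩ := hcon
  haveI := hN
  have hd := h11 N hN hNb
  obtain ⟨m, hm⟩ := hd
  have hlt : Nat.card N < 660 := by
    rw [← hA]
    by_contra h
    exact hNt (Subgroup.eq_top_of_card_eq _
      (le_antisymm (Subgroup.card_le_card_group N) (not_lt.1 h)))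
  have hm60 : m ∣ 60 := by
    have h1 : Nat.card N ∣ 660 := hA ▸ N.card_subgroup_dvd_card
    rw [hm] at h1
    exact Nat.dvd_of_mul_dvd_mul_left (by norm_num) (show 11 * m ∣ 11 * 60 from h1)
  obtain ⟨Q⟩ : Nonempty (Sylow 11 ↥N) := inferInstance
  have hQ : Nat.card (Q : Subgroup ↥N) = 11 := by
    rw [Sylow.card_eq_multiplicity, hm, Nat.factorization_mul (by norm_num) (by
      rintro rfl; exact absurd hm (by have := Nat.card_pos (α := ↥N); omega)), Finsupp.add_apply, Nat.Prime.factorization_self (by norm_num),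
      Nat.factorization_eq_zero_of_not_dvd (fun h => by
        have := Nat.le_of_dvd (by norm_num) hm60
        have h2 := h.trans hm60
        norm_num at h2)]
    norm_num
  set n := Nat.card (Sylow 11 ↥N)
  have hmod : n % 11 = 1 := card_sylow_modEq_one 11 ↥N
  have hdvd : n ∣ Nat.card ↥N := Sylow.card_dvd_index Q |>.trans (Subgroup.index_dvd_card _)
  have hidx : n ∣ m := by
    have h1 := Q.card_dvd_index
    have h2 := (Q : Subgroup ↥N).card_mul_index
    rw [hQ, hm] at h2
    rwa [show (Q : Subgroup ↥N).index = m by omega] at h1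
  have hn : n = 1 ∨ n = 12 := by
    have h1 : n ∣ 60 := hidx.trans hm60
    have h2 : n ≤ 60 := Nat.le_of_dvd (by norm_num) h1
    interval_cases n <;> omega
  have hchar : ∀ K : Subgroup ↥N, ∀ k : ℕ, (∀ x : ↥N, x ∈ K ↔ x ^ k = 1) →
      (K.map N.subtype).Normal := by
    intro K k hK
    refine ⟨?_⟩
    rintro _ ⟨x, hx, rfl⟩ g
    refine ⟨⟨g * x * g⁻¹, hN.conj_mem _ x.2 g⟩, ?_, rfl⟩
    rw [SetLike.mem_coe, hK]
    refine Subtype.ext ?_
    have hxk : (x : A) ^ k = 1 := by rw [← Subgroup.coe_pow, (hK x).1 hx, Subgroup.coe_one]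
    show (g * (x : A) * g⁻¹) ^ k = 1
    rw [conj_pow, hxk]; group
  rcases hn with hn | hn
  · haveI : Subsingleton (Sylow 11 ↥N) := (Nat.card_eq_one_iff_unique.1 hn).1
    haveI := Sylow.normal_of_subsingleton Q
    refine hP ((Q : Subgroup ↥N).map N.subtype) (hchar Q 11 fun x => ⟨fun hx => ?_, fun hx => ?_⟩) ?_
    · have h1 : (⟨x, hx⟩ : (Q : Subgroup ↥N)) ^ Nat.card (Q : Subgroup ↥N) = 1 := pow_card_eq_one'
      rw [hQ] at h1
      exact congrArg Subtype.val h1
    · have hpg : IsPGroup 11 ↥(Subgroup.zpowers x) := by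
        rcases (Nat.dvd_prime (by norm_num : Nat.Prime 11)).1 (orderOf_dvd_of_pow_eq_one hx) with h | h
        · exact IsPGroup.of_card (n := 0) (by rw [Nat.card_zpowers, h, pow_zero])
        · exact IsPGroup.of_card (n := 1) (by rw [Nat.card_zpowers, h, pow_one])
      obtain ⟨R, hR⟩ := hpg.exists_le_sylow
      rw [Subsingleton.elim R Q] at hR
      exact hR (Subgroup.mem_zpowers x)
    · rw [Subgroup.card_map_of_injective N.subtype_injective, hQ]
  · have hm12 : m = 12 := by
      rw [hn] at hidx
      obtain ⟨j, rfl⟩ := hidx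
      have := Nat.le_of_dvd (by norm_num) hm60
      have hj : 11 * (12 * j) < 660 := hm ▸ hlt
      have hj5 : j < 5 := by omega
      interval_cases j <;> first | (norm_num; done) | (exfalso; norm_num at hm60; done)
    have hnorm : Nat.card ↥(Subgroup.normalizer ((Q : Subgroup ↥N) : Set ↥N)) = 11 := by
      have h1 := Q.card_eq_index_normalizer
      have h2 := (Subgroup.normalizer ((Q : Subgroup ↥N) : Set ↥N)).card_mul_index
      have h3 : (Subgroup.normalizer ((Q : Subgroup ↥N) : Set ↥N)).index = 12 := h1.symm.trans hn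
      rw [h3, hm, hm12] at h2
      omega
    have hNQ : Subgroup.normalizer ((Q : Subgroup ↥N) : Set ↥N) = Q :=
      (Subgroup.eq_of_le_of_card_ge Subgroup.le_normalizer (by rw [hQ, hnorm])).symm
    haveI : IsCyclic (Q : Subgroup ↥N) := isCyclic_of_prime_card hQ
    have hle : Subgroup.normalizer ((Q : Subgroup ↥N) : Set ↥N) ≤
        Subgroup.centralizer ((Q : Subgroup ↥N) : Set ↥N) := by
      rw [hNQ]
      intro a ha b hb
      exact congrArg Subtype.val (IsCyclic.isMulCommutative.is_comm.comm (⟨b, hb⟩ : (Q : Subgroup ↥N)) ⟨a, ha⟩)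
    have hcompl := MonoidHom.ker_transferSylow_isComplement' Q hle
    set K := (MonoidHom.transferSylow Q hle).ker with hK
    have hKc : Nat.card K = 12 := by
      have := hcompl.card_mul
      rw [hQ, hm, hm12] at this
      omega
    have hKmem : ∀ x : ↥N, x ∈ K ↔ x ^ 12 = 1 := by
      intro x
      refine ⟨fun hx => ?_, fun hx => ?_⟩
      · have h1 : (⟨x, hx⟩ : K) ^ Nat.card K = 1 := pow_card_eq_one'
        rw [hKc] at h1
        exact congrArg Subtype.val h1
      · have h1 : (MonoidHom.transferSylow Q hle x) ^ 12 = 1 := by rw [← map_pow, hx, map_one]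
        have h2 : (MonoidHom.transferSylow Q hle x) ^ 11 = 1 := by
          have h3 := pow_card_eq_one' (x := MonoidHom.transferSylow Q hle x)
          rwa [hQ] at h3
        rw [MonoidHom.mem_ker]
        rw [pow_succ, h2, one_mul] at h1
        exact h1
    haveI := hchar K 12 hKmem
    have hKA : Nat.card ↥(K.map N.subtype) = 12 := by
      rw [Subgroup.card_map_of_injective N.subtype_injective, hKc]
    have := h11 (K.map N.subtype) inferInstance fun h => by
      rw [h, Subgroup.card_bot] at hKA; omega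
    rw [hKA] at this
    norm_num at this

/-- The stabiliser of the base dodecad, its first point and an outside point. -/
def A (q : GolayPt) : Subgroup (Equiv.Perm GolayPt) :=
  G11 ⊓ MulAction.stabilizer (Equiv.Perm GolayPt) q

theorem card_A {q : GolayPt} (hq : q ∉ toSet baseDod) : Nat.card (A q) = 660 := by
  have h := card_eq_mul_card_inf_stabilizer G11 q
  have horb : MulAction.orbit G11 q = (((toSet baseDod)ᶜ : Finset GolayPt) : Set GolayPt) := by
    ext r
    simp only [Finset.mem_coe, Finset.mem_compl]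
    constructor
    · rintro ⟨g, rfl⟩ h'
      have h3 := apply_mem_of_fix (s := toSet baseDod) ((g⁻¹).2.1.2) h'
      refine hq ?_
      have e : (g : Equiv.Perm GolayPt)⁻¹ ((g • q : GolayPt)) = q := (g : Equiv.Perm GolayPt).symm_apply_apply q
      rw [← e]; exact h3
    · intro hr
      obtain ⟨g, hg, he⟩ := exists_map inEleven_spec inv11out
        (show chainOK inEleven outIdx [] (elevenOutData.take 1) = true by decide +kernel) (k := 1) rfl
        ⟨fun _ => q, fun a b _ => Subsingleton.elim a b⟩ ⟨fun _ => r, fun a b _ => Subsingleton.elim a b⟩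
        (fun _ => by rw [ptSet_out, Finset.mem_compl]; exact hq)
        (fun _ => by rw [ptSet_out, Finset.mem_compl]; exact hr)
      exact ⟨⟨g, sharp11.1 ▸ hg⟩, he 0⟩
  rw [card_G11, horb, Set.ncard_coe_finset, Finset.card_compl, card_baseDod] at h
  have h24 : Fintype.card GolayPt = 24 := by simp [GolayPt]
  rw [h24] at h
  have : 7920 = (24 - 12) * Nat.card (A q) := h
  omega

/-- The eleven points moved by `A q`. -/
def rest (q : GolayPt) : Finset GolayPt := ((toSet baseDod)ᶜ).erase q

theorem card_rest' {q : GolayPt} (hq : q ∉ toSet baseDod) : (rest q).card = 11 := by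
  rw [rest, Finset.card_erase_of_mem (Finset.mem_compl.2 hq), Finset.card_compl, card_baseDod]
  simp [GolayPt]

theorem invA (q : GolayPt) : ∀ g ∈ A q, ∀ x ∈ rest q, g x ∈ rest q := by
  intro g hg x hx
  simp only [rest, Finset.mem_erase, Finset.mem_compl] at hx ⊢
  refine ⟨fun e => hx.1 (g.injective (e.trans hg.2.symm)), fun h => hx.2 ?_⟩
  have h3 := apply_mem_of_fix (s := toSet baseDod) (G11.inv_mem hg.1).1.2 h
  simpa using h3

theorem isSimpleGroup_A {q : GolayPt} (hq : q ∉ toSet baseDod) : IsSimpleGroup (A q) := by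
  classical
  have htri : ∀ a b c d, a ∈ rest q → b ∈ rest q → c ∈ rest q → d ∈ rest q → a ≠ b → c ≠ d →
      ∃ g ∈ A q, g a = c ∧ g b = d := by
    intro a b c d ha hb hc hd hab hcd
    simp only [rest, Finset.mem_erase, Finset.mem_compl] at ha hb hc hd
    have hinj : ∀ (a b : GolayPt), q ≠ a → q ≠ b → a ≠ b → Function.Injective ![q, a, b] :=
      fun a b h1 h2 h3 i j e => by
      fin_cases i <;> fin_cases j <;>
        first | rfl | exact absurd e h1 | exact absurd e h1.symm | exact absurd e h2 |
          exact absurd e h2.symm | exact absurd e h3 | exact absurd e h3.symm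
    obtain ⟨g, hg, he⟩ := trans11out ⟨![q, a, b], hinj a b ha.1.symm hb.1.symm hab⟩
      ⟨![q, c, d], hinj c d hc.1.symm hd.1.symm hcd⟩
      (fun i => by fin_cases i <;> simp [hq, ha.2, hb.2])
      (fun i => by fin_cases i <;> simp [hq, hc.2, hd.2])
    exact ⟨g, ⟨hg, he 0⟩, he 1, he 2⟩
  have hfaith : ∀ g ∈ A q, (∀ x ∈ rest q, g x = x) → g = 1 := by
    intro g hg h
    refine eq_one_of_fix hg.1.1.1 ?_
    refine le_trans (show 9 ≤ (rest q).card by rw [card_rest' hq]; norm_num)
      (Finset.card_le_card fun x hx => mem_fixPts.2 (h x hx))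
  refine isSimpleGroup_of_card (card_A hq) (fun N hN hNb => ?_) (fun P hP hPc => ?_)
  · obtain ⟨r, hr⟩ : (rest q).Nonempty := Finset.card_pos.1 (by rw [card_rest' hq]; norm_num)
    have := card_dvd_of_transitive (invA q) N hr fun s hs => normal_transitive_set (invA q) htri hfaith hNb hr hs
    rwa [card_rest' hq] at this
  · haveI := hP
    haveI : Fact (Nat.Prime 11) := ⟨by norm_num⟩
    have hPb : P ≠ ⊥ := fun h => by rw [h, Subgroup.card_bot] at hPc; omega
    obtain ⟨r, hr⟩ : (rest q).Nonempty := Finset.card_pos.1 (by rw [card_rest' hq]; norm_num)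
    have htr := fun s (hs : s ∈ rest q) => normal_transitive_set (invA q) htri hfaith hPb hr hs
    haveI : IsCyclic P := isCyclic_of_prime_card hPc
    obtain ⟨x, hx⟩ := IsCyclic.exists_generator (α := P)
    -- the centraliser of `P` is `P`
    have hC : ∀ g : A q, (g : A q) * x = (x : A q) * g → g ∈ P := by
      intro g hg
      have hcomm : ∀ n ∈ P, g * n = n * g := by
        intro n hn
        obtain ⟨i, hi⟩ := hx ⟨n, hn⟩
        have : Commute g ((x : A q) ^ i) := Commute.zpow_right hg i
        rwa [show (x : A q) ^ i = n from congrArg Subtype.val hi] at this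
      obtain ⟨n, hn, hne⟩ := htr _ (invA q g g.2 r hr)
      suffices g = n by rw [this]; exact hn
      have key : ∀ s ∈ rest q, (g : Equiv.Perm GolayPt) s = (n : Equiv.Perm GolayPt) s := by
        intro s hs
        obtain ⟨k, hk, rfl⟩ := htr s hs
        have h1 : (g * k : A q) = k * g := hcomm k hk
        have h2 : (n * k : A q) = k * n :=
          congrArg Subtype.val (IsCyclic.isMulCommutative.is_comm.comm (⟨n, hn⟩ : P) ⟨k, hk⟩)
        rw [← Equiv.Perm.mul_apply, ← Subgroup.coe_mul, h1, ← Equiv.Perm.mul_apply,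
          ← Subgroup.coe_mul, h2, Subgroup.coe_mul, Subgroup.coe_mul, Equiv.Perm.mul_apply,
          Equiv.Perm.mul_apply, hne]
      have h3 := hfaith _ (n⁻¹ * g).2 fun s hs => by
        rw [Subgroup.coe_mul, Subgroup.coe_inv, Equiv.Perm.mul_apply, key s hs]
        exact (n : Equiv.Perm GolayPt).symm_apply_apply s
      exact (inv_mul_eq_one.1 (Subtype.ext h3)).symm
    let f : A q ⧸ P → P := fun c => ⟨c.out * x * c.out⁻¹, hP.conj_mem _ x.2 _⟩
    have hinj : Function.Injective f := by
      intro c c' h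
      have h' : c.out * (x : A q) * c.out⁻¹ = c'.out * (x : A q) * c'.out⁻¹ := congrArg Subtype.val h
      have hmem : c.out⁻¹ * c'.out ∈ P := hC _ (by
        calc c.out⁻¹ * c'.out * (x : A q) = c.out⁻¹ * (c'.out * (x : A q) * c'.out⁻¹) * c'.out := by group
          _ = c.out⁻¹ * (c.out * (x : A q) * c.out⁻¹) * c'.out := by rw [h']
          _ = (x : A q) * (c.out⁻¹ * c'.out) := by group)
      rw [← QuotientGroup.out_eq' c, ← QuotientGroup.out_eq' c']
      exact QuotientGroup.eq.2 hmem
    have h1 := Nat.card_le_card_of_injective f hinj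
    have h2 := P.card_mul_index
    rw [hPc, card_A hq, Subgroup.index] at h2
    rw [hPc] at h1
    omega

end Cfsg.Lib.Golay.ElevenPoint
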