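import Mathlib
import Cfsg.Agent.Lib.Golay.DodGroups
import Cfsg.Agent.Lib.Golay.HexadStab
import Cfsg.Agent.Lib.Golay.OctKer

/-! A point inside and a pair outside a dodecad: the stabiliser is the symmetric group of degree five. -/

set_option autoImplicit false
set_option maxRecDepth 100000
set_option linter.constructorNameAsVariable false

namespace Cfsg.Lib.Golay.FiveGroup

open Cfsg Chain
open scoped Pointwise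

/-- The stabiliser of a point inside and a pair outside the base dodecad. -/
def fiveL : List (List ℕ) := [
  [0, 1, 2, 3, 4, 5, 6, 7, 8, 9, 10, 11, 12, 13, 14, 15, 16, 17, 18, 19, 20, 21, 22, 23],
  [0, 1, 2, 6, 12, 7, 8, 5, 18, 4, 15, 20, 13, 9, 23, 17, 16, 19, 3, 10, 11, 22, 14, 21],
  [0, 1, 2, 8, 13, 5, 18, 7, 3, 12, 17, 11, 9, 4, 21, 19, 16, 10, 6, 15, 20, 14, 23, 22],
  [0, 1, 2, 18, 9, 7, 3, 5, 6, 13, 19, 20, 4, 12, 22, 10, 16, 15, 8, 17, 11, 23, 21, 14],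
  [0, 1, 3, 2, 12, 5, 6, 7, 18, 9, 10, 22, 4, 16, 14, 21, 13, 23, 8, 20, 19, 15, 11, 17],
  [0, 1, 3, 6, 4, 7, 18, 5, 8, 12, 21, 19, 16, 9, 17, 23, 13, 20, 2, 10, 22, 11, 14, 15],
  [0, 1, 3, 8, 9, 7, 2, 5, 6, 16, 20, 19, 12, 4, 11, 10, 13, 21, 18, 23, 22, 17, 15, 14],
  [0, 1, 3, 18, 16, 5, 8, 7, 2, 4, 23, 22, 9, 12, 15, 20, 13, 10, 6, 21, 19, 14, 17, 11],
  [0, 1, 6, 2, 13, 7, 8, 5, 3, 4, 15, 14, 12, 16, 23, 22, 9, 21, 18, 11, 10, 17, 20, 19],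
  [0, 1, 6, 3, 16, 7, 18, 5, 2, 12, 21, 14, 4, 13, 17, 11, 9, 15, 8, 22, 10, 23, 19, 20],
  [0, 1, 6, 8, 12, 5, 3, 7, 18, 13, 22, 10, 16, 4, 19, 21, 9, 11, 2, 15, 14, 20, 23, 17],
  [0, 1, 6, 18, 4, 5, 2, 7, 8, 16, 11, 10, 13, 12, 20, 15, 9, 22, 3, 21, 14, 19, 17, 23],
  [0, 1, 8, 2, 9, 5, 18, 7, 6, 12, 17, 23, 13, 16, 21, 14, 4, 22, 3, 20, 15, 19, 11, 10],
  [0, 1, 8, 3, 12, 7, 2, 5, 18, 16, 20, 15, 9, 13, 11, 17, 4, 14, 6, 22, 23, 10, 19, 21],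
  [0, 1, 8, 6, 16, 5, 3, 7, 2, 13, 22, 23, 12, 9, 19, 20, 4, 17, 18, 14, 15, 21, 10, 11],
  [0, 1, 8, 18, 13, 7, 6, 5, 3, 9, 14, 15, 16, 12, 10, 22, 4, 20, 2, 17, 23, 11, 21, 19],
  [0, 1, 18, 2, 4, 7, 3, 5, 8, 13, 19, 21, 9, 16, 22, 23, 12, 14, 6, 11, 17, 10, 20, 15],
  [0, 1, 18, 3, 9, 5, 8, 7, 6, 4, 23, 17, 16, 13, 15, 14, 12, 11, 2, 19, 21, 20, 22, 10],
  [0, 1, 18, 6, 13, 5, 2, 7, 3, 16, 11, 17, 4, 9, 20, 19, 12, 23, 8, 14, 21, 15, 10, 22],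
  [0, 1, 18, 8, 16, 7, 6, 5, 2, 9, 14, 21, 13, 4, 10, 11, 12, 19, 3, 23, 17, 22, 15, 20],
  [0, 4, 2, 3, 12, 5, 18, 7, 6, 16, 10, 14, 1, 9, 22, 19, 13, 15, 8, 17, 21, 23, 11, 20],
  [0, 4, 2, 6, 9, 5, 8, 7, 3, 1, 15, 14, 16, 12, 23, 17, 13, 10, 18, 19, 21, 22, 20, 11],
  [0, 4, 2, 8, 16, 7, 3, 5, 18, 9, 17, 21, 12, 1, 11, 10, 13, 19, 6, 15, 14, 20, 23, 22],
  [0, 4, 2, 18, 1, 7, 6, 5, 8, 12, 19, 21, 9, 16, 20, 15, 13, 17, 3, 10, 14, 11, 22, 23],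
  [0, 4, 3, 2, 1, 5, 18, 7, 8, 16, 10, 11, 12, 13, 22, 23, 9, 20, 6, 21, 17, 19, 14, 15],
  [0, 4, 3, 6, 16, 7, 2, 5, 18, 13, 21, 17, 1, 12, 14, 10, 9, 23, 8, 20, 11, 15, 19, 22],
  [0, 4, 3, 8, 13, 5, 6, 7, 2, 12, 20, 11, 16, 1, 19, 21, 9, 10, 18, 23, 17, 22, 15, 14],
  [0, 4, 3, 18, 12, 7, 8, 5, 6, 1, 23, 17, 13, 16, 15, 20, 9, 21, 2, 10, 11, 14, 22, 19],
  [0, 4, 6, 2, 16, 5, 8, 7, 18, 1, 15, 20, 9, 13, 23, 22, 12, 11, 3, 21, 19, 17, 14, 10],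
  [0, 4, 6, 3, 1, 7, 2, 5, 8, 13, 21, 19, 16, 9, 14, 15, 12, 22, 18, 11, 20, 10, 17, 23],
  [0, 4, 6, 8, 9, 7, 18, 5, 3, 16, 22, 19, 13, 1, 10, 11, 12, 21, 2, 15, 20, 14, 23, 17],
  [0, 4, 6, 18, 13, 5, 3, 7, 2, 9, 11, 20, 1, 16, 17, 21, 12, 15, 8, 22, 19, 23, 10, 14],
  [0, 4, 8, 2, 12, 7, 3, 5, 6, 9, 17, 23, 16, 13, 11, 20, 1, 22, 18, 14, 15, 10, 21, 19],
  [0, 4, 8, 3, 16, 5, 6, 7, 18, 12, 20, 15, 13, 9, 19, 22, 1, 14, 2, 17, 23, 21, 11, 10],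
  [0, 4, 8, 6, 13, 7, 18, 5, 2, 16, 22, 23, 9, 12, 10, 14, 1, 17, 3, 20, 15, 11, 19, 21],
  [0, 4, 8, 18, 9, 5, 2, 7, 3, 13, 14, 15, 12, 16, 21, 17, 1, 20, 6, 22, 23, 19, 10, 11],
  [0, 4, 18, 2, 9, 7, 6, 5, 3, 12, 19, 22, 1, 13, 20, 11, 16, 23, 8, 14, 10, 15, 21, 17],
  [0, 4, 18, 3, 13, 7, 8, 5, 2, 1, 23, 22, 12, 9, 15, 14, 16, 19, 6, 11, 10, 20, 17, 21],
  [0, 4, 18, 6, 1, 5, 3, 7, 8, 9, 11, 10, 13, 12, 17, 23, 16, 14, 2, 19, 22, 21, 20, 15],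
  [0, 4, 18, 8, 12, 5, 2, 7, 6, 13, 14, 10, 9, 1, 21, 19, 16, 11, 3, 23, 22, 17, 15, 20],
  [0, 9, 2, 3, 13, 7, 6, 5, 18, 1, 10, 22, 16, 4, 14, 15, 12, 19, 8, 17, 23, 21, 11, 20],
  [0, 9, 2, 6, 16, 5, 18, 7, 8, 13, 15, 23, 4, 1, 20, 19, 12, 17, 3, 10, 22, 11, 14, 21],
  [0, 9, 2, 8, 1, 5, 3, 7, 6, 4, 17, 23, 13, 16, 11, 10, 12, 15, 18, 19, 22, 20, 21, 14],
  [0, 9, 2, 18, 4, 7, 8, 5, 3, 16, 19, 22, 1, 13, 21, 17, 12, 10, 6, 15, 23, 14, 20, 11],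
  [0, 9, 3, 2, 16, 7, 6, 5, 8, 1, 10, 11, 13, 12, 14, 21, 4, 20, 18, 23, 17, 15, 22, 19],
  [0, 9, 3, 6, 13, 5, 8, 7, 18, 16, 21, 17, 12, 1, 19, 20, 4, 23, 2, 10, 11, 22, 14, 15],
  [0, 9, 3, 8, 12, 7, 18, 5, 2, 13, 20, 11, 1, 16, 15, 23, 4, 10, 6, 21, 17, 14, 19, 22],
  [0, 9, 3, 18, 1, 5, 2, 7, 6, 12, 23, 17, 16, 13, 22, 10, 4, 21, 8, 20, 11, 19, 15, 14],
  [0, 9, 6, 2, 4, 5, 18, 7, 3, 13, 15, 14, 16, 12, 20, 11, 1, 21, 8, 22, 10, 19, 23, 17],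
  [0, 9, 6, 3, 12, 5, 8, 7, 2, 16, 21, 14, 13, 4, 19, 22, 1, 15, 18, 11, 10, 20, 17, 23],
  [0, 9, 6, 8, 13, 7, 2, 5, 18, 12, 22, 10, 4, 16, 23, 15, 1, 11, 3, 21, 14, 17, 19, 20],
  [0, 9, 6, 18, 16, 7, 3, 5, 8, 4, 11, 10, 12, 13, 17, 21, 1, 22, 2, 15, 14, 23, 20, 19],
  [0, 9, 8, 2, 13, 5, 3, 7, 18, 4, 17, 21, 1, 12, 11, 20, 16, 14, 6, 22, 19, 10, 23, 15],
  [0, 9, 8, 3, 1, 7, 18, 5, 6, 13, 20, 19, 12, 4, 15, 14, 16, 22, 2, 17, 21, 23, 11, 10],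
  [0, 9, 8, 6, 4, 7, 2, 5, 3, 12, 22, 19, 13, 1, 23, 17, 16, 20, 18, 14, 21, 15, 10, 11],
  [0, 9, 8, 18, 12, 5, 6, 7, 2, 1, 14, 21, 4, 13, 10, 22, 16, 17, 3, 20, 19, 11, 15, 23],
  [0, 9, 18, 2, 1, 7, 8, 5, 6, 16, 19, 20, 4, 12, 21, 14, 13, 11, 3, 23, 15, 17, 22, 10],
  [0, 9, 18, 3, 16, 5, 2, 7, 8, 12, 23, 15, 1, 4, 22, 19, 13, 14, 6, 11, 20, 10, 17, 21],
  [0, 9, 18, 6, 12, 7, 3, 5, 2, 4, 11, 20, 16, 1, 17, 23, 13, 19, 8, 14, 15, 21, 10, 22],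
  [0, 9, 18, 8, 4, 5, 6, 7, 3, 1, 14, 15, 12, 16, 10, 11, 13, 23, 2, 19, 20, 22, 21, 17],
  [0, 12, 2, 3, 1, 5, 8, 7, 18, 13, 10, 22, 4, 16, 11, 17, 9, 19, 6, 15, 23, 20, 14, 21],
  [0, 12, 2, 6, 13, 7, 3, 5, 8, 16, 15, 23, 1, 4, 14, 10, 9, 17, 18, 19, 22, 21, 20, 11],
  [0, 12, 2, 8, 4, 7, 18, 5, 6, 1, 17, 23, 16, 13, 21, 19, 9, 15, 3, 10, 22, 14, 11, 20],
  [0, 12, 2, 18, 16, 5, 6, 7, 3, 4, 19, 22, 13, 1, 20, 15, 9, 10, 8, 17, 23, 11, 21, 14],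
  [0, 12, 3, 2, 4, 5, 8, 7, 6, 13, 10, 14, 1, 9, 11, 20, 16, 21, 18, 23, 15, 17, 22, 19],
  [0, 12, 3, 6, 9, 5, 18, 7, 2, 1, 21, 14, 13, 4, 17, 23, 16, 10, 8, 20, 15, 11, 19, 22],
  [0, 12, 3, 8, 1, 7, 6, 5, 18, 4, 20, 15, 9, 13, 19, 21, 16, 23, 2, 10, 14, 22, 11, 17],
  [0, 12, 3, 18, 13, 7, 2, 5, 8, 9, 23, 15, 4, 1, 22, 10, 16, 20, 6, 21, 14, 19, 17, 11],
  [0, 12, 6, 2, 1, 7, 3, 5, 18, 16, 15, 20, 13, 9, 14, 21, 4, 11, 8, 22, 19, 10, 23, 17],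
  [0, 12, 6, 3, 13, 5, 18, 7, 8, 1, 21, 19, 9, 16, 17, 11, 4, 22, 2, 15, 20, 23, 14, 10],
  [0, 12, 6, 8, 16, 5, 2, 7, 3, 9, 22, 19, 1, 13, 23, 15, 4, 21, 18, 11, 20, 17, 10, 14],
  [0, 12, 6, 18, 9, 7, 8, 5, 2, 13, 11, 20, 16, 1, 10, 22, 4, 15, 3, 21, 19, 14, 17, 23],
  [0, 12, 8, 2, 16, 7, 18, 5, 3, 1, 17, 11, 4, 9, 21, 14, 13, 20, 6, 22, 10, 19, 23, 15],
  [0, 12, 8, 3, 9, 7, 6, 5, 2, 4, 20, 11, 1, 16, 19, 22, 13, 17, 18, 14, 10, 21, 15, 23],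
  [0, 12, 8, 6, 1, 5, 2, 7, 18, 9, 22, 10, 16, 4, 23, 17, 13, 14, 3, 20, 11, 15, 19, 21],
  [0, 12, 8, 18, 4, 5, 3, 7, 6, 16, 14, 10, 9, 1, 15, 20, 13, 22, 2, 17, 11, 23, 21, 19],
  [0, 12, 18, 2, 13, 5, 6, 7, 8, 4, 19, 21, 16, 9, 20, 11, 1, 14, 3, 23, 17, 15, 22, 10],
  [0, 12, 18, 3, 4, 7, 2, 5, 6, 9, 23, 17, 13, 16, 22, 19, 1, 11, 8, 14, 21, 10, 15, 20],
  [0, 12, 18, 6, 16, 7, 8, 5, 3, 13, 11, 17, 9, 4, 10, 14, 1, 23, 2, 19, 21, 22, 20, 15],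
  [0, 12, 18, 8, 9, 5, 3, 7, 2, 16, 14, 21, 4, 13, 15, 23, 1, 19, 6, 11, 17, 20, 10, 22],
  [0, 13, 2, 3, 16, 7, 8, 5, 6, 12, 10, 14, 9, 1, 11, 17, 4, 15, 18, 19, 21, 20, 22, 23],
  [0, 13, 2, 6, 1, 7, 18, 5, 3, 9, 15, 14, 12, 16, 20, 19, 4, 10, 8, 17, 21, 11, 23, 22],
  [0, 13, 2, 8, 9, 5, 6, 7, 18, 16, 17, 21, 1, 12, 23, 15, 4, 19, 3, 10, 14, 22, 11, 20],
  [0, 13, 2, 18, 12, 5, 3, 7, 8, 1, 19, 21, 16, 9, 22, 10, 4, 17, 6, 15, 14, 23, 20, 11],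
  [0, 13, 3, 2, 9, 7, 8, 5, 18, 12, 10, 22, 16, 4, 11, 20, 1, 23, 6, 21, 19, 17, 14, 15],
  [0, 13, 3, 6, 12, 5, 2, 7, 8, 4, 21, 19, 9, 16, 14, 10, 1, 20, 18, 23, 22, 15, 17, 11],
  [0, 13, 3, 8, 16, 5, 18, 7, 6, 9, 20, 19, 4, 12, 15, 23, 1, 21, 2, 10, 22, 14, 11, 17],
  [0, 13, 3, 18, 4, 7, 6, 5, 2, 16, 23, 22, 12, 9, 17, 21, 1, 10, 8, 20, 19, 11, 15, 14],
  [0, 13, 6, 2, 12, 7, 18, 5, 8, 9, 15, 23, 1, 4, 20, 11, 16, 22, 3, 21, 17, 19, 14, 10],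
  [0, 13, 6, 3, 9, 5, 2, 7, 18, 4, 21, 17, 12, 1, 14, 15, 16, 11, 8, 22, 23, 10, 19, 20],
  [0, 13, 6, 8, 4, 7, 3, 5, 2, 1, 22, 23, 9, 12, 19, 21, 16, 15, 18, 11, 17, 20, 10, 14],
  [0, 13, 6, 18, 1, 5, 8, 7, 3, 12, 11, 17, 4, 9, 10, 22, 16, 21, 2, 15, 23, 14, 20, 19],
  [0, 13, 8, 2, 1, 5, 6, 7, 3, 16, 17, 11, 9, 4, 23, 22, 12, 20, 18, 14, 10, 15, 21, 19],
  [0, 13, 8, 3, 4, 5, 18, 7, 2, 9, 20, 11, 16, 1, 15, 14, 12, 17, 6, 22, 10, 23, 19, 21],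
  [0, 13, 8, 6, 9, 7, 3, 5, 18, 1, 22, 10, 4, 16, 19, 20, 12, 14, 2, 17, 11, 21, 23, 15],
  [0, 13, 8, 18, 16, 7, 2, 5, 6, 4, 14, 10, 1, 9, 21, 17, 12, 22, 3, 20, 11, 19, 15, 23],
  [0, 13, 18, 2, 16, 5, 3, 7, 6, 1, 19, 20, 12, 4, 22, 23, 9, 11, 8, 14, 15, 10, 21, 17],
  [0, 13, 18, 3, 12, 7, 6, 5, 8, 16, 23, 15, 4, 1, 17, 11, 9, 14, 2, 19, 20, 21, 22, 10],
  [0, 13, 18, 6, 4, 5, 8, 7, 2, 12, 11, 20, 1, 16, 10, 14, 9, 19, 3, 23, 15, 22, 17, 21],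
  [0, 13, 18, 8, 1, 7, 2, 5, 3, 4, 14, 15, 16, 12, 21, 19, 9, 23, 6, 11, 20, 17, 10, 22],
  [0, 16, 2, 3, 9, 7, 18, 5, 8, 4, 10, 11, 13, 12, 22, 19, 1, 17, 6, 15, 20, 23, 14, 21],
  [0, 16, 2, 6, 4, 5, 3, 7, 18, 12, 15, 20, 9, 13, 14, 10, 1, 19, 8, 17, 11, 21, 23, 22],
  [0, 16, 2, 8, 12, 7, 6, 5, 3, 13, 17, 11, 4, 9, 23, 15, 1, 10, 18, 19, 20, 22, 21, 14],
  [0, 16, 2, 18, 13, 5, 8, 7, 6, 9, 19, 20, 12, 4, 21, 17, 1, 15, 3, 10, 11, 14, 22, 23],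
  [0, 16, 3, 2, 13, 7, 18, 5, 6, 4, 10, 14, 9, 1, 22, 23, 12, 21, 8, 20, 15, 19, 11, 17],
  [0, 16, 3, 6, 1, 7, 8, 5, 2, 9, 21, 14, 4, 13, 19, 20, 12, 10, 18, 23, 15, 22, 17, 11],
  [0, 16, 3, 8, 4, 5, 2, 7, 18, 1, 20, 15, 13, 9, 11, 10, 12, 23, 6, 21, 14, 17, 19, 22],
  [0, 16, 3, 18, 9, 5, 6, 7, 8, 13, 23, 15, 1, 4, 17, 21, 12, 20, 2, 10, 14, 11, 22, 19],
  [0, 16, 6, 2, 9, 5, 3, 7, 8, 12, 15, 23, 4, 1, 14, 21, 13, 22, 18, 11, 17, 10, 20, 19],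
  [0, 16, 6, 3, 4, 7, 8, 5, 18, 9, 21, 17, 1, 12, 19, 22, 13, 11, 2, 15, 23, 20, 14, 10],
  [0, 16, 6, 8, 1, 5, 18, 7, 2, 4, 22, 23, 12, 9, 10, 11, 13, 15, 3, 21, 17, 14, 19, 20],
  [0, 16, 6, 18, 12, 7, 2, 5, 3, 1, 11, 17, 9, 4, 20, 15, 13, 21, 8, 22, 23, 19, 10, 14],
  [0, 16, 8, 2, 4, 7, 6, 5, 18, 13, 17, 21, 12, 1, 23, 22, 9, 14, 3, 20, 19, 15, 11, 10],
  [0, 16, 8, 3, 13, 5, 2, 7, 6, 1, 20, 19, 4, 12, 11, 17, 9, 22, 18, 14, 21, 10, 15, 23],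
  [0, 16, 8, 6, 12, 5, 18, 7, 3, 4, 22, 19, 1, 13, 10, 14, 9, 20, 2, 17, 21, 11, 23, 15],
  [0, 16, 8, 18, 1, 7, 3, 5, 2, 12, 14, 21, 13, 4, 15, 20, 9, 17, 6, 22, 19, 23, 10, 11],
  [0, 16, 18, 2, 12, 5, 8, 7, 3, 9, 19, 22, 13, 1, 21, 14, 4, 23, 6, 11, 10, 17, 20, 15],
  [0, 16, 18, 3, 1, 5, 6, 7, 2, 13, 23, 22, 9, 12, 17, 11, 4, 19, 8, 14, 10, 21, 15, 20],
  [0, 16, 18, 6, 9, 7, 2, 5, 8, 1, 11, 10, 12, 13, 20, 19, 4, 14, 3, 23, 22, 15, 17, 21],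
  [0, 16, 18, 8, 13, 7, 3, 5, 6, 12, 14, 10, 1, 9, 15, 23, 4, 11, 2, 19, 22, 20, 21, 17]]

/-- An orbit of five points in the dodecad. -/
def fiveF : ℕ := 262476

/-- The pair. -/
def pairOut : ℕ := 160

/-- The stabiliser. -/
def H₁ : Subgroup (Equiv.Perm GolayPt) := G11 ⊓ MulAction.stabilizer (Equiv.Perm GolayPt) (toSet pairOut)

/-- The check of one element. -/
def fiveOK (l : List ℕ) : Bool := inEleven l && imgMask l pairOut == pairOut && imgMask l fiveF == fiveF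

theorem five_ok0 : (fiveL.take 30).all fiveOK = true := by decide +kernel
theorem five_ok1 : ((fiveL.drop 30).take 30).all fiveOK = true := by decide +kernel
theorem five_ok2 : ((fiveL.drop 60).take 30).all fiveOK = true := by decide +kernel
theorem five_ok3 : (fiveL.drop 90).all fiveOK = true := by decide +kernel

theorem five_meta : fiveL.length = 120 ∧ fiveL.Nodup ∧ pop fiveF = 5 ∧ fiveF &&& baseDod = fiveF ∧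
    pop pairOut = 2 ∧ pairOut &&& baseDod = 0 ∧ fiveF.testBit dodPt = false := by decide +kernel

theorem two_out_chain : chainOK inEleven outIdx [] (elevenOutData.take 2) = true := by decide +kernel

theorem fiveL_spec {l : List ℕ} (hl : l ∈ fiveL) :
    isPermList l = true ∧ permOf l ∈ H₁ ∧ permOf l • toSet fiveF = toSet fiveF := by
  have h : fiveOK l = true := by
    rw [← List.take_append_drop 30 fiveL, ← List.take_append_drop 30 (fiveL.drop 30),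
      ← List.take_append_drop 30 ((fiveL.drop 30).drop 30)] at hl
    simp only [List.mem_append, List.drop_drop] at hl
    rcases hl with h | h | h | h
    exacts [List.all_eq_true.1 five_ok0 l h, List.all_eq_true.1 five_ok1 l h, List.all_eq_true.1 five_ok2 l h,
      List.all_eq_true.1 five_ok3 l h]
  simp only [fiveOK, Bool.and_eq_true, beq_iff_eq] at h
  obtain ⟨hp, hm⟩ := inEleven_spec l h.1.1
  refine ⟨hp, ⟨hm, ?_⟩, by rw [← toSet_imgMask hp, h.2]⟩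
  show permOf l • toSet pairOut = toSet pairOut
  rw [← toSet_imgMask hp, h.1.2]

theorem pair_out_notMem {x : GolayPt} (hx : x ∈ toSet pairOut) : x ∉ toSet baseDod := by
  intro h
  have hm : x ∈ toSet pairOut ∩ toSet baseDod := Finset.mem_inter.2 ⟨hx, h⟩
  rw [← toSet_and, five_meta.2.2.2.2.2.1] at hm
  rw [mem_toSet] at hm
  simp at hm

theorem two11out {a b c e : GolayPt} (ha : a ∉ toSet baseDod) (hb : b ∉ toSet baseDod) (hc : c ∉ toSet baseDod)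
    (he : e ∉ toSet baseDod) (hab : a ≠ b) (hce : c ≠ e) : ∃ g ∈ G11, g a = c ∧ g b = e := by
  obtain ⟨g, hg, h⟩ := exists_map inEleven_spec inv11out two_out_chain (k := 2) rfl (pairEmb a b hab) (pairEmb c e hce)
    (fun i => by rw [ptSet_out, Finset.mem_compl]; fin_cases i <;> assumption)
    (fun i => by rw [ptSet_out, Finset.mem_compl]; fin_cases i <;> assumption)
  exact ⟨g, sharp11.1 ▸ hg, h 0, h 1⟩

theorem card_H₁ : Nat.card H₁ = 120 := by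
  classical
  obtain ⟨-, -, -, -, hp2, -, -⟩ := five_meta
  obtain ⟨a, b, hab, hpair⟩ := Finset.card_eq_two.1 (show (toSet pairOut).card = 2 by rw [card_toSet, hp2])
  have hao : a ∉ toSet baseDod := pair_out_notMem (by rw [hpair]; simp)
  have hbo : b ∉ toSet baseDod := pair_out_notMem (by rw [hpair]; simp)
  have horb : MulAction.orbit G11 (toSet pairOut) = ((toSet baseDod)ᶜ.powersetCard 2 : Set (Finset GolayPt)) := by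
    ext s
    rw [Finset.mem_coe, Finset.mem_powersetCard]
    constructor
    · rintro ⟨g, rfl⟩
      refine ⟨fun x hx => ?_, by show (g.1 • toSet pairOut).card = 2; rw [Finset.card_smul_finset, card_toSet, hp2]⟩
      obtain ⟨y, hy, rfl⟩ := Finset.mem_smul_finset.1 (show x ∈ g.1 • toSet pairOut from hx)
      have h := inv11out g.1 g.2 y (by rw [ptSet_out, Finset.mem_compl]; exact pair_out_notMem hy)
      rw [ptSet_out] at h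
      exact h
    · rintro ⟨hs, hc⟩
      obtain ⟨c, e, hce, rfl⟩ := Finset.card_eq_two.1 hc
      obtain ⟨g, hg, g1, g2⟩ := two11out hao hbo (Finset.mem_compl.1 (hs (by simp))) (Finset.mem_compl.1 (hs (by simp))) hab hce
      refine ⟨⟨g, hg⟩, ?_⟩
      show g • toSet pairOut = {c, e}
      rw [hpair, Finset.smul_finset_insert, Finset.smul_finset_singleton, Equiv.Perm.smul_def, Equiv.Perm.smul_def, g1, g2]
  have h := Nat.card_congr (MulAction.orbitProdStabilizerEquivGroup G11 (toSet pairOut))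
  rw [Nat.card_prod, Nat.card_coe_set_eq, horb, Set.ncard_coe_finset, Finset.card_powersetCard, Finset.card_compl,
    card_baseDod, card_G11] at h
  have hc : Fintype.card GolayPt = 24 := by simp [GolayPt]
  rw [hc, show Nat.choose (24 - 12) 2 = 66 by decide] at h
  have e : Nat.card H₁ = Nat.card (MulAction.stabilizer G11 (toSet pairOut)) :=
    Nat.card_congr
      { toFun := fun g => ⟨⟨g.1, g.2.1⟩, g.2.2⟩
        invFun := fun g => ⟨g.1.1, g.1.2, g.2⟩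
        left_inv := fun _ => rfl
        right_inv := fun _ => rfl }
  omega

theorem H₁_fix {g : Equiv.Perm GolayPt} (hg : g ∈ H₁) : g • toSet fiveF = toSet fiveF := by
  classical
  obtain ⟨hlen, hnd, -⟩ := five_meta
  have heq : ((fiveL.map permOf).toFinset : Set (Equiv.Perm GolayPt)) = (H₁ : Set _) := by
    refine Set.eq_of_subset_of_ncard_le ?_ ?_
    · intro x hx
      simp only [List.coe_toFinset, Set.mem_ofPred_eq, List.mem_map] at hx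
      obtain ⟨l, hl, rfl⟩ := hx
      exact (fiveL_spec hl).2.1
    · rw [← Nat.card_coe_set_eq (s := (H₁ : Set (Equiv.Perm GolayPt))), SetLike.coe_sort_coe, card_H₁,
        Set.ncard_coe_finset, List.toFinset_card_of_nodup, List.length_map, hlen]
      exact hnd.map_on fun a ha b hb e => OctKer.permOf_injOn (fiveL_spec ha).1 (fiveL_spec hb).1 e
  rw [← SetLike.mem_coe, ← heq] at hg
  simp only [List.coe_toFinset, Set.mem_ofPred_eq, List.mem_map] at hg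
  obtain ⟨l, hl, rfl⟩ := hg
  exact (fiveL_spec hl).2.2

theorem iso : Nonempty (H₁ ≃* Equiv.Perm (Fin 5)) := by
  classical
  obtain ⟨-, -, hf5, hfd, -, -, hnp⟩ := five_meta
  have hsub : toSet fiveF ⊆ toSet baseDod := by
    rw [← hfd, toSet_and]; exact Finset.inter_subset_right
  have hc5 : (toSet fiveF).card = 5 := by rw [card_toSet, hf5]
  let f : H₁ →* Equiv.Perm (toSet fiveF) :=
    { toFun := fun g => g.1.subtypePerm (HexadStab.mem_iff_of_smul (H₁_fix g.2))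
      map_one' := by ext; rfl
      map_mul' := fun a b => by ext; rfl }
  have hinj : Function.Injective f := by
    rw [injective_iff_map_eq_one]
    intro g hg
    refine Subtype.ext (HexadStab.eq_one_of_fix baseDod_mem g.2.1.1.1 g.2.1.1.2 (S := toSet fiveF) (by omega) hsub ?_)
    exact fun p hp => congrArg Subtype.val (Equiv.ext_iff.1 hg ⟨p, hp⟩)
  have hbij := (Nat.bijective_iff_injective_and_card f).2
    ⟨hinj, by rw [card_H₁, Nat.card_perm, Nat.card_eq_finsetCard, hc5]; rfl⟩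
  exact ⟨(MulEquiv.ofBijective f hbij).trans (Equiv.permCongrHom ((toSet fiveF).equivFinOfCardEq hc5))⟩

theorem exists_std {d : Finset GolayPt} (hd : d ∈ dodecads) {p q q' : GolayPt} (hp : p ∈ d) (hq : q ∉ d) (hq' : q' ∉ d)
    (hne : q ≠ q') : ∃ τ ∈ M24, τ • toSet baseDod = d ∧ τ (pt dodPt) = p ∧ τ • toSet pairOut = {q, q'} := by
  classical
  obtain ⟨σ, hσ, rfl, hσp⟩ := exists_move hd hp
  obtain ⟨a, b, hab, hpair⟩ := Finset.card_eq_two.1 (show (toSet pairOut).card = 2 by rw [card_toSet, five_meta.2.2.2.2.1])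
  have hout : ∀ x, x ∉ σ • toSet baseDod → σ⁻¹ x ∉ toSet baseDod := fun x hx h => hx (Finset.inv_smul_mem_iff.1 h)
  obtain ⟨g, hg, g1, g2⟩ := two11out (pair_out_notMem (x := a) (by rw [hpair]; simp))
    (pair_out_notMem (x := b) (by rw [hpair]; simp)) (hout q hq) (hout q' hq') hab
    (fun e => hne (σ⁻¹.injective e))
  refine ⟨σ * g, M24.mul_mem hσ hg.1.1, by rw [mul_smul, show g • toSet baseDod = toSet baseDod from hg.1.2], ?_, ?_⟩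
  · rw [Equiv.Perm.mul_apply, show g (pt dodPt) = pt dodPt from hg.2, hσp]
  · rw [hpair, Finset.smul_finset_insert, Finset.smul_finset_singleton, Equiv.Perm.smul_def, Equiv.Perm.smul_def,
      Equiv.Perm.mul_apply, Equiv.Perm.mul_apply, g1, g2]
    rw [show σ (σ⁻¹ q) = q from σ.apply_symm_apply q, show σ (σ⁻¹ q') = q' from σ.apply_symm_apply q']

/-- The stabiliser as the standard group. -/
noncomputable def equivH₁ {d : Finset GolayPt} {p : GolayPt} {s : Finset GolayPt} {τ : Equiv.Perm GolayPt} (hτ : τ ∈ M24)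
    (hd : τ • toSet baseDod = d) (hp : τ (pt dodPt) = p) (hs : τ • toSet pairOut = s) :
    ↥(MulAction.stabilizer M24 d ⊓ MulAction.stabilizer M24 p ⊓ MulAction.stabilizer M24 s) ≃* H₁ where
  toFun g := ⟨τ⁻¹ * g.1.1 * τ, by
    refine ⟨⟨mem_G12_conj hτ g.1.2 (by rw [hd]; exact g.2.1.1), ?_⟩, ?_⟩
    · show (τ⁻¹ * g.1.1 * τ) (pt dodPt) = _
      rw [Equiv.Perm.mul_apply, Equiv.Perm.mul_apply, hp, show g.1.1 p = p from g.2.1.2, Equiv.Perm.inv_eq_iff_eq, hp]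
    · show (τ⁻¹ * g.1.1 * τ) • toSet pairOut = _
      rw [mul_smul, mul_smul, hs, inv_smul_eq_iff, hs]; exact g.2.2⟩
  invFun g := ⟨⟨τ * g.1 * τ⁻¹, M24.mul_mem (M24.mul_mem hτ g.2.1.1.1) (M24.inv_mem hτ)⟩, by
    refine ⟨⟨?_, ?_⟩, ?_⟩
    · show (τ * g.1 * τ⁻¹) • d = d
      rw [← hd]; exact conj_mem_stab g.2.1.1
    · show (τ * g.1 * τ⁻¹) p = p
      rw [← hp, Equiv.Perm.mul_apply, Equiv.Perm.mul_apply, show τ⁻¹ (τ (pt dodPt)) = _ from τ.symm_apply_apply _,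
        show g.1 (pt dodPt) = pt dodPt from g.2.1.2]
    · show (τ * g.1 * τ⁻¹) • s = s
      rw [← hs, mul_smul, mul_smul, inv_smul_smul, show g.1 • toSet pairOut = toSet pairOut from g.2.2]⟩
  left_inv g := by apply Subtype.ext; apply Subtype.ext; show τ * (τ⁻¹ * g.1.1 * τ) * τ⁻¹ = g.1.1; group
  right_inv g := by apply Subtype.ext; show τ⁻¹ * (τ * g.1 * τ⁻¹) * τ = g.1; group
  map_mul' a b := by apply Subtype.ext; show τ⁻¹ * (a.1.1 * b.1.1) * τ = (τ⁻¹ * a.1.1 * τ) * (τ⁻¹ * b.1.1 * τ); group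

end Cfsg.Lib.Golay.FiveGroup
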