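import Mathlib
import Cfsg.Agent.Lib.Golay.Count
import Cfsg.Agent.Lib.Golay.Perm
import Cfsg.Agent.Lib.Golay.Cosets
import Cfsg.Agent.Lib.Golay.Dodecads

/-! Stabilisers of code words fix no nonzero vector modulo the code. -/

set_option autoImplicit false
set_option maxRecDepth 100000

namespace Cfsg.Lib.Golay.FixVec

open Cfsg
open scoped Pointwise

/-- Generators of a stabiliser. -/
def dodStabL : List (List ℕ) := [
  [9, 4, 18, 12, 3, 5, 2, 21, 13, 16, 11, 23, 1, 0, 22, 19, 6, 17, 8, 15, 7, 14, 10, 20],
  [0, 3, 13, 12, 2, 10, 1, 22, 18, 16, 14, 11, 8, 6, 20, 23, 4, 15, 9, 5, 21, 7, 17, 19],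
  [8, 1, 4, 3, 2, 15, 16, 5, 18, 12, 11, 23, 13, 6, 21, 17, 0, 10, 9, 22, 7, 19, 14, 20]]

/-- Generators of a stabiliser. -/
def octStabL : List (List ℕ) := [
  [5, 17, 14, 23, 10, 3, 13, 7, 8, 20, 12, 21, 4, 22, 2, 16, 19, 0, 9, 15, 6, 11, 18, 1],
  [0, 23, 2, 1, 21, 14, 4, 6, 8, 22, 7, 13, 19, 15, 3, 12, 18, 17, 20, 11, 9, 10, 16, 5],
  [0, 14, 3, 1, 10, 5, 6, 16, 21, 19, 22, 12, 20, 13, 2, 11, 7, 23, 4, 8, 15, 9, 18, 17]]


/-- Whether some member of a list of permutations moves a mask modulo the code. -/
def moves (G : List (List ℕ)) (q : ℕ) : Bool :=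
  q == 0 || G.any fun g => !inCode (imgMask g (q <<< 12) ^^^ (q <<< 12))

theorem oct_moves0 : (List.range' 0 512).all (moves octStabL) = true := by decide +kernel
theorem oct_moves1 : (List.range' 512 512).all (moves octStabL) = true := by decide +kernel
theorem oct_moves2 : (List.range' 1024 512).all (moves octStabL) = true := by decide +kernel
theorem oct_moves3 : (List.range' 1536 512).all (moves octStabL) = true := by decide +kernel
theorem oct_moves4 : (List.range' 2048 512).all (moves octStabL) = true := by decide +kernel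
theorem oct_moves5 : (List.range' 2560 512).all (moves octStabL) = true := by decide +kernel
theorem oct_moves6 : (List.range' 3072 512).all (moves octStabL) = true := by decide +kernel
theorem oct_moves7 : (List.range' 3584 512).all (moves octStabL) = true := by decide +kernel

theorem oct_moves : (List.range 4096).all (moves octStabL) = true := by
  rw [List.all_eq_true]
  intro q hq
  rw [List.mem_range] at hq
  have hm : ∀ a, a ≤ q → q < a + 512 → q ∈ List.range' a 512 := fun a h1 h2 => List.mem_range'_1.2 ⟨h1, h2⟩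
  by_cases h0 : q < 512
  · exact List.all_eq_true.1 oct_moves0 q (hm 0 (by omega) (by omega))
  by_cases h1 : q < 1024
  · exact List.all_eq_true.1 oct_moves1 q (hm 512 (by omega) (by omega))
  by_cases h2 : q < 1536
  · exact List.all_eq_true.1 oct_moves2 q (hm 1024 (by omega) (by omega))
  by_cases h3 : q < 2048
  · exact List.all_eq_true.1 oct_moves3 q (hm 1536 (by omega) (by omega))
  by_cases h4 : q < 2560
  · exact List.all_eq_true.1 oct_moves4 q (hm 2048 (by omega) (by omega))
  by_cases h5 : q < 3072
  · exact List.all_eq_true.1 oct_moves5 q (hm 2560 (by omega) (by omega))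
  by_cases h6 : q < 3584
  · exact List.all_eq_true.1 oct_moves6 q (hm 3072 (by omega) (by omega))
  exact List.all_eq_true.1 oct_moves7 q (hm 3584 (by omega) (by omega))

theorem dod_moves0 : (List.range' 0 512).all (moves dodStabL) = true := by decide +kernel
theorem dod_moves1 : (List.range' 512 512).all (moves dodStabL) = true := by decide +kernel
theorem dod_moves2 : (List.range' 1024 512).all (moves dodStabL) = true := by decide +kernel
theorem dod_moves3 : (List.range' 1536 512).all (moves dodStabL) = true := by decide +kernel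
theorem dod_moves4 : (List.range' 2048 512).all (moves dodStabL) = true := by decide +kernel
theorem dod_moves5 : (List.range' 2560 512).all (moves dodStabL) = true := by decide +kernel
theorem dod_moves6 : (List.range' 3072 512).all (moves dodStabL) = true := by decide +kernel
theorem dod_moves7 : (List.range' 3584 512).all (moves dodStabL) = true := by decide +kernel

theorem dod_moves : (List.range 4096).all (moves dodStabL) = true := by
  rw [List.all_eq_true]
  intro q hq
  rw [List.mem_range] at hq
  have hm : ∀ a, a ≤ q → q < a + 512 → q ∈ List.range' a 512 := fun a h1 h2 => List.mem_range'_1.2 ⟨h1, h2⟩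
  by_cases h0 : q < 512
  · exact List.all_eq_true.1 dod_moves0 q (hm 0 (by omega) (by omega))
  by_cases h1 : q < 1024
  · exact List.all_eq_true.1 dod_moves1 q (hm 512 (by omega) (by omega))
  by_cases h2 : q < 1536
  · exact List.all_eq_true.1 dod_moves2 q (hm 1024 (by omega) (by omega))
  by_cases h3 : q < 2048
  · exact List.all_eq_true.1 dod_moves3 q (hm 1536 (by omega) (by omega))
  by_cases h4 : q < 2560
  · exact List.all_eq_true.1 dod_moves4 q (hm 2048 (by omega) (by omega))
  by_cases h5 : q < 3072
  · exact List.all_eq_true.1 dod_moves5 q (hm 2560 (by omega) (by omega))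
  by_cases h6 : q < 3584
  · exact List.all_eq_true.1 dod_moves6 q (hm 3072 (by omega) (by omega))
  exact List.all_eq_true.1 dod_moves7 q (hm 3584 (by omega) (by omega))

theorem stab_gens_check :
    (octStabL.all fun g => keepsCode g && imgMask g baseOctad == baseOctad) = true ∧
    (dodStabL.all fun g => keepsCode g && imgMask g baseDod == baseDod) = true := by decide +kernel

theorem pivots : codeGens.length = 12 ∧ ((List.range 12).all fun i =>
    (codeGens.getD i 0).testBit i && (List.range i).all fun j => !(codeGens.getD i 0).testBit j) = true ∧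
    (codeGens.all fun g => decide (g < 2 ^ 24)) = true := by decide +kernel

theorem red_spec : ∀ gs k n, (∀ j < k, n.testBit j = false) →
    (∀ i < gs.length, (gs.getD i 0).testBit (k + i) = true ∧ ∀ j < k + i, (gs.getD i 0).testBit j = false) →
    (∀ j < k + gs.length, (red gs k n).testBit j = false) ∧ n ^^^ red gs k n ∈ spanL gs ∧
    ((∀ g ∈ gs, g < 2 ^ 24) → n < 2 ^ 24 → red gs k n < 2 ^ 24) := by
  intro gs
  induction gs with
  | nil => intro k n h _; simpa [red, spanL] using h
  | cons g gs ih =>
    intro k n h hp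
    have h0 := hp 0 (by simp)
    simp only [List.getD_cons_zero, Nat.add_zero] at h0
    have hn : ∀ j < k + 1, (if n.testBit k then n ^^^ g else n).testBit j = false := by
      intro j hj
      split
      · next hb =>
        rw [Nat.testBit_xor]
        rcases Nat.lt_succ_iff_lt_or_eq.1 hj with hj | rfl
        · rw [h j hj, h0.2 j hj]; rfl
        · rw [hb, h0.1]; rfl
      · next hb =>
        rcases Nat.lt_succ_iff_lt_or_eq.1 hj with hj | rfl
        · exact h j hj
        · simpa using hb
    obtain ⟨h1, h2, h3⟩ := ih (k + 1) _ hn fun i hi => by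
      have := hp (i + 1) (by simp only [List.length_cons]; omega)
      simpa [List.getD_cons_succ, Nat.add_assoc, Nat.add_comm 1 i] using this
    refine ⟨fun j hj => h1 j (by simp only [List.length_cons] at hj; omega), ?_, fun hg hlt => ?_⟩
    · simp only [red, spanL, List.mem_append, List.mem_map]
      by_cases hb : n.testBit k = true
      · simp only [hb, if_true] at h2 ⊢
        refine Or.inr ⟨_, h2, ?_⟩
        generalize red gs (k + 1) (n ^^^ g) = r
        rw [Nat.xor_assoc, Nat.xor_assoc, Nat.xor_comm r g, ← Nat.xor_assoc g, Nat.xor_self, Nat.zero_xor]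
      · simp only [hb] at h2 ⊢
        exact Or.inl h2
    · refine h3 (fun g' hg' => hg g' (List.mem_cons_of_mem _ hg')) ?_
      split
      · exact Nat.xor_lt_two_pow hlt (hg g (List.mem_cons_self ..))
      · exact hlt

theorem exists_residue (n : ℕ) (hn : n < 2 ^ 24) :
    ∃ q < 4096, inCode (n ^^^ (q <<< 12)) = true := by
  obtain ⟨hlen, hp, hg⟩ := pivots
  simp only [List.all_eq_true, List.mem_range, Bool.and_eq_true, Bool.not_eq_true', decide_eq_true_eq] at hp hg
  obtain ⟨h1, h2, h3⟩ := red_spec codeGens 0 n (fun j hj => absurd hj (Nat.not_lt_zero j)) fun i hi => by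
    rw [Nat.zero_add]; exact hp i (hlen ▸ hi)
  have hr := h3 hg hn
  refine ⟨red codeGens 0 n >>> 12, ?_, ?_⟩
  · rw [Nat.shiftRight_eq_div_pow]; omega
  · have e : (red codeGens 0 n >>> 12) <<< 12 = red codeGens 0 n := by
      refine Nat.eq_of_testBit_eq fun j => ?_
      rw [Nat.testBit_shiftLeft, Nat.testBit_shiftRight]
      by_cases hj : j < 12
      · rw [h1 j (by rw [hlen]; omega)]; simp [Nat.not_le.2 hj]
      · simp [Nat.not_lt.1 hj, Nat.add_sub_cancel' (Nat.not_lt.1 hj)]
    rw [e]
    exact (inCode_iff _).2 h2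

theorem inCode_of_toWord {n : ℕ} (hn : n < 2 ^ 24) (h : toWord n ∈ golayCode) : inCode n = true := by
  obtain ⟨m, hm, e⟩ := exists_mask h
  have e' := congrArg support₂ e
  rw [support_toWord, support_toWord, toSet_eq_iff (lt_of_inCode hm) hn] at e'
  exact e' ▸ hm

theorem support_move (σ : Equiv.Perm GolayPt) (w : GolayPt → ZMod 2) :
    support₂ (fun p => w (σ.symm p)) = σ • support₂ w := by
  ext p
  rw [Finset.mem_smul_finset]
  simp only [support₂, Finset.mem_filter, Finset.mem_univ, true_and, Equiv.Perm.smul_def]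
  constructor
  · exact fun h => ⟨σ.symm p, h, σ.apply_symm_apply p⟩
  · rintro ⟨q, hq, rfl⟩
    rwa [σ.symm_apply_apply]

theorem word_move {l : List ℕ} (h : isPermList l = true) (n : ℕ) :
    (fun p => toWord n ((permOf l).symm p)) = toWord (imgMask l n) := by
  refine support_injective ?_
  rw [support_move, support_toWord, support_toWord, toSet_imgMask h]

theorem exists_move_base {G : List (List ℕ)} {b : ℕ} (hG : (List.range 4096).all (moves G) = true)
    (hb : (G.all fun g => keepsCode g && imgMask g b == b) = true)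
    {w : GolayPt → ZMod 2} (hw : w ∉ golayCode) :
    ∃ σ ∈ M24, σ • toSet b = toSet b ∧ (fun p => w (σ.symm p)) - w ∉ golayCode := by
  set n := setNat (support₂ w) with hn
  obtain ⟨q, hq, hqn⟩ := exists_residue n (setNat_lt _)
  set c := toWord (n ^^^ q <<< 12) with hc
  have hcm : c ∈ golayCode := toWord_mem_golayCode hqn
  have hwr : w = c + toWord (q <<< 12) := by
    rw [hc, ← toWord_xor, Nat.xor_assoc, Nat.xor_self, Nat.xor_zero, hn, toWord_support]
  have hq0 : q ≠ 0 := by
    rintro rfl
    apply hw
    rw [hwr, Nat.zero_shiftLeft, toWord_zero, add_zero]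
    exact hcm
  have h := List.all_eq_true.1 hG q (List.mem_range.2 hq)
  simp only [moves, Bool.or_eq_true, beq_iff_eq, hq0, false_or, List.any_eq_true, Bool.not_eq_true'] at h
  obtain ⟨g, hg, hbad⟩ := h
  have hg' := List.all_eq_true.1 hb g hg
  simp only [Bool.and_eq_true, beq_iff_eq] at hg'
  have hp : isPermList g = true := by have := hg'.1; simp only [keepsCode, Bool.and_eq_true] at this; exact this.1
  have hσ := permOf_mem_M24 hg'.1
  refine ⟨_, hσ, by rw [← toSet_imgMask hp, hg'.2], fun hmem => ?_⟩
  have hcs : (fun p => c ((permOf g).symm p)) ∈ golayCode := by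
    obtain ⟨x, hx, e⟩ := smul_mem_supports hσ (⟨c, hcm, rfl⟩ : support₂ c ∈ supports (golayCode : Set (GolayPt → ZMod 2)))
    rw [← support_move] at e
    exact support_injective e ▸ hx
  have hsub : toWord (imgMask g (q <<< 12) ^^^ q <<< 12) ∈ golayCode := by
    have h2 : ∀ a b : GolayPt → ZMod 2, a + b = a - b := fun a b => by
      funext p; simp only [Pi.add_apply, Pi.sub_apply]; generalize a p = x; generalize b p = y; revert x y; decide
    rw [toWord_xor, h2, ← word_move hp]
    have e : (fun p => toWord (q <<< 12) ((permOf g).symm p)) - toWord (q <<< 12) =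
        ((fun p => w ((permOf g).symm p)) - w) - ((fun p => c ((permOf g).symm p)) - c) := by
      funext p
      rw [hwr]
      simp only [Pi.sub_apply, Pi.add_apply]
      ring
    rw [e]
    exact Submodule.sub_mem _ hmem (Submodule.sub_mem _ hcs hcm)
  have hlt : imgMask g (q <<< 12) ^^^ q <<< 12 < 2 ^ 24 :=
    Nat.xor_lt_two_pow (imgMask_lt hp _) (by rw [Nat.shiftLeft_eq]; omega)
  rw [inCode_of_toWord hlt hsub] at hbad
  exact absurd hbad (by decide)

theorem stab_compl {σ : Equiv.Perm GolayPt} {s : Finset GolayPt} (h : σ • s = s) : σ • sᶜ = sᶜ := by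
  refine Finset.eq_of_subset_of_card_le (fun x hx => ?_) (by rw [Finset.card_smul_finset])
  obtain ⟨y, hy, rfl⟩ := Finset.mem_smul_finset.1 hx
  rw [Finset.mem_compl] at hy ⊢
  rw [← h, Finset.smul_mem_smul_finset_iff]
  exact hy

theorem exists_move_word {u w : GolayPt → ZMod 2} (hu : u ∈ golayCode) (hw : w ∉ golayCode) :
    ∃ σ ∈ M24, (fun p => u (σ.symm p)) = u ∧ (fun p => w (σ.symm p)) - w ∉ golayCode := by
  suffices h : ∃ σ ∈ M24, σ • support₂ u = support₂ u ∧ (fun p => w (σ.symm p)) - w ∉ golayCode by
    obtain ⟨σ, hσ, e, hn⟩ := h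
    exact ⟨σ, hσ, support_injective (by rw [support_move, e]), hn⟩
  set s := support₂ u with hs
  have hsm : s ∈ supports (golayCode : Set (GolayPt → ZMod 2)) := ⟨u, hu, rfl⟩
  -- transport to a base set
  have transport : ∀ {b : ℕ} {G : List (List ℕ)}, (List.range 4096).all (moves G) = true →
      (G.all fun g => keepsCode g && imgMask g b == b) = true → ∀ τ ∈ M24,
      (τ • toSet b = s ∨ τ • (toSet b)ᶜ = s ∨ ∀ σ : Equiv.Perm GolayPt, σ • s = s) →
      ∃ σ ∈ M24, σ • s = s ∧ (fun p => w (σ.symm p)) - w ∉ golayCode := by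
    intro b G hG hb τ hτ hτs
    have mv : ∀ {x : GolayPt → ZMod 2} {ρ : Equiv.Perm GolayPt}, ρ ∈ M24 → x ∈ golayCode →
        (fun p => x (ρ.symm p)) ∈ golayCode := by
      intro x ρ hρ hx
      obtain ⟨y, hy, e⟩ := smul_mem_supports hρ (⟨x, hx, rfl⟩ : support₂ x ∈ supports (golayCode : Set (GolayPt → ZMod 2)))
      rw [← support_move] at e
      exact support_injective e ▸ hy
    have hw' : (fun p => w (τ p)) ∉ golayCode := fun h => hw (by
      have := mv hτ h
      simpa using this)
    obtain ⟨ρ, hρ, hρb, hρw⟩ := exists_move_base hG hb hw'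
    refine ⟨τ * ρ * τ⁻¹, M24.mul_mem (M24.mul_mem hτ hρ) (M24.inv_mem hτ), ?_, fun h => hρw ?_⟩
    · rcases hτs with e | e | e
      · rw [← e, mul_smul, mul_smul, inv_smul_smul, hρb]
      · rw [← e, mul_smul, mul_smul, inv_smul_smul, stab_compl hρb]
      · exact e _
    · have h' := mv (M24.inv_mem hτ) h
      convert h' using 1
      funext p
      simp [Equiv.Perm.mul_def, Equiv.Perm.inv_def]
  have hw5 := weight_cases hsm
  have htop : (s = ∅ ∨ s = Finset.univ) → ∀ σ : Equiv.Perm GolayPt, σ • s = s := by
    rintro (e | e) σ <;> rw [e] <;> simp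
  rcases hw5 with h | h | h | h | h
  · exact transport oct_moves stab_gens_check.1 1 M24.one_mem (Or.inr (Or.inr (htop (Or.inl (Finset.card_eq_zero.1 h)))))
  · obtain ⟨τ, hτ, e⟩ := octad_transitive baseO_mem (show s ∈ octads from ⟨hsm, h⟩)
    exact transport oct_moves stab_gens_check.1 τ hτ (Or.inl e)
  · obtain ⟨τ, hτ, e⟩ := dodecad_transitive (show toSet baseDod ∈ dodecads from toSet_mem_dodecads (List.mem_filter.2 ⟨(inCode_iff _).1 (by decide +kernel), by decide +kernel⟩)) (show s ∈ dodecads from ⟨hsm, h⟩)
    exact transport dod_moves stab_gens_check.2 τ hτ (Or.inl e)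
  · have hone : (1 : GolayPt → ZMod 2) ∈ golayCode := Submodule.subset_span (Or.inr rfl)
    have hsc : sᶜ ∈ octads := by
      refine ⟨⟨u + 1, Submodule.add_mem _ hu hone, ?_⟩, by rw [Finset.card_compl, h]; simp [GolayPt]⟩
      ext p
      simp only [hs, support₂, Finset.mem_compl, Finset.mem_filter, Finset.mem_univ, true_and, Pi.add_apply, Pi.one_apply]
      generalize u p = x
      revert x
      decide
    obtain ⟨τ, hτ, e⟩ := octad_transitive baseO_mem hsc
    refine transport oct_moves stab_gens_check.1 τ hτ (Or.inr (Or.inl ?_))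
    have := congrArg (·ᶜ) e
    simp only [compl_compl] at this
    rw [← this]
    ext x
    rw [Finset.mem_compl, Finset.mem_smul_finset, Finset.mem_smul_finset]
    constructor
    · rintro ⟨y, hy, rfl⟩ ⟨z, hz, hzy⟩
      rw [MulAction.injective τ hzy] at hz
      exact Finset.mem_compl.1 hy hz
    · intro hx
      exact ⟨τ⁻¹ • x, Finset.mem_compl.2 fun hm => hx ⟨_, hm, smul_inv_smul τ x⟩, smul_inv_smul τ x⟩
  · refine transport oct_moves stab_gens_check.1 1 M24.one_mem (Or.inr (Or.inr (htop (Or.inr ?_))))
    exact Finset.eq_univ_of_card _ (by rw [h]; simp [GolayPt])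

end Cfsg.Lib.Golay.FixVec
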