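import Mathlib
import Cfsg.Agent.Lib.Golay.MarkedData
import Cfsg.Agent.Lib.Golay.DodGroups
import Cfsg.Agent.Lib.Golay.Count

/-! Orbits of marked stabilisers in `M24` on pairs and on dodecads. -/

set_option autoImplicit false
set_option maxRecDepth 100000
set_option linter.constructorNameAsVariable false

namespace Cfsg.Lib.Golay.MarkedOrbits

open Cfsg
open scoped Pointwise

/-- Apply a word. -/
def applyW (gens : List (List ℕ)) (w : List ℕ) (t : ℕ) : ℕ :=
  w.foldl (fun t j => imgMask (gens.getD j []) t) t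

/-- The check of one configuration. -/
def confOK (gens : List (List ℕ)) (M : ℕ) (pts : List ℕ) (L : List ℕ) (cls : ℕ → ℕ)
    (reps : List (ℕ × ℕ)) (words : List (ℕ × List ℕ)) : Bool :=
  gens.all (fun g => keepsCode g && imgMask g M == M && pts.all fun i => decide (i < 24) && g.getD i 0 == i) &&
    (L == words.map Prod.fst) &&
    words.all fun e => e.2.all (fun j => decide (j < gens.length)) &&
      applyW gens e.2 ((reps.lookup (cls e.1)).getD 0) == e.1

theorem word_spec {gens : List (List ℕ)} {M : ℕ} {pts : List ℕ}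
    (hg : gens.all (fun g => keepsCode g && imgMask g M == M && pts.all fun i => decide (i < 24) && g.getD i 0 == i) = true) :
    ∀ (w : List ℕ) (t : ℕ), (∀ j ∈ w, j < gens.length) →
      ∃ g ∈ M24, g • toSet M = toSet M ∧ (∀ i ∈ pts, g (pt i) = pt i) ∧ g • toSet t = toSet (applyW gens w t)
  | [], t, _ => ⟨1, M24.one_mem, one_smul _ _, fun _ _ => rfl, one_smul _ _⟩
  | j :: w, t, h => by
    have hj : j < gens.length := h j (List.mem_cons_self ..)
    have hm : gens.getD j [] ∈ gens := by rw [List.getD_eq_getElem _ _ hj]; exact List.getElem_mem hj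
    have hc := List.all_eq_true.1 hg _ hm
    simp only [Bool.and_eq_true, beq_iff_eq, List.all_eq_true, decide_eq_true_eq] at hc
    obtain ⟨⟨hk, hB⟩, hp⟩ := hc
    have hperm : isPermList (gens.getD j []) = true := by
      have := hk; simp only [keepsCode, Bool.and_eq_true] at this; exact this.1
    obtain ⟨g, hgm, hgB, hgp, hge⟩ := word_spec hg w (imgMask (gens.getD j []) t) fun k hk => h k (List.mem_cons_of_mem _ hk)
    refine ⟨g * permOf (gens.getD j []), M24.mul_mem hgm (permOf_mem_M24 hk), ?_, fun i hi => ?_, ?_⟩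
    · rw [mul_smul, ← toSet_imgMask hperm, hB, hgB]
    · rw [Equiv.Perm.mul_apply, permOf_pt hperm (hp i hi).1, (hp i hi).2, hgp i hi]
    · rw [mul_smul, ← toSet_imgMask hperm, hge]
      rfl

theorem conf_trans {gens : List (List ℕ)} {M : ℕ} {pts L : List ℕ} {cls : ℕ → ℕ} {reps : List (ℕ × ℕ)}
    {words : List (ℕ × List ℕ)} (h : confOK gens M pts L cls reps words = true)
    {m n : ℕ} (hm : m ∈ L) (hn : n ∈ L) (he : cls m = cls n) :
    ∃ g ∈ M24, g • toSet M = toSet M ∧ (∀ i ∈ pts, g (pt i) = pt i) ∧ g • toSet m = toSet n := by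
  simp only [confOK, Bool.and_eq_true, beq_iff_eq] at h
  obtain ⟨⟨hg, hf⟩, hw⟩ := h
  have key : ∀ a ∈ L, ∃ g ∈ M24, g • toSet M = toSet M ∧ (∀ i ∈ pts, g (pt i) = pt i) ∧
      g • toSet ((reps.lookup (cls a)).getD 0) = toSet a := by
    intro a ha
    obtain ⟨e, hew, rfl⟩ := List.mem_map.1 (hf ▸ ha : a ∈ words.map Prod.fst)
    have hc := List.all_eq_true.1 hw e hew
    simp only [Bool.and_eq_true, List.all_eq_true, decide_eq_true_eq, beq_iff_eq] at hc
    obtain ⟨g, h1, h2, h3, h4⟩ := word_spec hg e.2 ((reps.lookup (cls e.1)).getD 0) hc.1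
    exact ⟨g, h1, h2, h3, h4.trans (by rw [hc.2])⟩
  obtain ⟨a, a1, a2, a3, a4⟩ := key m hm
  obtain ⟨b, b1, b2, b3, b4⟩ := key n hn
  refine ⟨b * a⁻¹, M24.mul_mem b1 (M24.inv_mem a1), ?_, fun i hi => ?_, ?_⟩
  · rw [mul_smul, inv_smul_eq_iff.2 a2.symm, b2]
  · rw [Equiv.Perm.mul_apply, show a⁻¹ (pt i) = pt i from Equiv.Perm.inv_eq_iff_eq.2 (a3 i hi).symm, b3 i hi]
  · rw [← he] at b4
    rw [← a4, mul_smul, inv_smul_smul, b4]

/-- The dodecads through the first point. -/
def dodL : List ℕ := dodMasks.filter fun t => t.testBit Chain.dodPt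

/-- The classifier of dodecads. -/
def dodCls (t : ℕ) : ℕ := pop (t &&& baseDod)

/-- The check of a chunk of words. -/
def chunkOK (gens : List (List ℕ)) (cls : ℕ → ℕ) (reps : List (ℕ × ℕ)) (words : List (ℕ × List ℕ)) : Bool :=
  words.all fun e => e.2.all (fun j => decide (j < gens.length)) &&
    applyW gens e.2 ((reps.lookup (cls e.1)).getD 0) == e.1

/-- All two-element masks. -/
def pairMasks : List ℕ :=
  (List.range 24).flatMap fun i => (List.range' (i + 1) (23 - i)).map fun j => (2 ^ i) ||| (2 ^ j)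

/-- The marked pair. -/
def sMask : ℕ := 6

/-- The two marked points. -/
def pqMask : ℕ := 8388609

/-- The pairs to be classified. -/
def duadL : List ℕ := pairMasks.filter fun t => t &&& pqMask == 0 && !(t == sMask)

/-- Being in an octad with the marked points. -/
def inOct (t : ℕ) : Bool :=
  octMasks.any fun o => o &&& (pqMask ||| sMask ||| t) == (pqMask ||| sMask ||| t)

/-- The classifier of pairs. -/
def duadCls (t : ℕ) : ℕ := 2 * pop (t &&& sMask) + if inOct t then 1 else 0

theorem pairMasks_check : pairMasks.Nodup ∧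
    (pairMasks.all fun t => decide (t < 2 ^ 24) && pop t == 2) = true := by decide +kernel

theorem pair_complete : ((List.range 24).all fun i => (List.range 24).all fun j =>
    i == j || pairMasks.contains (2 ^ i ||| 2 ^ j)) = true := by decide +kernel

theorem duad_ok : confOK duadGens sMask [baseIdx 0, baseIdx 1] duadL duadCls duadReps duadWords = true := by
  decide +kernel

theorem duad_counts :
    pairMasks.countP (fun t => t &&& pqMask == 0 && (sMask &&& t == 0) && inOct t) = 30 ∧
    pairMasks.countP (fun t => t &&& pqMask == 0 && (sMask &&& t == 0) && !inOct t) = 160 := by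
  decide +kernel

end Cfsg.Lib.Golay.MarkedOrbits
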