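import Mathlib
import Cfsg.Agent.Lib.Golay.MarkedOrbits

/-! Orbits of a point stabiliser in a dodecad stabiliser on dodecads. -/

set_option autoImplicit false
set_option maxRecDepth 100000
set_option Elab.async false

namespace Cfsg.Lib.Golay.MarkedOrbits

theorem dod_chunk0 : chunkOK dodGens dodCls dodReps dodWords0 = true := by decide +kernel

theorem dod_chunk1 : chunkOK dodGens dodCls dodReps dodWords1 = true := by decide +kernel

theorem dod_chunk2 : chunkOK dodGens dodCls dodReps dodWords2 = true := by decide +kernel

theorem dod_chunk3 : chunkOK dodGens dodCls dodReps dodWords3 = true := by decide +kernel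

theorem dod_chunk4 : chunkOK dodGens dodCls dodReps dodWords4 = true := by decide +kernel

theorem dod_chunk5 : chunkOK dodGens dodCls dodReps dodWords5 = true := by decide +kernel

theorem dod_chunk6 : chunkOK dodGens dodCls dodReps dodWords6 = true := by decide +kernel

theorem dod_gens : (dodGens.all fun g => keepsCode g && imgMask g baseDod == baseDod &&
    [Chain.dodPt].all fun i => decide (i < 24) && g.getD i 0 == i) = true := by decide +kernel

theorem dod_list : (dodL == dodWords.map Prod.fst) = true := by decide +kernel

theorem dod_ok : confOK dodGens baseDod [Chain.dodPt] dodL dodCls dodReps dodWords = true := by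
  have hw : (dodWords.all fun e => e.2.all (fun j => decide (j < dodGens.length)) &&
      applyW dodGens e.2 ((dodReps.lookup (dodCls e.1)).getD 0) == e.1) = true := by
    simp only [dodWords, List.all_append, Bool.and_eq_true]
    exact ⟨⟨⟨⟨⟨⟨dod_chunk0, dod_chunk1⟩, dod_chunk2⟩, dod_chunk3⟩, dod_chunk4⟩, dod_chunk5⟩, dod_chunk6⟩
  simp only [confOK, Bool.and_eq_true]
  exact ⟨⟨dod_gens, dod_list⟩, hw⟩

theorem dod_count_four :
    dodMasks.countP (fun t => t.testBit Chain.dodPt && pop (baseDod &&& t) == 4) = 165 := by decide +kernel

theorem dod_count_eight :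
    dodMasks.countP (fun t => t.testBit Chain.dodPt && pop (baseDod &&& t) == 8) = 330 := by decide +kernel

theorem dod_count_six :
    dodMasks.countP (fun t => t.testBit Chain.dodPt && pop (baseDod &&& t) == 6) = 792 := by decide +kernel

end Cfsg.Lib.Golay.MarkedOrbits
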