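import Mathlib
import Cfsg.Agent.Lib.Golay.DodGroups
import Cfsg.Agent.Lib.Golay.OctKer

/-! The pointwise stabiliser of three points of a dodecad in its stabiliser, of order 72. -/

set_option autoImplicit false
set_option maxRecDepth 100000
set_option linter.constructorNameAsVariable false

namespace Cfsg.Lib.Golay.NineGroup

open Cfsg Chain
open scoped Pointwise

/-- The stabiliser of the base dodecad and three of its points. -/
def nineL : List (List ℕ) := [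
  [0, 1, 2, 3, 4, 5, 6, 7, 8, 9, 10, 11, 12, 13, 14, 15, 16, 17, 18, 19, 20, 21, 22, 23],
  [0, 1, 2, 3, 6, 14, 12, 22, 13, 4, 11, 7, 9, 16, 5, 21, 18, 23, 8, 20, 15, 19, 10, 17],
  [0, 1, 2, 3, 8, 17, 18, 15, 12, 13, 19, 21, 16, 6, 23, 10, 4, 5, 9, 7, 11, 22, 20, 14],
  [0, 1, 2, 3, 9, 14, 4, 11, 18, 12, 22, 10, 6, 8, 5, 20, 13, 23, 16, 21, 19, 15, 7, 17],
  [0, 1, 2, 3, 12, 5, 9, 10, 16, 6, 7, 22, 4, 18, 14, 19, 8, 17, 13, 15, 21, 20, 11, 23],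
  [0, 1, 2, 3, 13, 23, 8, 21, 9, 16, 20, 19, 18, 12, 17, 11, 6, 14, 4, 22, 7, 10, 15, 5],
  [0, 1, 2, 3, 16, 17, 13, 19, 4, 18, 15, 20, 8, 9, 23, 7, 12, 5, 6, 10, 22, 11, 21, 14],
  [0, 1, 2, 3, 18, 23, 16, 20, 6, 8, 21, 15, 13, 4, 17, 22, 9, 14, 12, 11, 10, 7, 19, 5],
  [0, 1, 2, 4, 3, 15, 13, 10, 18, 16, 7, 23, 12, 6, 21, 5, 9, 17, 8, 19, 20, 14, 22, 11],
  [0, 1, 2, 4, 6, 11, 18, 14, 16, 9, 20, 19, 8, 12, 17, 23, 13, 21, 3, 22, 10, 7, 5, 15],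
  [0, 1, 2, 4, 8, 11, 9, 20, 13, 18, 14, 5, 6, 3, 17, 22, 16, 21, 12, 23, 7, 10, 19, 15],
  [0, 1, 2, 4, 9, 17, 6, 19, 3, 8, 5, 20, 18, 16, 11, 10, 12, 15, 13, 7, 22, 23, 14, 21],
  [0, 1, 2, 4, 12, 15, 16, 7, 9, 13, 10, 22, 3, 8, 21, 19, 18, 17, 6, 5, 14, 20, 23, 11],
  [0, 1, 2, 4, 13, 21, 12, 22, 6, 3, 23, 10, 16, 9, 15, 14, 8, 11, 18, 20, 5, 19, 7, 17],
  [0, 1, 2, 4, 16, 21, 3, 23, 8, 12, 22, 7, 13, 18, 15, 20, 6, 11, 9, 14, 19, 5, 10, 17],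
  [0, 1, 2, 4, 18, 17, 8, 5, 12, 6, 19, 14, 9, 13, 11, 7, 3, 15, 16, 10, 23, 22, 20, 21],
  [0, 1, 2, 6, 3, 21, 16, 11, 8, 18, 22, 17, 9, 12, 19, 14, 4, 23, 13, 20, 15, 5, 10, 7],
  [0, 1, 2, 6, 4, 23, 12, 20, 3, 13, 14, 15, 8, 18, 7, 11, 9, 21, 16, 22, 10, 17, 5, 19],
  [0, 1, 2, 6, 8, 23, 13, 14, 9, 12, 20, 5, 4, 16, 7, 22, 3, 21, 18, 11, 17, 10, 15, 19],
  [0, 1, 2, 6, 9, 21, 18, 22, 4, 16, 11, 10, 3, 13, 19, 20, 8, 23, 12, 14, 5, 15, 17, 7],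
  [0, 1, 2, 6, 12, 7, 8, 5, 18, 4, 15, 20, 13, 9, 23, 17, 16, 19, 3, 10, 11, 22, 14, 21],
  [0, 1, 2, 6, 13, 7, 4, 15, 16, 8, 5, 14, 12, 3, 23, 10, 18, 19, 9, 17, 22, 11, 20, 21],
  [0, 1, 2, 6, 16, 19, 9, 10, 12, 3, 17, 11, 18, 4, 21, 5, 13, 7, 8, 15, 14, 20, 22, 23],
  [0, 1, 2, 6, 18, 19, 3, 17, 13, 9, 10, 22, 16, 8, 21, 15, 12, 7, 4, 5, 20, 14, 11, 23],
  [0, 1, 2, 8, 3, 10, 6, 19, 9, 4, 15, 14, 16, 18, 22, 17, 13, 5, 12, 7, 11, 23, 20, 21],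
  [0, 1, 2, 8, 4, 22, 3, 14, 12, 16, 20, 15, 6, 9, 10, 11, 18, 21, 13, 23, 7, 17, 19, 5],
  [0, 1, 2, 8, 6, 22, 16, 20, 18, 3, 14, 19, 4, 13, 10, 23, 12, 21, 9, 11, 17, 7, 15, 5],
  [0, 1, 2, 8, 9, 5, 12, 17, 16, 18, 7, 23, 13, 6, 21, 15, 3, 10, 4, 19, 14, 20, 11, 22],
  [0, 1, 2, 8, 12, 21, 13, 11, 6, 9, 23, 17, 18, 3, 5, 20, 4, 22, 16, 14, 15, 19, 7, 10],
  [0, 1, 2, 8, 13, 5, 18, 7, 3, 12, 17, 11, 9, 4, 21, 19, 16, 10, 6, 15, 20, 14, 23, 22],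
  [0, 1, 2, 8, 16, 10, 4, 15, 13, 6, 19, 20, 3, 12, 22, 7, 9, 5, 18, 17, 23, 11, 14, 21],
  [0, 1, 2, 8, 18, 21, 9, 23, 4, 13, 11, 7, 12, 16, 5, 14, 6, 22, 3, 20, 19, 15, 17, 10],
  [0, 1, 2, 9, 3, 20, 8, 22, 16, 13, 11, 17, 6, 4, 15, 14, 12, 23, 18, 21, 19, 5, 7, 10],
  [0, 1, 2, 9, 4, 10, 16, 5, 13, 12, 19, 21, 18, 6, 23, 17, 8, 15, 3, 7, 22, 11, 14, 20],
  [0, 1, 2, 9, 6, 20, 13, 11, 12, 8, 22, 7, 3, 18, 15, 21, 16, 23, 4, 14, 5, 19, 17, 10],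
  [0, 1, 2, 9, 8, 15, 6, 7, 4, 3, 17, 22, 13, 12, 20, 5, 18, 10, 16, 19, 14, 21, 11, 23],
  [0, 1, 2, 9, 12, 23, 4, 21, 3, 18, 14, 19, 16, 13, 10, 22, 6, 20, 8, 11, 7, 17, 5, 15],
  [0, 1, 2, 9, 13, 15, 3, 17, 18, 6, 7, 11, 8, 16, 20, 19, 4, 10, 12, 5, 21, 14, 22, 23],
  [0, 1, 2, 9, 16, 23, 18, 14, 6, 4, 21, 5, 12, 8, 10, 11, 3, 20, 13, 22, 17, 7, 19, 15],
  [0, 1, 2, 9, 18, 10, 12, 19, 8, 16, 5, 14, 4, 3, 23, 7, 13, 15, 6, 17, 11, 22, 21, 20],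
  [0, 1, 2, 12, 3, 19, 18, 7, 13, 8, 10, 23, 4, 9, 20, 5, 6, 17, 16, 15, 21, 14, 11, 22],
  [0, 1, 2, 12, 4, 19, 8, 10, 6, 18, 7, 11, 3, 16, 20, 15, 13, 17, 9, 5, 14, 21, 23, 22],
  [0, 1, 2, 12, 6, 17, 9, 15, 3, 16, 5, 21, 13, 8, 22, 7, 4, 19, 18, 10, 11, 23, 14, 20],
  [0, 1, 2, 12, 8, 20, 3, 23, 16, 4, 11, 10, 18, 13, 19, 21, 9, 22, 6, 14, 15, 5, 7, 17],
  [0, 1, 2, 12, 9, 22, 13, 14, 8, 6, 21, 15, 16, 4, 17, 23, 18, 20, 3, 11, 7, 10, 5, 19],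
  [0, 1, 2, 12, 13, 17, 16, 5, 4, 9, 15, 14, 6, 18, 22, 10, 3, 19, 8, 7, 23, 11, 21, 20],
  [0, 1, 2, 12, 16, 22, 6, 21, 18, 13, 14, 5, 9, 3, 17, 11, 8, 20, 4, 23, 10, 7, 15, 19],
  [0, 1, 2, 12, 18, 20, 4, 11, 9, 3, 23, 7, 8, 6, 19, 14, 16, 22, 13, 21, 5, 15, 10, 17],
  [0, 1, 2, 13, 3, 11, 12, 20, 4, 6, 21, 5, 18, 8, 10, 23, 16, 14, 9, 22, 7, 17, 15, 19],
  [0, 1, 2, 13, 4, 14, 9, 23, 18, 8, 22, 17, 16, 12, 19, 21, 3, 11, 6, 20, 5, 15, 7, 10],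
  [0, 1, 2, 13, 6, 10, 3, 5, 9, 18, 15, 21, 12, 4, 11, 7, 8, 19, 16, 17, 22, 23, 20, 14],
  [0, 1, 2, 13, 8, 19, 4, 17, 6, 16, 7, 22, 9, 18, 14, 5, 12, 10, 3, 15, 20, 21, 23, 11],
  [0, 1, 2, 13, 9, 19, 16, 7, 12, 4, 17, 23, 8, 3, 14, 15, 6, 10, 18, 5, 21, 20, 22, 11],
  [0, 1, 2, 13, 12, 10, 18, 15, 8, 3, 5, 20, 6, 16, 11, 17, 9, 19, 4, 7, 23, 22, 21, 14],
  [0, 1, 2, 13, 16, 14, 8, 22, 3, 9, 23, 7, 4, 6, 19, 20, 18, 11, 12, 21, 15, 5, 17, 10],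
  [0, 1, 2, 13, 18, 11, 6, 21, 16, 12, 20, 15, 3, 9, 10, 22, 4, 14, 8, 23, 17, 7, 5, 19],
  [0, 1, 2, 16, 3, 7, 9, 15, 6, 12, 19, 14, 8, 13, 11, 17, 18, 5, 4, 10, 22, 23, 21, 20],
  [0, 1, 2, 16, 4, 20, 18, 22, 9, 6, 23, 17, 13, 3, 5, 21, 12, 11, 8, 14, 19, 15, 10, 7],
  [0, 1, 2, 16, 6, 5, 4, 17, 8, 13, 10, 23, 18, 9, 20, 19, 3, 7, 12, 15, 14, 21, 22, 11],
  [0, 1, 2, 16, 8, 7, 12, 19, 18, 9, 15, 21, 3, 4, 11, 10, 6, 5, 13, 17, 23, 22, 14, 20],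
  [0, 1, 2, 16, 9, 11, 8, 21, 13, 3, 14, 15, 12, 18, 7, 23, 4, 20, 6, 22, 17, 10, 19, 5],
  [0, 1, 2, 16, 12, 11, 3, 14, 4, 8, 21, 19, 9, 6, 7, 22, 13, 20, 18, 23, 10, 17, 15, 5],
  [0, 1, 2, 16, 13, 20, 6, 23, 12, 18, 22, 10, 4, 8, 5, 14, 9, 11, 3, 21, 15, 19, 17, 7],
  [0, 1, 2, 16, 18, 5, 13, 10, 3, 4, 17, 22, 6, 12, 20, 15, 8, 7, 9, 19, 21, 14, 23, 11],
  [0, 1, 2, 18, 3, 22, 4, 21, 12, 9, 20, 5, 13, 16, 7, 23, 8, 14, 6, 11, 10, 17, 19, 15],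
  [0, 1, 2, 18, 4, 7, 13, 19, 16, 3, 5, 21, 9, 8, 22, 17, 6, 15, 12, 10, 23, 11, 20, 14],
  [0, 1, 2, 18, 6, 15, 8, 10, 4, 12, 17, 23, 16, 3, 14, 19, 9, 7, 13, 5, 20, 21, 11, 22],
  [0, 1, 2, 18, 8, 14, 16, 11, 3, 6, 23, 10, 12, 9, 15, 21, 13, 22, 4, 20, 19, 5, 17, 7],
  [0, 1, 2, 18, 9, 7, 3, 5, 6, 13, 19, 20, 4, 12, 22, 10, 16, 15, 8, 17, 11, 23, 21, 14],
  [0, 1, 2, 18, 12, 14, 6, 23, 13, 16, 11, 17, 8, 4, 15, 20, 3, 22, 9, 21, 5, 19, 10, 7],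
  [0, 1, 2, 18, 13, 22, 9, 20, 8, 4, 21, 19, 3, 6, 7, 11, 12, 14, 16, 23, 17, 10, 5, 15],
  [0, 1, 2, 18, 16, 15, 12, 17, 9, 8, 10, 11, 6, 13, 14, 5, 4, 7, 3, 19, 21, 20, 23, 22]]

/-- The powers of a fourth root. -/
def aTab : List (List ℕ) := [
  [0, 1, 2, 3, 4, 5, 6, 7, 8, 9, 10, 11, 12, 13, 14, 15, 16, 17, 18, 19, 20, 21, 22, 23],
  [0, 1, 2, 3, 6, 14, 12, 22, 13, 4, 11, 7, 9, 16, 5, 21, 18, 23, 8, 20, 15, 19, 10, 17],
  [0, 1, 2, 3, 12, 5, 9, 10, 16, 6, 7, 22, 4, 18, 14, 19, 8, 17, 13, 15, 21, 20, 11, 23],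
  [0, 1, 2, 3, 9, 14, 4, 11, 18, 12, 22, 10, 6, 8, 5, 20, 13, 23, 16, 21, 19, 15, 7, 17]]

/-- The other coset. -/
def xaTab : List (List ℕ) := [
  [0, 1, 2, 3, 8, 17, 18, 15, 12, 13, 19, 21, 16, 6, 23, 10, 4, 5, 9, 7, 11, 22, 20, 14],
  [0, 1, 2, 3, 18, 23, 16, 20, 6, 8, 21, 15, 13, 4, 17, 22, 9, 14, 12, 11, 10, 7, 19, 5],
  [0, 1, 2, 3, 16, 17, 13, 19, 4, 18, 15, 20, 8, 9, 23, 7, 12, 5, 6, 10, 22, 11, 21, 14],
  [0, 1, 2, 3, 13, 23, 8, 21, 9, 16, 20, 19, 18, 12, 17, 11, 6, 14, 4, 22, 7, 10, 15, 5]]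

/-- The three points. -/
def threePt (j : Fin 3) : GolayPt := pt (dodIdx.getD j 0)

/-- The group of order 72. -/
def M9 : Subgroup (Equiv.Perm GolayPt) :=
  G12 ⊓ MulAction.stabilizer (Equiv.Perm GolayPt) (threePt 0) ⊓ MulAction.stabilizer (Equiv.Perm GolayPt) (threePt 1) ⊓
    MulAction.stabilizer (Equiv.Perm GolayPt) (threePt 2)

/-- The third power. -/
def cubeN (l : List ℕ) : List ℕ := compL (compL l l) l

/-- The fourth power. -/
def fourth (l : List ℕ) : List ℕ := compL (compL l l) (compL l l)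

/-- Membership data of one element. -/
def nineOK (l : List ℕ) : Bool := inTwelve l && l.getD (dodIdx.getD 0 0) 0 == dodIdx.getD 0 0 &&
      l.getD (dodIdx.getD 1 0) 0 == dodIdx.getD 1 0 && l.getD (dodIdx.getD 2 0) 0 == dodIdx.getD 2 0

/-- Power data of one element. -/
def powOK (l : List ℕ) : Bool := isPermList (compL l l) && isPermList (cubeN l) && isPermList (fourth l) &&
      (cubeN l == List.range 24 || fourth l == List.range 24)

theorem nine_ok0 : (nineL.take 24).all nineOK = true := by decide +kernel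
theorem nine_ok1 : ((nineL.drop 24).take 24).all nineOK = true := by decide +kernel
theorem nine_ok2 : (nineL.drop 48).all nineOK = true := by decide +kernel
theorem nine_pow : nineL.all powOK = true := by decide +kernel

theorem nine_meta : nineL.length = 72 ∧ nineL.Nodup ∧ nineL.countP (fun l => cubeN l == List.range 24) = 9 ∧
    (dodIdx.getD 0 0 < 24 ∧ dodIdx.getD 1 0 < 24 ∧ dodIdx.getD 2 0 < 24) := by decide +kernel

theorem nine_check : nineL.all nineOK = true ∧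
    nineL.length = 72 ∧ nineL.Nodup ∧ nineL.countP (fun l => cubeN l == List.range 24) = 9 ∧
    (dodIdx.getD 0 0 < 24 ∧ dodIdx.getD 1 0 < 24 ∧ dodIdx.getD 2 0 < 24) := by
  refine ⟨?_, nine_meta⟩
  rw [← List.take_append_drop 24 nineL, List.all_append, nine_ok0, Bool.true_and,
    ← List.take_append_drop 24 (nineL.drop 24), List.all_append, nine_ok1, Bool.true_and, List.drop_drop]
  exact nine_ok2

theorem threePt_inj : Function.Injective threePt := by decide +kernel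

theorem threePt_mem : ∀ j, threePt j ∈ toSet baseDod := by decide +kernel

theorem mem_nineL_M9 {l : List ℕ} (hl : l ∈ nineL) : isPermList l = true ∧ permOf l ∈ M9 := by
  obtain ⟨hall, -, -, -, d0, d1, d2⟩ := nine_check
  have h := List.all_eq_true.1 hall l hl
  simp only [nineOK, Bool.and_eq_true, beq_iff_eq] at h
  obtain ⟨⟨⟨h12, f0⟩, f1⟩, f2⟩ := h
  obtain ⟨hp, hm⟩ := inTwelve_spec l h12
  refine ⟨hp, ⟨⟨hm, ?_⟩, ?_⟩, ?_⟩
  · show permOf l (pt (dodIdx.getD 0 0)) = _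
    rw [permOf_pt hp d0, f0]; rfl
  · show permOf l (pt (dodIdx.getD 1 0)) = _
    rw [permOf_pt hp d1, f1]; rfl
  · show permOf l (pt (dodIdx.getD 2 0)) = _
    rw [permOf_pt hp d2, f2]; rfl

theorem M9_eq : (M9 : Set (Equiv.Perm GolayPt)) = ((nineL.map permOf).toFinset : Set _) := by
  classical
  obtain ⟨-, hlen, hnd, -⟩ := nine_check
  have hsub : ((nineL.map permOf).toFinset : Set (Equiv.Perm GolayPt)) ⊆ (M9 : Set _) := by
    intro g hg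
    simp only [List.coe_toFinset, Set.mem_ofPred_eq, List.mem_map] at hg
    obtain ⟨l, hl, rfl⟩ := hg
    exact (mem_nineL_M9 hl).2
  refine (Set.eq_of_subset_of_ncard_le hsub ?_).symm
  rw [Set.ncard_coe_finset, List.toFinset_card_of_nodup (hnd.map_on fun a ha b hb e =>
    OctKer.permOf_injOn (mem_nineL_M9 ha).1 (mem_nineL_M9 hb).1 e), List.length_map, hlen]
  set T : Finset GolayPt := toSet baseDod \ Finset.univ.image threePt with hT
  have hTc : T.card = 9 := by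
    rw [hT, Finset.card_sdiff_of_subset, card_baseDod, Finset.card_image_of_injective _ threePt_inj]
    · rfl
    · intro x hx
      obtain ⟨j, -, rfl⟩ := Finset.mem_image.1 hx
      exact threePt_mem j
  obtain ⟨a, ha⟩ := Finset.card_pos.1 (show 0 < T.card by omega)
  obtain ⟨b, hb, hab⟩ := Finset.exists_mem_ne (show 1 < T.card by omega) a
  have hT' : T.offDiag.card = 72 := by rw [Finset.offDiag_card, hTc]
  rw [← hT', ← Set.ncard_coe_finset]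
  have hfix : ∀ g ∈ M9, ∀ j, g (threePt j) = threePt j := by
    intro g hg j
    fin_cases j
    · exact hg.1.1.2
    · exact hg.1.2
    · exact hg.2
  refine Set.ncard_le_ncard_of_injOn (fun g => (g a, g b)) (fun g hg => ?_) ?_
  · have hmap : ∀ x ∈ T, g x ∈ T := by
      intro x hx
      rw [hT, Finset.mem_sdiff] at hx ⊢
      refine ⟨apply_mem_of_fix hg.1.1.1.2 hx.1, fun h => hx.2 ?_⟩
      obtain ⟨j, -, e⟩ := Finset.mem_image.1 h
      rw [← hfix g hg j] at e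
      exact g.injective e ▸ Finset.mem_image_of_mem _ (Finset.mem_univ j)
    exact Finset.mem_coe.2 (Finset.mem_offDiag.2 ⟨hmap a ha, hmap b hb, fun e => hab (g.injective e).symm⟩)
  · intro g hg h hh e
    simp only [Prod.mk.injEq] at e
    rw [hT, Finset.mem_sdiff] at ha hb
    have hne : ∀ {x}, x ∉ Finset.univ.image threePt → ∀ j, threePt j ≠ x := fun hx j e =>
      hx (e ▸ Finset.mem_image_of_mem _ (Finset.mem_univ j))
    let x : Fin 5 ↪ GolayPt := ⟨![threePt 0, threePt 1, threePt 2, a, b], by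
      intro i j e
      fin_cases i <;> fin_cases j <;> first
        | rfl
        | exact absurd (threePt_inj (a₁ := 0) (a₂ := 1) e) (by decide) | exact absurd (threePt_inj (a₁ := 1) (a₂ := 0) e) (by decide)
        | exact absurd (threePt_inj (a₁ := 0) (a₂ := 2) e) (by decide) | exact absurd (threePt_inj (a₁ := 2) (a₂ := 0) e) (by decide)
        | exact absurd (threePt_inj (a₁ := 1) (a₂ := 2) e) (by decide) | exact absurd (threePt_inj (a₁ := 2) (a₂ := 1) e) (by decide)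
        | exact absurd e (hne ha.2 0) | exact absurd (Eq.symm e) (hne ha.2 0)
        | exact absurd e (hne ha.2 1) | exact absurd (Eq.symm e) (hne ha.2 1)
        | exact absurd e (hne ha.2 2) | exact absurd (Eq.symm e) (hne ha.2 2)
        | exact absurd e (hne hb.2 0) | exact absurd (Eq.symm e) (hne hb.2 0)
        | exact absurd e (hne hb.2 1) | exact absurd (Eq.symm e) (hne hb.2 1)
        | exact absurd e (hne hb.2 2) | exact absurd (Eq.symm e) (hne hb.2 2)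
        | exact absurd e hab | exact absurd (Eq.symm e) hab⟩
    refine sharp12.2 x (fun i => ?_) g hg.1.1.1 h hh.1.1.1 (fun i => ?_)
    · fin_cases i
      · exact threePt_mem 0
      · exact threePt_mem 1
      · exact threePt_mem 2
      · exact ha.1
      · exact hb.1
    · fin_cases i
      · exact (hfix g hg 0).trans (hfix h hh 0).symm
      · exact (hfix g hg 1).trans (hfix h hh 1).symm
      · exact (hfix g hg 2).trans (hfix h hh 2).symm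
      · exact e.1
      · exact e.2

theorem card_M9 : Nat.card M9 = 72 := by
  classical
  obtain ⟨-, hlen, hnd, -⟩ := nine_check
  rw [← SetLike.coe_sort_coe, Nat.card_coe_set_eq, M9_eq, Set.ncard_coe_finset,
    List.toFinset_card_of_nodup (hnd.map_on fun a ha b hb e =>
      OctKer.permOf_injOn (mem_nineL_M9 ha).1 (mem_nineL_M9 hb).1 e), List.length_map, hlen]

theorem powers {l : List ℕ} (hl : l ∈ nineL) :
    permOf l ^ 3 = permOf (cubeN l) ∧ isPermList (cubeN l) = true ∧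
      (cubeN l = List.range 24 ∨ permOf l ^ 4 = 1) := by
  have h := List.all_eq_true.1 nine_pow l hl
  simp only [powOK, Bool.and_eq_true, Bool.or_eq_true, beq_iff_eq] at h
  obtain ⟨⟨⟨p2, p3⟩, p4⟩, himp⟩ := h
  have hp := (mem_nineL_M9 hl).1
  refine ⟨by rw [pow_succ, pow_two, ← permOf_mul hp hp p2 rfl, ← permOf_mul p2 hp p3 rfl], p3, himp.imp id fun e => ?_⟩
  rw [show (4 : ℕ) = 2 + 2 from rfl, pow_add, pow_two, ← permOf_mul hp hp p2 rfl, ← permOf_mul p2 p2 p4 rfl,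
    e, permOf_range]

theorem cube_one_iff {l : List ℕ} (hl : l ∈ nineL) : permOf l ^ 3 = 1 ↔ cubeN l = List.range 24 := by
  obtain ⟨e, p, -⟩ := powers hl
  rw [e]
  exact ⟨fun h => OctKer.permOf_injOn p (by decide) (h.trans permOf_range.symm), fun h => by rw [h, permOf_range]⟩

theorem ncard_cube : {g | g ∈ M9 ∧ g ^ 3 = 1}.ncard = 9 := by
  classical
  have hset : {g | g ∈ M9 ∧ g ^ 3 = 1} = (((nineL.filter fun l => cubeN l == List.range 24).map permOf).toFinset : Set _) := by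
    ext g
    simp only [Set.mem_ofPred_eq, List.coe_toFinset, List.mem_map, List.mem_filter, beq_iff_eq, ← SetLike.mem_coe, M9_eq]
    constructor
    · rintro ⟨⟨l, hl, rfl⟩, h⟩; exact ⟨l, ⟨hl, (cube_one_iff hl).1 h⟩, rfl⟩
    · rintro ⟨l, ⟨hl, h⟩, rfl⟩; exact ⟨⟨l, hl, rfl⟩, (cube_one_iff hl).2 h⟩
  rw [hset, Set.ncard_coe_finset, List.toFinset_card_of_nodup, List.length_map, ← List.countP_eq_length_filter,
    nine_check.2.2.2.1]
  exact (nine_check.2.2.1.filter _).map_on fun a ha b hb e =>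
    OctKer.permOf_injOn (mem_nineL_M9 (List.mem_filter.1 ha).1).1 (mem_nineL_M9 (List.mem_filter.1 hb).1).1 e

theorem cube_of_ninth {g : Equiv.Perm GolayPt} (hg : g ∈ M9) (h : g ^ 9 = 1) : g ^ 3 = 1 := by
  rw [← SetLike.mem_coe, M9_eq, List.coe_toFinset, Set.mem_ofPred_eq, List.mem_map] at hg
  obtain ⟨l, hl, rfl⟩ := hg
  obtain ⟨-, -, h' | h'⟩ := powers hl
  · exact (cube_one_iff hl).2 h'
  · have h1 : permOf l = 1 := by
      calc permOf l = (permOf l ^ 4) ^ 7 * ((permOf l ^ 9) ^ 3)⁻¹ := by group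
        _ = 1 := by rw [h, h']; group
    rw [h1, one_pow]

/-- The table of the quaternion group. -/
def qTab : QuaternionGroup 2 → List ℕ
  | .a i => aTab.getD i.val []
  | .xa i => xaTab.getD i.val []

theorem qTab_check : (∀ u v : QuaternionGroup 2, compL (qTab u) (qTab v) = qTab (u * v)) ∧
    (∀ u : QuaternionGroup 2, nineL.contains (qTab u) = true) ∧
    (∀ u : QuaternionGroup 2, qTab u = List.range 24 → u = 1) := by decide +kernel

/-- The embedding of the quaternion group. -/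
noncomputable def qHom : QuaternionGroup 2 →* M9 :=
  MonoidHom.mk' (fun u => ⟨permOf (qTab u), (mem_nineL_M9 (List.contains_iff_mem.1 (qTab_check.2.1 u))).2⟩) fun u v => by
    refine Subtype.ext ?_
    exact permOf_mul (mem_nineL_M9 (List.contains_iff_mem.1 (qTab_check.2.1 u))).1
      (mem_nineL_M9 (List.contains_iff_mem.1 (qTab_check.2.1 v))).1
      (mem_nineL_M9 (List.contains_iff_mem.1 (qTab_check.2.1 _))).1 (qTab_check.1 u v)

theorem qHom_injective : Function.Injective qHom := by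
  rw [injective_iff_map_eq_one]
  intro u hu
  refine qTab_check.2.2 u (OctKer.permOf_injOn (mem_nineL_M9 (List.contains_iff_mem.1 (qTab_check.2.1 u))).1 (by decide) ?_)
  rw [permOf_range]
  exact congrArg Subtype.val hu

theorem fact_two : (72 : ℕ).factorization 2 = 3 := by
  rw [show (72 : ℕ) = 8 * 9 from rfl, Nat.factorization_mul (by norm_num) (by norm_num),
    show (8 : ℕ) = 2 ^ 3 from rfl, show (9 : ℕ) = 3 ^ 2 from rfl, Nat.prime_two.factorization_pow,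
    Nat.prime_three.factorization_pow]
  simp

theorem fact_three : (72 : ℕ).factorization 3 = 2 := by
  rw [show (72 : ℕ) = 8 * 9 from rfl, Nat.factorization_mul (by norm_num) (by norm_num),
    show (8 : ℕ) = 2 ^ 3 from rfl, show (9 : ℕ) = 3 ^ 2 from rfl, Nat.prime_two.factorization_pow,
    Nat.prime_three.factorization_pow]
  simp

theorem of_iso {H : Type*} [Group H] (e : H ≃* M9) :
    (∀ Q : Sylow 3 H, (Q : Subgroup H).Normal ∧ Nat.card Q = 9 ∧ ∀ x ∈ (Q : Subgroup H), x ^ 3 = 1) ∧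
    ∀ P : Sylow 2 H, Nonempty (P ≃* QuaternionGroup 2) := by
  classical
  have : Finite H := Finite.of_equiv M9 e.symm.toEquiv
  haveI : Fact (Nat.Prime 2) := ⟨Nat.prime_two⟩
  haveI : Fact (Nat.Prime 3) := ⟨Nat.prime_three⟩
  have hcard : Nat.card H = 72 := by rw [Nat.card_congr e.toEquiv, card_M9]
  refine ⟨fun Q => ?_, fun P => ?_⟩
  · have hQ : Nat.card Q = 9 := by rw [Sylow.card_eq_multiplicity, hcard, fact_three]; rfl
    have hcube : ∀ x ∈ (Q : Subgroup H), x ^ 3 = 1 := by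
      intro x hx
      have h9 : (⟨x, hx⟩ : (Q : Subgroup H)) ^ 9 = 1 := by
        rw [← hQ]; exact pow_card_eq_one'
      have h9' : x ^ 9 = 1 := congrArg Subtype.val h9
      apply e.injective
      refine Subtype.ext ?_
      rw [map_pow, map_one, Subgroup.coe_pow, Subgroup.coe_one]
      refine cube_of_ninth (e x).2 ?_
      rw [← Subgroup.coe_pow, ← map_pow, h9', map_one, Subgroup.coe_one]
    have hN : ((Q : Subgroup H) : Set H) = {x | x ^ 3 = 1} := by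
      refine Set.eq_of_subset_of_ncard_le hcube ?_
      rw [← Nat.card_coe_set_eq (s := ((Q : Subgroup H) : Set H))]
      show {x : H | x ^ 3 = 1}.ncard ≤ Nat.card Q
      rw [hQ, ← ncard_cube]
      refine le_of_eq (Set.ncard_congr (fun x _ => ((e x : M9) : Equiv.Perm GolayPt)) (fun x hx => ?_)
        (fun a b _ _ h => e.injective (Subtype.ext h)) fun g hg => ?_)
      · refine ⟨(e x).2, ?_⟩
        rw [← Subgroup.coe_pow, ← map_pow, show x ^ 3 = 1 from hx, map_one, Subgroup.coe_one]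
      · refine ⟨e.symm ⟨g, hg.1⟩, ?_, by simp⟩
        show (e.symm ⟨g, hg.1⟩) ^ 3 = 1
        rw [← map_pow, map_eq_one_iff _ e.symm.injective]
        exact Subtype.ext hg.2
    refine ⟨⟨fun x hx g => ?_⟩, hQ, hcube⟩
    rw [← SetLike.mem_coe, hN] at hx ⊢
    show (g * x * g⁻¹) ^ 3 = 1
    rw [conj_pow, show x ^ 3 = 1 from hx, mul_one, mul_inv_cancel]
  · let f : QuaternionGroup 2 →* H := e.symm.toMonoidHom.comp qHom
    have hf : Function.Injective f := e.symm.injective.comp qHom_injective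
    have hc : Nat.card f.range = 2 ^ (Nat.card H).factorization 2 := by
      rw [← Nat.card_congr (MonoidHom.ofInjective hf).toEquiv, hcard, fact_two, Nat.card_eq_fintype_card,
        QuaternionGroup.card]
      norm_num
    let P₀ : Sylow 2 H := Sylow.ofCard f.range hc
    exact ⟨(Sylow.equiv P P₀).trans ((MulEquiv.subgroupCongr (Sylow.coe_ofCard f.range hc)).trans (MonoidHom.ofInjective hf).symm)⟩

/-- A dodecad and three of its points, moved to the standard ones. -/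
theorem exists_std {d : Finset GolayPt} (hd : d ∈ dodecads) {p q r : GolayPt} (hp : p ∈ d) (hq : q ∈ d) (hr : r ∈ d)
    (hpq : p ≠ q) (hpr : p ≠ r) (hqr : q ≠ r) :
    ∃ τ ∈ M24, τ • toSet baseDod = d ∧ τ (threePt 0) = p ∧ τ (threePt 1) = q ∧ τ (threePt 2) = r := by
  obtain ⟨σ, hσ, rfl⟩ := dodecad_transitive baseDod_mem hd
  let y : Fin 3 ↪ GolayPt := ⟨![σ⁻¹ p, σ⁻¹ q, σ⁻¹ r], by
    intro i j e
    fin_cases i <;> fin_cases j <;> first
      | rfl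
      | exact absurd (σ⁻¹.injective e) hpq | exact absurd (σ⁻¹.injective e).symm hpq
      | exact absurd (σ⁻¹.injective e) hpr | exact absurd (σ⁻¹.injective e).symm hpr
      | exact absurd (σ⁻¹.injective e) hqr | exact absurd (σ⁻¹.injective e).symm hqr⟩
  obtain ⟨g, hg, hge⟩ := trans12 (k := 3) (by norm_num) ⟨threePt, threePt_inj⟩ y threePt_mem (fun i => by
    fin_cases i
    · exact Finset.inv_smul_mem_iff.2 hp
    · exact Finset.inv_smul_mem_iff.2 hq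
    · exact Finset.inv_smul_mem_iff.2 hr)
  refine ⟨σ * g, M24.mul_mem hσ hg.1, by rw [mul_smul, show g • toSet baseDod = toSet baseDod from hg.2], ?_, ?_, ?_⟩
  · rw [Equiv.Perm.mul_apply, show g (threePt 0) = σ⁻¹ p from hge 0]; exact σ.apply_symm_apply p
  · rw [Equiv.Perm.mul_apply, show g (threePt 1) = σ⁻¹ q from hge 1]; exact σ.apply_symm_apply q
  · rw [Equiv.Perm.mul_apply, show g (threePt 2) = σ⁻¹ r from hge 2]; exact σ.apply_symm_apply r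

/-- The stabiliser inside `M24` as the standard group. -/
noncomputable def equivM9 {d : Finset GolayPt} {p q r : GolayPt} {τ : Equiv.Perm GolayPt} (hτ : τ ∈ M24)
    (hd : τ • toSet baseDod = d) (hp : τ (threePt 0) = p) (hq : τ (threePt 1) = q) (hr : τ (threePt 2) = r) :
    ↥(MulAction.stabilizer M24 d ⊓ MulAction.stabilizer M24 p ⊓ MulAction.stabilizer M24 q ⊓ MulAction.stabilizer M24 r) ≃*
      M9 where
  toFun g := ⟨τ⁻¹ * g.1.1 * τ, by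
    refine ⟨⟨⟨mem_G12_conj hτ g.1.2 (by rw [hd]; exact g.2.1.1.1), ?_⟩, ?_⟩, ?_⟩
    · show (τ⁻¹ * g.1.1 * τ) (threePt 0) = _
      rw [Equiv.Perm.mul_apply, Equiv.Perm.mul_apply, hp, show g.1.1 p = p from g.2.1.1.2, Equiv.Perm.inv_eq_iff_eq, hp]
    · show (τ⁻¹ * g.1.1 * τ) (threePt 1) = _
      rw [Equiv.Perm.mul_apply, Equiv.Perm.mul_apply, hq, show g.1.1 q = q from g.2.1.2, Equiv.Perm.inv_eq_iff_eq, hq]
    · show (τ⁻¹ * g.1.1 * τ) (threePt 2) = _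
      rw [Equiv.Perm.mul_apply, Equiv.Perm.mul_apply, hr, show g.1.1 r = r from g.2.2, Equiv.Perm.inv_eq_iff_eq, hr]⟩
  invFun g := ⟨⟨τ * g.1 * τ⁻¹, M24.mul_mem (M24.mul_mem hτ g.2.1.1.1.1) (M24.inv_mem hτ)⟩, by
    refine ⟨⟨⟨?_, ?_⟩, ?_⟩, ?_⟩
    · show (τ * g.1 * τ⁻¹) • d = d
      rw [← hd]; exact conj_mem_stab g.2.1.1.1
    · show (τ * g.1 * τ⁻¹) p = p
      rw [← hp, Equiv.Perm.mul_apply, Equiv.Perm.mul_apply, show τ⁻¹ (τ (threePt 0)) = _ from τ.symm_apply_apply _,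
        show g.1 (threePt 0) = threePt 0 from g.2.1.1.2]
    · show (τ * g.1 * τ⁻¹) q = q
      rw [← hq, Equiv.Perm.mul_apply, Equiv.Perm.mul_apply, show τ⁻¹ (τ (threePt 1)) = _ from τ.symm_apply_apply _,
        show g.1 (threePt 1) = threePt 1 from g.2.1.2]
    · show (τ * g.1 * τ⁻¹) r = r
      rw [← hr, Equiv.Perm.mul_apply, Equiv.Perm.mul_apply, show τ⁻¹ (τ (threePt 2)) = _ from τ.symm_apply_apply _,
        show g.1 (threePt 2) = threePt 2 from g.2.2]⟩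
  left_inv g := by apply Subtype.ext; apply Subtype.ext; show τ * (τ⁻¹ * g.1.1 * τ) * τ⁻¹ = g.1.1; group
  right_inv g := by apply Subtype.ext; show τ⁻¹ * (τ * g.1 * τ⁻¹) * τ = g.1; group
  map_mul' a b := by apply Subtype.ext; show τ⁻¹ * (a.1.1 * b.1.1) * τ = (τ⁻¹ * a.1.1 * τ) * (τ⁻¹ * b.1.1 * τ); group

end Cfsg.Lib.Golay.NineGroup
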