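import Mathlib
import Cfsg.Agent.Lib.Golay.NineGroup

/-! The group of order 72 is transitive on the twelve points outside the dodecad. -/

set_option autoImplicit false
set_option maxRecDepth 100000

namespace Cfsg.Lib.Golay.NineGroup

open Cfsg Chain
open scoped Pointwise

theorem cover_out : (outIdx.all fun k => nineL.any fun l => l.getD (outIdx.getD 0 0) 0 == k) = true ∧
    outIdx.getD 0 0 < 24 ∧ (outIdx.all fun k => decide (k < 24)) = true := by decide +kernel

theorem trans_out {x y : GolayPt} (hx : x ∉ toSet baseDod) (hy : y ∉ toSet baseDod) : ∃ g ∈ M9, g x = y := by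
  obtain ⟨hall, h0, hlt⟩ := cover_out
  have key : ∀ z, z ∉ toSet baseDod → ∃ g ∈ M9, g (pt (outIdx.getD 0 0)) = z := by
    intro z hz
    have hm : idx z ∈ outIdx := by
      simp only [outIdx, List.mem_filter, List.mem_range, Bool.not_eq_true']
      refine ⟨idx_lt z, ?_⟩
      rw [mem_toSet] at hz
      simpa using hz
    obtain ⟨l, hl, e⟩ := List.any_eq_true.1 (List.all_eq_true.1 hall _ hm)
    rw [beq_iff_eq] at e
    obtain ⟨hp, hg⟩ := mem_nineL_M9 hl
    exact ⟨_, hg, by rw [permOf_pt hp h0, e, pt_idx]⟩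
  obtain ⟨a, ha, rfl⟩ := key x hx
  obtain ⟨b, hb, rfl⟩ := key y hy
  refine ⟨b * a⁻¹, M9.mul_mem hb (M9.inv_mem ha), ?_⟩
  rw [Equiv.Perm.mul_apply, show a⁻¹ (a (pt (outIdx.getD 0 0))) = _ from a.symm_apply_apply _]

end Cfsg.Lib.Golay.NineGroup
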