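import Mathlib
import Cfsg.Agent.Lib.Golay.Elements
import Cfsg.Agent.Lib.Golay.Count

/-! The stabiliser of an octad in `M24`: it induces the alternating group on the eight points. -/

set_option autoImplicit false
set_option maxRecDepth 100000

namespace Cfsg.Lib.Golay.OctadStab

open Cfsg
open scoped Pointwise

theorem ncard_octads' : octads.ncard = 759 := by
  have h := ncard_octads_filter (fun _ => True) (fun _ => true) (fun _ _ => by simp)
  simp only [and_true, Set.ofPred_mem_eq] at h
  rw [h, List.countP_true]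
  decide +kernel

/-- The stabiliser of a set of points in `M24`. -/
def octStab (o : Finset GolayPt) : Subgroup (Equiv.Perm GolayPt) :=
  M24 ⊓ MulAction.stabilizer (Equiv.Perm GolayPt) o

theorem mem_octStab {o : Finset GolayPt} {g : Equiv.Perm GolayPt} :
    g ∈ octStab o ↔ g ∈ M24 ∧ g • o = o := Iff.rfl

theorem card_octStab {o : Finset GolayPt} (ho : o ∈ octads) : Nat.card (octStab o) = 322560 := by
  have horb : MulAction.orbit M24 o = octads := by
    ext e
    constructor
    · rintro ⟨g, rfl⟩; exact smul_mem_words g.2 ho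
    · intro he
      obtain ⟨σ, hσ, h⟩ := octad_transitive ho he
      exact ⟨⟨σ, hσ⟩, h⟩
  have h := Nat.card_congr (MulAction.orbitProdStabilizerEquivGroup M24 o)
  rw [Nat.card_prod, Nat.card_coe_set_eq, horb, ncard_octads', card_M24] at h
  have e : Nat.card (octStab o) = Nat.card (MulAction.stabilizer M24 o) :=
    Nat.card_congr
      { toFun := fun g => ⟨⟨g.1, g.2.1⟩, g.2.2⟩
        invFun := fun g => ⟨g.1.1, g.1.2, g.2⟩
        left_inv := fun _ => rfl
        right_inv := fun _ => rfl }
  omega

theorem mem_iff_of_stab {o : Finset GolayPt} {g : Equiv.Perm GolayPt} (h : g • o = o) (x : GolayPt) :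
    g x ∈ o ↔ x ∈ o := by
  constructor
  · intro hx
    rw [← h] at hx
    exact (Finset.smul_mem_smul_finset_iff (s := o) g).1 hx
  · intro hx
    rw [← h]
    exact (Finset.smul_mem_smul_finset_iff (s := o) g).2 hx

/-- The action on the points of the octad. -/
def restr (o : Finset GolayPt) : octStab o →* Equiv.Perm o where
  toFun g := g.1.subtypePerm (mem_iff_of_stab g.2.2)
  map_one' := by ext; rfl
  map_mul' a b := by ext; rfl

theorem restr_apply {o : Finset GolayPt} (g : octStab o) (x : o) :
    (restr o g x : GolayPt) = g.1 x := rfl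

theorem mem_ker {o : Finset GolayPt} (g : octStab o) : g ∈ (restr o).ker ↔ g.1 ∈ fixer o := by
  rw [MonoidHom.mem_ker, mem_fixer]
  constructor
  · exact fun h => ⟨g.2.1, fun a ha => congrArg Subtype.val (Equiv.ext_iff.1 h ⟨a, ha⟩)⟩
  · exact fun h => Equiv.ext fun a => Subtype.ext (h.2 a a.2)

theorem fixer_le_octStab (o : Finset GolayPt) : fixer o ≤ octStab o := fun g hg =>
  ⟨hg.1, Finset.eq_of_subset_of_card_le (fun x hx => by
    obtain ⟨y, hy, rfl⟩ := Finset.mem_smul_finset.1 hx
    rw [Equiv.Perm.smul_def, hg.2 y hy]; exact hy) (by rw [Finset.card_smul_finset])⟩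

theorem card_ker {o : Finset GolayPt} (ho : o ∈ octads) : Nat.card (restr o).ker = 16 := by
  rw [← (OctKer.fixer_octad ho).1]
  exact Nat.card_congr
    { toFun := fun g => ⟨g.1.1, (mem_ker g.1).1 g.2⟩
      invFun := fun g => ⟨⟨g.1, fixer_le_octStab o g.2⟩, (mem_ker _).2 g.2⟩
      left_inv := fun _ => rfl
      right_inv := fun _ => rfl }

theorem range_restr {o : Finset GolayPt} (ho : o ∈ octads) : (restr o).range = alternatingGroup o := by
  classical
  have h := Subgroup.card_eq_card_quotient_mul_card_subgroup (restr o).ker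
  rw [card_octStab ho, card_ker ho, Nat.card_congr (QuotientGroup.quotientKerEquivRange (restr o)).toEquiv] at h
  apply Equiv.Perm.eq_alternatingGroup_of_index_eq_two
  have h2 := (restr o).range.card_mul_index
  have h3 : Nat.card (restr o).range = 20160 := by omega
  rw [Nat.card_perm, Nat.card_eq_finsetCard o, ho.2, h3, show Nat.factorial 8 = 40320 by decide] at h2
  omega

/-- An element fixing an octad pointwise and a ninth point is the identity. -/
theorem eq_one_of_fixer {o : Finset GolayPt} (ho : o ∈ octads) {p : GolayPt} (hp : p ∉ o)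
    {g : Equiv.Perm GolayPt} (hg : g ∈ fixer o) (hgp : g p = p) : g = 1 := by
  by_contra h1
  have hsq := (OctKer.fixer_octad ho).2 g hg
  haveI : Fact (Nat.Prime 2) := ⟨Nat.prime_two⟩
  have h2 : orderOf g = 2 := orderOf_eq_prime (by rw [pow_two, hsq]) h1
  have h9 : (insert p o).card ≤ (fixPts g).card := by
    refine Finset.card_le_card fun x hx => mem_fixPts.2 ?_
    rcases Finset.mem_insert.1 hx with rfl | hx
    · exact hgp
    · exact hg.2 x hx
  rw [Finset.card_insert_of_notMem hp, ho.2] at h9
  obtain ⟨k, -, ⟨h, -⟩ | ⟨h, -⟩⟩ := Elements.involution_fix hg.1 h2 <;> omega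

/-- The fixer of an octad is transitive on the other sixteen points. -/
theorem fixer_transitive {o : Finset GolayPt} (ho : o ∈ octads) {p q : GolayPt} (hp : p ∉ o) (hq : q ∉ o) :
    ∃ g ∈ fixer o, g p = q := by
  classical
  let f : fixer o → (oᶜ : Finset GolayPt) := fun g => ⟨g.1 p, by
    rw [Finset.mem_compl, mem_iff_of_stab (fixer_le_octStab o g.2).2]; exact hp⟩
  have hinj : Function.Injective f := by
    intro a b e
    have e' : a.1 p = b.1 p := congrArg Subtype.val e
    have h1 := eq_one_of_fixer ho hp ((fixer o).mul_mem ((fixer o).inv_mem b.2) a.2)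
      (by rw [Equiv.Perm.mul_apply, e']; exact b.1.symm_apply_apply p)
    exact Subtype.ext (inv_mul_eq_one.1 h1).symm
  have hbij := (Fintype.bijective_iff_injective_and_card f).2 ⟨hinj, by
    rw [← Nat.card_eq_fintype_card, (OctKer.fixer_octad ho).1, Fintype.card_coe, Finset.card_compl, ho.2]
    simp [GolayPt]⟩
  obtain ⟨g, hg⟩ := hbij.2 ⟨q, Finset.mem_compl.2 hq⟩
  exact ⟨g.1, g.2, congrArg Subtype.val hg⟩

end Cfsg.Lib.Golay.OctadStab
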