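import Mathlib
import Cfsg.Agent.Lib.Golay.OctadStab
import Cfsg.Agent.Lib.Golay.Dec.OctOct
import Cfsg.Agent.Lib.Golay.Dec.Use

/-! The common stabiliser of two octads meeting in two points. -/

set_option autoImplicit false
set_option maxRecDepth 100000

namespace Cfsg.Lib.Golay.OctPair

open Cfsg
open scoped Pointwise

theorem fixer_moves : (OctKer.kerLists.all fun l => l == List.range 24 || octMasks.all fun m =>
    !(pop (m &&& baseOctad) == 2) || !(imgMask l m == m)) = true := by decide +kernel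

theorem eq_one_of_fix_six {o o' : Finset GolayPt} (ho : o ∈ octads) (ho' : o' ∈ octads)
    (h₂ : (o ∩ o').card = 2) {g : Equiv.Perm GolayPt} (hg : g ∈ M24) (hgo' : g • o' = o')
    (hfix : ∀ a ∈ o \ o', g a = a) : g = 1 := by
  classical
  have h6 : (o \ o').card = 6 := by
    have h := Finset.card_sdiff_add_card_inter o o'
    rw [ho.2] at h
    omega
  have hg' : g ∈ fixer o := by
    have hle : fixer o ≤ fixer (o \ o') := OctKer.fixer_eq_of_five ho Finset.sdiff_subset
    have heq := Subgroup.eq_of_le_of_card_ge hle (by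
      rw [(OctKer.card_fixer_six h6).1 o ho Finset.sdiff_subset, (OctKer.fixer_octad ho).1])
    rw [heq]
    exact ⟨hg, hfix⟩
  obtain ⟨τ, hτ, hτo⟩ := exists_to_baseO ho
  have hk : τ * g * τ⁻¹ ∈ (fixer baseO : Set (Equiv.Perm GolayPt)) := by
    refine ⟨M24.mul_mem (M24.mul_mem hτ hg) (M24.inv_mem hτ), fun a ha => ?_⟩
    rw [← hτo] at ha
    obtain ⟨q, hq, rfl⟩ := Finset.mem_smul_finset.1 ha
    rw [Equiv.Perm.smul_def, Equiv.Perm.mul_apply, Equiv.Perm.mul_apply, show τ⁻¹ (τ q) = q from τ.symm_apply_apply q,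
      hg'.2 q hq]
  rw [OctKer.fixer_baseO] at hk
  simp only [List.coe_toFinset, Set.mem_ofPred_eq, List.mem_map] at hk
  obtain ⟨l, hl, e⟩ := hk
  have hp := List.all_eq_true.1 OctKer.ker_check.1 l (List.mem_filter.1 hl).1
  simp only [Bool.and_eq_true] at hp
  obtain ⟨n, hn, hnt⟩ : ∃ n ∈ octMasks, toSet n = τ • o' :=
    ⟨setNat (τ • o'), (mem_octads_iff _).1 (smul_mem_words hτ ho'), toSet_setNat _⟩
  have h := List.all_eq_true.1 fixer_moves l hl
  simp only [Bool.or_eq_true, beq_iff_eq, List.all_eq_true, Bool.not_eq_true', beq_eq_false_iff_ne] at h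
  rcases h with h | h
  · rw [h, permOf_range] at e
    exact conj_eq_one_iff.1 e.symm
  · rcases h n hn with h | h
    · refine absurd ?_ h
      rw [← card_toSet, toSet_and, hnt, Finset.inter_comm]
      show (baseO ∩ τ • o').card = 2
      rw [← hτo, ← Finset.smul_finset_inter, Finset.card_smul_finset, h₂]
    · refine absurd ?_ h
      have hlt := lt_of_inCode (inCode_of_mem_octMasks hn).1
      rw [← toSet_eq_iff (imgMask_lt hp.1 n) hlt, toSet_imgMask hp.1, hnt, e, ← mul_smul, inv_mul_cancel_right,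
        mul_smul, hgo']

theorem card_pair_stab {o o' : Finset GolayPt} (ho : o ∈ octads) (ho' : o' ∈ octads) (h₂ : (o ∩ o').card = 2) :
    Nat.card ↥(MulAction.stabilizer M24 o ⊓ MulAction.stabilizer M24 o') = 720 := by
  have horb := Dec.orbit_eq Dec.OctOct.isDecomp Dec.octCls_invar Dec.isEmb_single Dec.isEmb_single Dec.octCls_surj
    (x := o) (Dec.single_mem_octCls.2 ho) (y := o') (Dec.single_mem_octCls.2 ho')
  have hn := Dec.ncard_fibre Dec.OctOct.isDecomp Dec.isEmb_single Dec.octCls_surj (S := {o})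
    (Dec.single_mem_octCls.2 ho) (n := 448) (v := 256) (by decide)
  have hv : Dec.profS {o} {o'} = 256 := by rw [Dec.profS_single, h₂]; norm_num
  rw [hv] at horb
  have h := Nat.card_congr (MulAction.orbitProdStabilizerEquivGroup (MulAction.stabilizer M24 o) o')
  rw [Nat.card_prod, Nat.card_coe_set_eq, horb, hn] at h
  have hS : Nat.card (MulAction.stabilizer M24 o) = 322560 := by
    rw [← OctadStab.card_octStab ho]
    exact Nat.card_congr
      { toFun := fun g => ⟨g.1.1, g.1.2, g.2⟩
        invFun := fun g => ⟨⟨g.1, g.2.1⟩, g.2.2⟩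
        left_inv := fun _ => rfl
        right_inv := fun _ => rfl }
  have e : Nat.card ↥(MulAction.stabilizer M24 o ⊓ MulAction.stabilizer M24 o') =
      Nat.card (MulAction.stabilizer (MulAction.stabilizer M24 o) o') :=
    Nat.card_congr
      { toFun := fun g => ⟨⟨g.1, g.2.1⟩, g.2.2⟩
        invFun := fun g => ⟨g.1.1, g.1.2, g.2⟩
        left_inv := fun _ => rfl
        right_inv := fun _ => rfl }
  omega

theorem pair_stab_iso {o o' : Finset GolayPt} (ho : o ∈ octads) (ho' : o' ∈ octads) (h₂ : (o ∩ o').card = 2) :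
    Nonempty (↥(MulAction.stabilizer M24 o ⊓ MulAction.stabilizer M24 o') ≃* Equiv.Perm (Fin 6)) := by
  classical
  have h6 : (o \ o').card = 6 := by
    have h := Finset.card_sdiff_add_card_inter o o'
    rw [ho.2] at h
    omega
  have hinv : ∀ g : ↥(MulAction.stabilizer M24 o ⊓ MulAction.stabilizer M24 o'),
      ∀ x, g.1.1 x ∈ o \ o' ↔ x ∈ o \ o' := by
    intro g x
    rw [Finset.mem_sdiff, Finset.mem_sdiff, OctadStab.mem_iff_of_stab (show g.1.1 • o = o from g.2.1),
      OctadStab.mem_iff_of_stab (show g.1.1 • o' = o' from g.2.2)]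
  let f : ↥(MulAction.stabilizer M24 o ⊓ MulAction.stabilizer M24 o') →* Equiv.Perm ↥(o \ o') :=
    { toFun := fun g => g.1.1.subtypePerm (hinv g)
      map_one' := by ext; rfl
      map_mul' := fun a b => by ext; rfl }
  have hinj : Function.Injective f := by
    rw [injective_iff_map_eq_one]
    intro g hg
    refine Subtype.ext (Subtype.ext (eq_one_of_fix_six ho ho' h₂ g.1.2 g.2.2 fun a ha => ?_))
    exact congrArg Subtype.val (Equiv.ext_iff.1 hg ⟨a, ha⟩)
  have hbij : Function.Bijective f := (Nat.bijective_iff_injective_and_card f).2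
    ⟨hinj, by rw [card_pair_stab ho ho' h₂, Nat.card_perm, Nat.card_eq_finsetCard, h6]; decide⟩
  exact ⟨(MulEquiv.ofBijective f hbij).trans (Equiv.permCongrHom ((o \ o').equivFinOfCardEq h6))⟩

end Cfsg.Lib.Golay.OctPair
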