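import Mathlib
import Cfsg.Agent.Lib.Golay.OctadStab
import Cfsg.Agent.Lib.Golay.InvFreeCent

/-! The action of an octad stabiliser on the fifteen trios through the octad. -/

set_option autoImplicit false
set_option maxRecDepth 100000

namespace Cfsg.Lib.Golay.OctTrios

open Cfsg
open scoped Pointwise

/-- The fifteen trios through the base octad. -/
def trios15 : List (List ℕ) := [[337856, 7903248, 8536111], [628112, 7612992, 8536111], [832080, 7409024, 8536111], [1161408, 7079696, 8536111], [1351424, 6889680, 8536111], [1584464, 6656640, 8536111], [1903248, 6337856, 8536111], [2141072, 6100032, 8536111], [2460752, 5780352, 8536111], [2702848, 5538256, 8536111], [2890176, 5350928, 8536111], [3216208, 5024896, 8536111], [3421328, 4819776, 8536111], [3704512, 4536592, 8536111], [4038912, 4202192, 8536111]]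

/-- Generators of the stabiliser of the base octad. -/
def stabL : List (List ℕ) := [
  [17, 23, 0, 14, 10, 3, 22, 19, 11, 16, 6, 12, 20, 9, 1, 13, 8, 2, 15, 4, 7, 21, 18, 5],
  [0, 3, 1, 14, 19, 23, 13, 12, 7, 4, 18, 15, 6, 10, 5, 8, 21, 2, 20, 11, 22, 16, 9, 17],
  [23, 14, 2, 17, 19, 3, 4, 22, 12, 6, 7, 16, 13, 10, 0, 20, 9, 1, 11, 8, 15, 18, 21, 5]]

/-- Their actions on the trios. -/
def actT : List (List ℕ) := [
  [12, 5, 10, 8, 3, 14, 1, 9, 6, 11, 0, 2, 13, 4, 7],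
  [12, 10, 5, 6, 9, 11, 0, 1, 14, 8, 3, 4, 7, 13, 2],
  [14, 8, 5, 10, 3, 1, 12, 7, 6, 0, 13, 2, 11, 9, 4]]

/-- Words from the first pair to every pair, with their targets. -/
def pairWords : List (ℕ × ℕ × List ℕ) := [
  (0, 1, []),
  (0, 2, [1, 0, 1, 2, 2]),
  (0, 3, [0, 0, 2, 2]),
  (0, 4, [1, 0, 2, 2]),
  (0, 5, [0, 1, 0, 2]),
  (0, 6, [1, 1, 0, 2]),
  (0, 7, [0, 2, 0, 0, 0]),
  (0, 8, [2, 0, 0, 2]),
  (0, 9, [2, 1, 0, 0]),
  (0, 10, [0, 2, 1, 1, 2]),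
  (0, 11, [0, 1, 1, 1, 0]),
  (0, 12, [1, 1, 1, 1, 0]),
  (0, 13, [0, 1, 2, 0, 2]),
  (0, 14, [2, 2, 1, 2]),
  (1, 0, [2, 0, 1]),
  (1, 2, [0, 2, 0, 1, 2]),
  (1, 3, [1, 1, 2, 1]),
  (1, 4, [0, 1, 1]),
  (1, 5, [0, 1, 2, 1]),
  (1, 6, [1, 1, 1]),
  (1, 7, [2, 0, 2, 1]),
  (1, 8, [0, 2, 0, 2, 2]),
  (1, 9, [2, 2, 2, 1, 0]),
  (1, 10, [0, 1, 1, 0, 2]),
  (1, 11, [0, 1, 2, 2, 1]),
  (1, 12, [0, 2, 2, 2, 2]),
  (1, 13, [1, 1, 2, 2, 1]),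
  (1, 14, [1, 2, 2, 2, 2]),
  (2, 0, [0, 1, 0, 0, 0]),
  (2, 1, [1, 1, 0, 0, 0]),
  (2, 3, [2, 1, 1, 0, 1]),
  (2, 4, [1, 2, 0]),
  (2, 5, [0, 2, 0]),
  (2, 6, [2, 1, 2, 0, 1]),
  (2, 7, [1, 0, 2, 0, 2]),
  (2, 8, [0, 2, 2]),
  (2, 9, [1, 2, 2]),
  (2, 10, [0, 0, 2, 0, 2]),
  (2, 11, [2, 1, 2, 1, 0]),
  (2, 12, [1, 1, 0, 0, 2]),
  (2, 13, [0, 1, 0, 0, 2]),
  (2, 14, [2, 1]),
  (3, 0, [0, 2, 1, 0]),
  (3, 1, [2, 2, 0]),
  (3, 2, [0, 2, 0, 0, 1]),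
  (3, 4, [1, 2, 1, 0]),
  (3, 5, [1, 0, 0, 2, 2, 1]),
  (3, 6, [1, 2, 0, 0, 1]),
  (3, 7, [0, 0, 0, 2]),
  (3, 8, [0, 1, 1, 1, 1]),
  (3, 9, [0, 0, 0, 0]),
  (3, 10, [0, 1, 0, 0, 1, 2]),
  (3, 11, [1, 0, 0, 2]),
  (3, 12, [2, 2, 2]),
  (3, 13, [0, 2, 1, 2]),
  (3, 14, [2, 2, 0, 2, 1]),
  (4, 0, [1, 1, 0, 0, 1]),
  (4, 1, [1, 0, 2, 0, 1]),
  (4, 2, [0, 0, 1, 1, 1, 0]),
  (4, 3, [0, 1, 0, 0, 1]),
  (4, 5, [0, 2, 0, 1, 0, 2]),
  (4, 6, [2, 2]),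
  (4, 7, [0, 0, 0]),
  (4, 8, [2, 1, 2, 1, 1]),
  (4, 9, [1, 0, 1, 1, 0]),
  (4, 10, [0, 2, 1]),
  (4, 11, [2, 0, 0, 0, 1]),
  (4, 12, [1, 0, 0]),
  (4, 13, [1, 2, 1]),
  (4, 14, [0, 0, 1, 1, 0]),
  (5, 0, [1, 2, 2, 2]),
  (5, 1, [0, 2, 0, 2]),
  (5, 2, [2, 1, 1]),
  (5, 3, [0, 1, 1, 0]),
  (5, 4, [2, 1, 2]),
  (5, 6, [0, 2, 2, 2]),
  (5, 7, [1, 0, 2, 0, 2, 2]),
  (5, 8, [1, 2, 2, 1]),
  (5, 9, [1, 2, 0, 1]),
  (5, 10, [0, 2, 0, 1, 2, 0]),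
  (5, 11, [0, 2, 0, 1]),
  (5, 12, [2, 0, 1, 0]),
  (5, 13, [0, 0, 2, 0, 2, 2]),
  (5, 14, [0, 2, 2, 1]),
  (6, 0, [0, 0, 2, 1, 2]),
  (6, 1, [0, 0, 0, 2, 1]),
  (6, 2, [0, 0, 0, 0, 0, 0]),
  (6, 3, [0, 2, 1, 2, 0, 0]),
  (6, 4, [1, 0, 0, 2, 1]),
  (6, 5, [1, 0, 2, 1, 2]),
  (6, 7, [2, 2, 2, 1]),
  (6, 8, [0, 0, 0, 0, 1]),
  (6, 9, [1, 2, 1, 0, 1]),
  (6, 10, [2, 2, 0, 1]),
  (6, 11, [0, 0, 2, 1, 0]),
  (6, 12, [0, 2, 1, 0, 1]),
  (6, 13, [0, 2, 1, 2, 1]),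
  (6, 14, [0, 1, 0, 1, 0]),
  (7, 0, [2, 1, 1, 0, 0]),
  (7, 1, [0, 1, 2, 2, 2]),
  (7, 2, [0, 1, 2]),
  (7, 3, [1, 1]),
  (7, 4, [0, 1, 0, 2, 1, 1]),
  (7, 5, [0, 1, 2, 2]),
  (7, 6, [2, 0]),
  (7, 8, [2, 1, 2, 0, 0]),
  (7, 9, [1, 1, 2, 2, 2]),
  (7, 10, [1, 1, 2]),
  (7, 11, [0, 1]),
  (7, 12, [2, 0, 2]),
  (7, 13, [1, 1, 2, 2]),
  (7, 14, [0, 0, 2, 2, 0, 1]),
  (8, 0, [2, 2, 2, 1, 0, 2]),
  (8, 1, [0, 1, 2, 1, 2]),
  (8, 2, [1, 0, 2, 1]),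
  (8, 3, [0, 1, 1, 2]),
  (8, 4, [0, 2, 1, 2, 0]),
  (8, 5, [0, 1, 0, 1]),
  (8, 6, [0, 2, 1, 1, 1]),
  (8, 7, [2, 0, 2, 1, 2]),
  (8, 9, [0, 0, 2, 1]),
  (8, 10, [2, 0, 0, 1]),
  (8, 11, [0, 0, 0, 0, 0]),
  (8, 12, [1, 1, 1, 2]),
  (8, 13, [2, 2, 2, 0]),
  (8, 14, [1, 1, 0, 1]),
  (9, 0, [2, 2, 1]),
  (9, 1, [2, 0, 0]),
  (9, 2, [0, 1, 0]),
  (9, 3, [0, 2, 1, 1]),
  (9, 4, [0, 0, 2]),
  (9, 5, [0, 0, 1, 2]),
  (9, 6, [0, 1, 0, 0, 1, 1]),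
  (9, 7, [1, 0, 0, 1]),
  (9, 8, [1, 1, 0]),
  (9, 10, [0, 1, 2, 0]),
  (9, 11, [1, 0, 1, 2]),
  (9, 12, [1, 1, 0, 0, 1, 1]),
  (9, 13, [1, 2, 1, 1]),
  (9, 14, [1, 0, 2]),
  (10, 0, [1, 1, 1, 1]),
  (10, 1, [2, 0, 2, 1, 1]),
  (10, 2, [1, 0, 0, 2, 2]),
  (10, 3, [1, 2, 0, 0]),
  (10, 4, [0, 1, 0, 0, 2, 0]),
  (10, 5, [0, 2, 0, 0, 1, 2]),
  (10, 6, [0, 2, 2, 0]),
  (10, 7, [2, 1, 0]),
  (10, 8, [2, 2, 0, 2]),
  (10, 9, [0, 1, 1, 1]),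
  (10, 11, [1, 2, 2, 0]),
  (10, 12, [2, 0, 1, 1]),
  (10, 13, [1, 1, 0, 0, 2, 0]),
  (10, 14, [0, 2, 0, 0]),
  (11, 0, [0, 1, 2, 0, 0]),
  (11, 1, [0, 2]),
  (11, 2, [0, 2, 2, 1, 1]),
  (11, 3, [0, 0, 2, 0]),
  (11, 4, [0, 2, 0, 1, 1]),
  (11, 5, [2, 0, 0, 0]),
  (11, 6, [1, 1, 0, 0]),
  (11, 7, [1, 0, 2, 0]),
  (11, 8, [0, 2, 1, 1, 0]),
  (11, 9, [2, 1, 2, 1]),
  (11, 10, [0, 1, 0, 0]),
  (11, 12, [2, 2, 1, 0]),
  (11, 13, [1, 2]),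
  (11, 14, [0, 0, 1, 2, 0]),
  (12, 0, [1, 1, 0, 2, 1]),
  (12, 1, [1, 1, 0, 2, 0]),
  (12, 2, [2, 2, 1, 2, 1]),
  (12, 3, [1, 0, 2, 2, 0]),
  (12, 4, [0, 1, 0, 1, 0, 2]),
  (12, 5, [0]),
  (12, 6, [0, 0, 2, 2, 1]),
  (12, 7, [2, 2, 1, 2, 0]),
  (12, 8, [0, 0, 2, 2, 0]),
  (12, 9, [1, 0, 2, 2, 1]),
  (12, 10, [1]),
  (12, 11, [0, 1, 0, 2, 1]),
  (12, 13, [2, 2, 0, 1, 2]),
  (12, 14, [0, 1, 0, 2, 0]),
  (13, 0, [1, 0]),
  (13, 1, [1, 0, 1, 1, 1]),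
  (13, 2, [0, 0, 1]),
  (13, 3, [1, 2, 0, 0, 2, 1]),
  (13, 4, [0, 2, 0, 0, 2]),
  (13, 5, [0, 0, 1, 1]),
  (13, 6, [2, 2, 0, 2, 2]),
  (13, 7, [1, 0, 1, 1]),
  (13, 8, [1, 0, 2, 2, 0, 0]),
  (13, 9, [0, 2, 0, 0, 2, 1]),
  (13, 10, [1, 2, 0, 0, 2]),
  (13, 11, [0, 0, 1, 1, 1]),
  (13, 12, [1, 0, 1]),
  (13, 14, [0, 0]),
  (14, 0, [2, 1, 0, 0, 2]),
  (14, 1, [0, 1, 0, 2, 2]),
  (14, 2, [0, 2, 0, 1, 0]),
  (14, 3, [2, 1, 2, 0]),
  (14, 4, [2, 2, 1, 2, 2]),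
  (14, 5, [0, 2, 0, 2, 0]),
  (14, 6, [0, 1, 1, 2, 1]),
  (14, 7, [0, 2, 2, 1, 0]),
  (14, 8, [2]),
  (14, 9, [0, 1, 2, 0, 2, 2]),
  (14, 10, [2, 1, 1, 0]),
  (14, 11, [0, 1, 0, 1, 1]),
  (14, 12, [1, 1, 0, 2, 2]),
  (14, 13, [2, 0, 1, 0, 0])]

/-- The target of a word, applied from the left in order. -/
def wordTo (w : List ℕ) (a : ℕ) : ℕ := w.foldl (fun x i => (actT.getD i []).getD x 0) a

theorem trios15_count : (Dec.clsList Dec.TrioCls.base Dec.TrioCls.cert).countP (fun L => L.contains baseOctad) = 15 := by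
  decide +kernel

theorem trios15_check : (trios15.all fun L => Dec.WF L && L.length == 3 && L.contains baseOctad &&
    L.all (fun a => inCode a && pop a == 8 && L.all (fun b => a == b || a &&& b == 0))) = true ∧
    trios15.length = 15 ∧
    ((List.range 15).all fun i => (List.range 15).all fun j =>
      i == j || !Dec.sameSet (trios15.getD i []) (trios15.getD j [])) = true := by decide +kernel

theorem stab_check : ((List.range 3).all fun k => keepsCode (stabL.getD k []) &&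
      imgMask (stabL.getD k []) baseOctad == baseOctad &&
      (List.range 15).all fun i => (actT.getD k []).getD i 0 < 15 &&
        Dec.sameSet (Dec.actL (stabL.getD k []) (trios15.getD i [])) (trios15.getD ((actT.getD k []).getD i 0) [])) = true := by
  decide +kernel

theorem pairs_check : ((List.range 15).all fun a => (List.range 15).all fun b => a == b ||
    pairWords.any fun e => e.1 == a && e.2.1 == b && e.2.2.all (fun i => decide (i < 3)) &&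
      wordTo e.2.2 0 == a && wordTo e.2.2 1 == b) = true := by decide +kernel

theorem ker_trios : (OctKer.kerLists.all fun l => trios15.all fun L => Dec.sameSet (Dec.actL l L) L) = true := by
  decide +kernel

/-- The trios through the base octad, as configurations. -/
def tr (i : ℕ) : Dec.Obj := Dec.interp (trios15.getD i [])

theorem getD_mem {i : ℕ} (hi : i < 15) : trios15.getD i [] ∈ trios15 := by
  have hl : i < trios15.length := trios15_check.2.1 ▸ hi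
  rw [List.getD_eq_getElem _ _ hl]
  exact List.getElem_mem hl

theorem lt_pow {L : List ℕ} (h : L ∈ trios15) : ∀ m ∈ L, m < 2 ^ 24 := fun m hm => by
  have h' := List.all_eq_true.1 trios15_check.1 L h
  simp only [Bool.and_eq_true] at h'
  exact Dec.lt_of_wf h'.1.1.1 hm

theorem tr_inj {i j : ℕ} (hi : i < 15) (hj : j < 15) (e : tr i = tr j) : i = j := by
  by_contra hne
  have h := List.all_eq_true.1 (List.all_eq_true.1 trios15_check.2.2 i (List.mem_range.2 hi)) j (List.mem_range.2 hj)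
  simp only [Bool.or_eq_true, beq_iff_eq, hne, false_or, Bool.not_eq_true'] at h
  rw [Dec.sameSet_of_interp (lt_pow (getD_mem hi)) (lt_pow (getD_mem hj)) e] at h
  exact absurd h (by decide)

theorem mem_interp_iff {L : List ℕ} (hL : ∀ m ∈ L, m < 2 ^ 24) {n : ℕ} (hn : n < 2 ^ 24) :
    toSet n ∈ Dec.interp L ↔ n ∈ L := by
  simp only [Dec.interp, List.mem_toFinset, List.mem_map]
  exact ⟨fun ⟨a, ha, e⟩ => (toSet_eq_iff (hL a ha) hn).1 e ▸ ha, fun h => ⟨n, h, rfl⟩⟩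

theorem baseOctad_lt : baseOctad < 2 ^ 24 := by decide

/-- The trios through the base octad. -/
def thru (o : Finset GolayPt) : Set Dec.Obj := {T | T ∈ trios ∧ o ∈ T}

theorem ncard_thru_base : (thru baseO).ncard = 15 := by
  refine Dec.ncard_where Dec.TrioCls.isCls Dec.trio_check (fun S => baseO ∈ S) (fun L => L.contains baseOctad)
    (fun L hL => ?_) trios15_count
  rw [List.contains_iff_mem, baseO, mem_interp_iff hL baseOctad_lt]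

theorem tr_mem {i : ℕ} (hi : i < 15) : tr i ∈ thru baseO := by
  have h := List.all_eq_true.1 trios15_check.1 _ (getD_mem hi)
  simp only [Bool.and_eq_true, beq_iff_eq, List.contains_iff_mem] at h
  obtain ⟨⟨⟨hw, hlen⟩, hc⟩, hall⟩ := h
  exact ⟨Dec.trio_of_toSets hw hlen hall, by
    rw [baseO, tr, mem_interp_iff (lt_pow (getD_mem hi)) baseOctad_lt]; exact hc⟩

theorem exists_tr {T : Dec.Obj} (hT : T ∈ thru baseO) : ∃ i < 15, T = tr i := by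
  classical
  have hsub : ((Finset.range 15).image tr : Set Dec.Obj) ⊆ thru baseO := by
    intro S hS
    simp only [Finset.coe_image, Set.mem_image, Finset.coe_range, Set.mem_Iio] at hS
    obtain ⟨i, hi, rfl⟩ := hS
    exact tr_mem hi
  have heq := Set.eq_of_subset_of_ncard_le hsub (by
    rw [ncard_thru_base, Set.ncard_coe_finset, Finset.card_image_of_injOn]
    · simp
    · intro a ha b hb e
      simp only [Finset.coe_range, Set.mem_Iio] at ha hb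
      exact tr_inj ha hb e)
  rw [← heq] at hT
  simp only [Finset.coe_image, Set.mem_image, Finset.coe_range, Set.mem_Iio] at hT
  obtain ⟨i, hi, rfl⟩ := hT
  exact ⟨i, hi, rfl⟩

theorem gen_spec {k : ℕ} (hk : k < 3) : permOf (stabL.getD k []) ∈ OctadStab.octStab baseO ∧
    ∀ i < 15, (actT.getD k []).getD i 0 < 15 ∧ permOf (stabL.getD k []) • tr i = tr ((actT.getD k []).getD i 0) := by
  have h := List.all_eq_true.1 stab_check k (List.mem_range.2 hk)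
  simp only [Bool.and_eq_true, beq_iff_eq, List.all_eq_true, List.mem_range, decide_eq_true_eq] at h
  obtain ⟨⟨hkc, himg⟩, hall⟩ := h
  refine ⟨⟨permOf_mem_M24 hkc, ?_⟩, fun i hi => ⟨(hall i hi).1, ?_⟩⟩
  · show permOf (stabL.getD k []) • baseO = baseO
    rw [baseO, ← toSet_imgMask (Elements.keeps_perm hkc), himg]
  · rw [tr, tr, ← Dec.interp_actL (Elements.keeps_perm hkc)]
    exact Dec.interp_sameSet (hall i hi).2

theorem word_spec : ∀ (w : List ℕ), (∀ k ∈ w, k < 3) →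
    ∃ g ∈ OctadStab.octStab baseO, ∀ a < 15, wordTo w a < 15 ∧ g • tr a = tr (wordTo w a)
  | [], _ => ⟨1, Subgroup.one_mem _, fun a ha => ⟨ha, one_smul _ _⟩⟩
  | k :: w, h => by
    obtain ⟨hm, hg⟩ := gen_spec (h k (List.mem_cons_self ..))
    obtain ⟨g, hgm, hgs⟩ := word_spec w fun j hj => h j (List.mem_cons_of_mem _ hj)
    refine ⟨g * permOf (stabL.getD k []), Subgroup.mul_mem _ hgm hm, fun a ha => ?_⟩
    obtain ⟨h1, h2⟩ := hg a ha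
    obtain ⟨h3, h4⟩ := hgs _ h1
    exact ⟨h3, by rw [mul_smul, h2]; exact h4⟩

theorem from_first {T₁ T₂ : Dec.Obj} (h1 : T₁ ∈ thru baseO) (h2 : T₂ ∈ thru baseO) (hne : T₁ ≠ T₂) :
    ∃ g ∈ OctadStab.octStab baseO, g • tr 0 = T₁ ∧ g • tr 1 = T₂ := by
  obtain ⟨a, ha, rfl⟩ := exists_tr h1
  obtain ⟨b, hb, rfl⟩ := exists_tr h2
  have h := List.all_eq_true.1 (List.all_eq_true.1 pairs_check a (List.mem_range.2 ha)) b (List.mem_range.2 hb)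
  simp only [Bool.or_eq_true, beq_iff_eq, show a ≠ b from fun e => hne (by rw [e]), false_or, List.any_eq_true,
    Bool.and_eq_true, List.all_eq_true, decide_eq_true_eq] at h
  obtain ⟨e, -, ⟨⟨⟨-, -⟩, hw⟩, h0⟩, h1⟩ := h
  obtain ⟨g, hg, hs⟩ := word_spec e.2.2 hw
  refine ⟨g, hg, ?_, ?_⟩
  · rw [(hs 0 (by norm_num)).2, h0]
  · rw [(hs 1 (by norm_num)).2, h1]

theorem two_transitive {T₁ T₂ S₁ S₂ : Dec.Obj} (h1 : T₁ ∈ thru baseO) (h2 : T₂ ∈ thru baseO)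
    (k1 : S₁ ∈ thru baseO) (k2 : S₂ ∈ thru baseO) (hT : T₁ ≠ T₂) (hS : S₁ ≠ S₂) :
    ∃ g ∈ OctadStab.octStab baseO, g • T₁ = S₁ ∧ g • T₂ = S₂ := by
  obtain ⟨a, ha, a1, a2⟩ := from_first h1 h2 hT
  obtain ⟨b, hb, b1, b2⟩ := from_first k1 k2 hS
  refine ⟨b * a⁻¹, Subgroup.mul_mem _ hb (Subgroup.inv_mem _ ha), ?_, ?_⟩
  · rw [← a1, mul_smul, inv_smul_smul, b1]
  · rw [← a2, mul_smul, inv_smul_smul, b2]

theorem fixer_fixes {g : Equiv.Perm GolayPt} (hg : g ∈ fixer baseO) {T : Dec.Obj} (hT : T ∈ thru baseO) :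
    g • T = T := by
  obtain ⟨i, hi, rfl⟩ := exists_tr hT
  have hg' : g ∈ (fixer baseO : Set (Equiv.Perm GolayPt)) := hg
  rw [OctKer.fixer_baseO] at hg'
  simp only [List.coe_toFinset, Set.mem_ofPred_eq, List.mem_map] at hg'
  obtain ⟨l, hl, rfl⟩ := hg'
  have hp := List.all_eq_true.1 OctKer.ker_check.1 l (List.mem_filter.1 hl).1
  simp only [Bool.and_eq_true] at hp
  rw [tr, ← Dec.interp_actL hp.1]
  exact Dec.interp_sameSet (List.all_eq_true.1 (List.all_eq_true.1 ker_trios l hl) _ (getD_mem hi))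

theorem kernel_eq {g : Equiv.Perm GolayPt} (hg : g ∈ OctadStab.octStab baseO)
    (hfix : ∀ T ∈ thru baseO, g • T = T) : g ∈ fixer baseO := by
  classical
  let K : Subgroup (OctadStab.octStab baseO) :=
    { carrier := {x | ∀ T ∈ thru baseO, x.1 • T = T}
      one_mem' := fun T _ => one_smul _ T
      mul_mem' := fun {a b} ha hb T hT => by
        show (a.1 * b.1) • T = T
        rw [mul_smul, hb T hT, ha T hT]
      inv_mem' := fun {a} ha T hT => by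
        show a.1⁻¹ • T = T
        rw [inv_smul_eq_iff, ha T hT] }
  have hinv : ∀ x : OctadStab.octStab baseO, ∀ T ∈ thru baseO, x.1 • T ∈ thru baseO := fun x T hT =>
    ⟨Dec.trios_invar _ x.2.1 _ hT.1, by
      have h := Finset.smul_mem_smul_finset (a := x.1) hT.2
      rwa [x.2.2] at h⟩
  haveI : K.Normal := ⟨fun k hk x T hT => by
    show (x.1 * k.1 * x.1⁻¹) • T = T
    have h' : x.1⁻¹ • T ∈ thru baseO := hinv x⁻¹ T hT
    rw [mul_smul, mul_smul, hk _ h', smul_inv_smul]⟩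
  have hbO := baseO_mem
  haveI : IsSimpleGroup (alternatingGroup baseO) :=
    alternatingGroup.isSimpleGroup (by rw [Nat.card_eq_finsetCard, hbO.2]; norm_num)
  let φ : OctadStab.octStab baseO →* alternatingGroup baseO :=
    (OctadStab.restr baseO).codRestrict _ fun x => by
      rw [← OctadStab.range_restr hbO]; exact ⟨x, rfl⟩
  have hsurj : Function.Surjective φ := by
    rintro ⟨e, he⟩
    rw [← OctadStab.range_restr hbO] at he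
    obtain ⟨x, hx⟩ := he
    exact ⟨x, Subtype.ext hx⟩
  rcases (Subgroup.Normal.map (inferInstance : K.Normal) φ hsurj).eq_bot_or_eq_top with h | h
  · have hm : φ ⟨g, hg⟩ ∈ (⊥ : Subgroup (alternatingGroup baseO)) := h ▸ Subgroup.mem_map_of_mem φ (show (⟨g, hg⟩ : OctadStab.octStab baseO) ∈ K from hfix)
    exact (OctadStab.mem_ker ⟨g, hg⟩).1 (congrArg Subtype.val (Subgroup.mem_bot.1 hm))
  · exfalso
    obtain ⟨x, hx, e0, -⟩ := two_transitive (tr_mem (i := 0) (by norm_num)) (tr_mem (i := 1) (by norm_num))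
      (tr_mem (i := 1) (by norm_num)) (tr_mem (i := 0) (by norm_num))
      (fun e => absurd (tr_inj (by norm_num) (by norm_num) e) (by norm_num))
      (fun e => absurd (tr_inj (by norm_num) (by norm_num) e) (by norm_num))
    obtain ⟨k, hk, hkx⟩ := Subgroup.mem_map.1 (h ▸ Subgroup.mem_top (φ ⟨x, hx⟩) : φ ⟨x, hx⟩ ∈ K.map φ)
    have hker : k⁻¹ * (⟨x, hx⟩ : OctadStab.octStab baseO) ∈ (OctadStab.restr baseO).ker := by
      have hv : OctadStab.restr baseO k = OctadStab.restr baseO ⟨x, hx⟩ := congrArg Subtype.val hkx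
      rw [MonoidHom.mem_ker, map_mul, map_inv, hv, inv_mul_cancel]
    have hf := fixer_fixes ((OctadStab.mem_ker _).1 hker) (tr_mem (i := 0) (by norm_num))
    have hxe : x • tr 0 = k.1 • tr 0 := by
      conv_rhs => rw [← hf, ← mul_smul]
      congr 1
      show x = k.1 * (k.1⁻¹ * x)
      rw [mul_inv_cancel_left]
    rw [hk _ (tr_mem (by norm_num)), e0] at hxe
    exact absurd (tr_inj (by norm_num) (by norm_num) hxe) (by norm_num)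

end Cfsg.Lib.Golay.OctTrios
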