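import Cfsg.Agent.Lib.Golay.Cosets

/-! The punctured code. -/

set_option linter.constructorNameAsVariable false

namespace Cfsg.Lib.Golay

open Cfsg Finset

/-- Deleting the extra coordinate. -/
def punct (w : GolayPt → ZMod 2) : ZMod 23 → ZMod 2 := fun x => w (some x)

theorem hammingNorm_punct (w : GolayPt → ZMod 2) :
    hammingNorm (punct w) = ((support₂ w).erase none).card := by
  have e : (support₂ w).erase none = (univ.filter fun x : ZMod 23 => punct w x ≠ 0).map Function.Embedding.some := by
    ext p
    cases p with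
    | none => simp
    | some x =>
      rw [mem_erase, Finset.mem_map]
      constructor
      · rintro ⟨-, h⟩
        exact ⟨x, Finset.mem_filter.2 ⟨Finset.mem_univ _, (Finset.mem_filter.1 h).2⟩, rfl⟩
      · rintro ⟨y, hy, hyx⟩
        obtain rfl : y = x := Option.some.inj hyx
        exact ⟨Option.some_ne_none _, Finset.mem_filter.2 ⟨Finset.mem_univ _, (Finset.mem_filter.1 hy).2⟩⟩
  rw [e, card_map]
  rfl

theorem punct_sub (w v : GolayPt → ZMod 2) : punct (w - v) = punct w - punct v := rfl

theorem punct_injOn {w w' : GolayPt → ZMod 2} (h : w ∈ golayCode) (h' : w' ∈ golayCode)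
    (e : punct w = punct w') : w = w' := by
  have hd : hammingNorm (punct (w - w')) = 0 := by rw [punct_sub, e, sub_self, hammingNorm_zero]
  rw [hammingNorm_punct] at hd
  have hs : (support₂ (w - w')) ∈ supports (golayCode : Set (GolayPt → ZMod 2)) := ⟨_, sub_mem h h', rfl⟩
  have hle := Finset.card_erase_add_one (s := support₂ (w - w')) (a := none)
  have h0 : support₂ (w - w') = ∅ := by
    by_cases hn : none ∈ support₂ (w - w')
    · have := hle hn
      rcases weight_cases hs with e | e | e | e | e <;> omega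
    · rw [erase_eq_of_notMem hn, card_eq_zero] at hd; exact hd
  rw [← sub_eq_zero]
  funext p
  by_contra hp
  have hmem : p ∈ support₂ (w - w') := Finset.mem_filter.2 ⟨Finset.mem_univ _, hp⟩
  rw [h0] at hmem
  simp at hmem

theorem punct_min {u : ZMod 23 → ZMod 2} (hu : ∃ w ∈ golayCode, punct w = u) (hne : u ≠ 0) :
    7 ≤ hammingNorm u := by
  obtain ⟨w, hw, rfl⟩ := hu
  rw [hammingNorm_punct]
  have hs : support₂ w ∈ supports (golayCode : Set (GolayPt → ZMod 2)) := ⟨w, hw, rfl⟩
  have := pred_card_le_card_erase (s := support₂ w) (a := none)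
  rcases weight_cases hs with e | e | e | e | e
  · exfalso
    apply hne
    funext x
    by_contra hx
    have hmem : some x ∈ support₂ w := Finset.mem_filter.2 ⟨Finset.mem_univ _, hx⟩
    rw [card_eq_zero.1 e] at hmem
    simp at hmem
  all_goals omega

theorem card_erase_none (n : ℕ) : ((toSet n).erase none).card = pop (n &&& 8388607) := by
  rw [← card_toSet]
  refine congrArg Finset.card ?_
  ext p
  rw [mem_erase, mem_toSet, mem_toSet, Nat.testBit_and]
  cases p with
  | none =>
    have h : (8388607 : ℕ).testBit 23 = false := by decide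
    simp [idx, h]
  | some x =>
    have h : ∀ i, i < 23 → (8388607 : ℕ).testBit i = true := by decide
    simp [idx, h _ (ZMod.val_lt x)]

theorem ncard_punct_weight (k : ℕ) :
    {u : ZMod 23 → ZMod 2 | u ∈ {u : ZMod 23 → ZMod 2 | ∃ w ∈ golayCode, ∀ x : ZMod 23, u x = w (some x)} ∧
      hammingNorm u = k}.ncard = (spanL codeGens).countP fun n => pop (n &&& 8388607) == k := by
  have h : {u : ZMod 23 → ZMod 2 | u ∈ {u : ZMod 23 → ZMod 2 | ∃ w ∈ golayCode, ∀ x : ZMod 23, u x = w (some x)} ∧
      hammingNorm u = k} = (fun n => punct (toWord n)) '' ↑(((spanL codeGens).filter fun n => pop (n &&& 8388607) == k).toFinset) := by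
    ext u
    simp only [Set.mem_ofPred_eq, Set.mem_image, List.coe_toFinset, List.mem_filter, beq_iff_eq]
    constructor
    · rintro ⟨⟨w, hw, he⟩, hk⟩
      obtain ⟨n, hn, rfl⟩ := exists_mask hw
      have hu : u = punct (toWord n) := funext he
      refine ⟨n, ⟨(inCode_iff n).1 hn, ?_⟩, hu.symm⟩
      rwa [hu, hammingNorm_punct, support_toWord, card_erase_none] at hk
    · rintro ⟨n, ⟨hn, hk⟩, rfl⟩
      refine ⟨⟨toWord n, toWord_mem_golayCode ((inCode_iff n).2 hn), fun x => rfl⟩, ?_⟩
      rwa [hammingNorm_punct, support_toWord, card_erase_none]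
  rw [h, Set.ncard_image_of_injOn, Set.ncard_coe_finset, List.toFinset_card_of_nodup (spanL_nodup.filter _),
    ← List.countP_eq_length_filter]
  intro a ha b hb hab
  simp only [List.coe_toFinset, Set.mem_ofPred_eq, List.mem_filter] at ha hb
  have e := punct_injOn (toWord_mem_golayCode ((inCode_iff a).2 ha.1)) (toWord_mem_golayCode ((inCode_iff b).2 hb.1)) hab
  have e2 := congrArg support₂ e
  rw [support_toWord, support_toWord] at e2
  exact toSet_injOn ((inCode_iff a).2 ha.1) ((inCode_iff b).2 hb.1) e2

set_option maxRecDepth 100000 in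
theorem weight_counts :
    (([7, 8, 11, 12, 15, 16].map fun k => (spanL codeGens).countP fun n => pop (n &&& 8388607) == k)) =
      [253, 506, 1288, 1288, 506, 253] := by decide +kernel

theorem ncard_punct : {u : ZMod 23 → ZMod 2 | ∃ w ∈ golayCode, ∀ x : ZMod 23, u x = w (some x)}.ncard = 4096 := by
  have h : {u : ZMod 23 → ZMod 2 | ∃ w ∈ golayCode, ∀ x : ZMod 23, u x = w (some x)} =
      punct '' (golayCode : Set (GolayPt → ZMod 2)) := by
    ext u
    exact ⟨fun ⟨w, hw, he⟩ => ⟨w, hw, (funext he).symm⟩, fun ⟨w, hw, he⟩ => ⟨w, hw, fun x => by rw [← he]; rfl⟩⟩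
  rw [h, Set.ncard_image_of_injOn (fun a ha b hb e => punct_injOn ha hb e),
    ← Set.ncard_image_of_injective _ support_injective]
  rw [← card_codeFinset, ← Set.ncard_coe_finset]
  congr 1
  ext s
  rw [Finset.mem_coe, mem_codeFinset]
  rfl

end Cfsg.Lib.Golay
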