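import Mathlib
import Cfsg.Agent.Lib.Golay.QuartetData
import Cfsg.Agent.Lib.Golay.QuartetStab

/-! The orbits of a quartet stabiliser on the quartets. -/

set_option autoImplicit false
set_option maxRecDepth 100000
set_option linter.constructorNameAsVariable false

namespace Cfsg.Lib.Golay.QuartetOrbits

open Cfsg Chain Quartets QuartetStab
open scoped Pointwise

/-- The masks of the base quartet. -/
def q0 : List ℕ := tBase :: uBase :: vBase

/-- The quartet of a list of masks. -/
def qSet (X : List ℕ) : Finset (Finset GolayPt) := (X.map toSet).toFinset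

/-- The invariant of a list of masks. -/
def invL (X : List ℕ) : ℕ := (X.map fun t => (q0.map fun u => pop (t &&& u) ^ 4).sum).sum

/-- The invariant. -/
def invF (X : Finset (Finset GolayPt)) : ℕ := ∑ t ∈ X, ∑ u ∈ qBase, (t ∩ u).card ^ 4

/-- Apply a word to a list of masks. -/
def applyQ (w : List ℕ) (X : List ℕ) : List ℕ :=
  w.foldl (fun X j => X.map (imgMask (qGens.getD j []))) X

/-- All quartets as lists. -/
def qList : List (List ℕ) := qWords.map Prod.fst

theorem gens_ok : qGens.all inH = true := by decide +kernel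

theorem list_ok : (qList.all fun X => (X.length == 4) && X.all fun a => decide (a < 2 ^ 24) &&
    (pop a == 3) && (a &&& baseDod == a) && X.all fun b => a == b || hexL.contains (a ||| b)) = true := by
  decide +kernel

theorem nodup_ok : (qList.all fun X => decide X.Nodup) = true ∧ decide q0.Nodup = true ∧
    (q0.all fun a => decide (a < 2 ^ 24)) = true ∧ qList.length = 220 := by decide +kernel

theorem distinct_ok : (qList.all fun X => qList.all fun Y => X == Y || !(X.all fun a => Y.contains a)) = true := by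
  decide +kernel

theorem qList_nodup : decide qList.Nodup = true := by decide +kernel

theorem words_ok : (qWords.all fun e => e.2.all (fun j => decide (j < qGens.length)) &&
    (e.1.all fun a => (applyQ e.2 ((qReps.lookup (invL e.1)).getD [])).contains a) &&
    (applyQ e.2 ((qReps.lookup (invL e.1)).getD [])).all fun a => e.1.contains a) = true := by decide +kernel

theorem counts :
    qList.countP (fun X => invL X == 90) = 12 ∧ qList.countP (fun X => invL X == 68) = 27 ∧
    qList.countP (fun X => invL X == 54) = 72 ∧ qList.countP (fun X => invL X == 26) = 108 ∧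
    qList.countP (fun X => invL X == 324) = 1 ∧
    (qList.all fun X => invL X == 90 || invL X == 68 || invL X == 54 || invL X == 26 || invL X == 324) = true ∧
    invL q0 = 324 := by decide +kernel

theorem qSet_injOn {X Y : List ℕ} (hX : X ∈ qList) (hY : Y ∈ qList) (h : qSet X = qSet Y) : X = Y := by
  have h1 := List.all_eq_true.1 (List.all_eq_true.1 distinct_ok X hX) Y hY
  simp only [Bool.or_eq_true, beq_iff_eq, Bool.not_eq_true'] at h1
  refine h1.resolve_right fun hne => ?_
  rw [List.all_eq_false] at hne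
  obtain ⟨a, ha, hna⟩ := hne
  refine hna ?_
  have : toSet a ∈ qSet Y := h ▸ List.mem_toFinset.2 (List.mem_map.2 ⟨a, ha, rfl⟩)
  obtain ⟨b, hb, hbe⟩ := List.mem_map.1 (List.mem_toFinset.1 this)
  have hl : ∀ Z ∈ qList, ∀ c ∈ Z, c < 2 ^ 24 := fun Z hZ c hc => by
    have h2 := List.all_eq_true.1 list_ok Z hZ
    simp only [Bool.and_eq_true] at h2
    have h3 := List.all_eq_true.1 h2.2 c hc
    simp only [Bool.and_eq_true, decide_eq_true_eq] at h3
    exact h3.1.1.1
  rw [(toSet_eq_iff (hl Y hY b hb) (hl X hX a ha)).1 hbe] at hb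
  simpa using hb

theorem qSet_mem {X : List ℕ} (hX : X ∈ qList) : qSet X ∈ quartets (toSet baseDod) := by
  have h := List.all_eq_true.1 list_ok X hX
  simp only [Bool.and_eq_true, beq_iff_eq, List.all_eq_true, decide_eq_true_eq, Bool.or_eq_true] at h
  obtain ⟨hlen, hall⟩ := h
  refine ⟨?_, fun t ht => ?_, fun t ht u hu hne => ?_⟩
  · rw [qSet, List.toFinset_card_of_nodup, List.length_map, hlen]
    exact (of_decide_eq_true (List.all_eq_true.1 nodup_ok.1 X hX)).map_on fun a ha b hb e =>
      (toSet_eq_iff (hall a ha).1.1.1 (hall b hb).1.1.1).1 e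
  · obtain ⟨a, ha, rfl⟩ := List.mem_map.1 (List.mem_toFinset.1 ht)
    refine ⟨by rw [card_toSet, (hall a ha).1.1.2], ?_⟩
    rw [← (hall a ha).1.2, toSet_and]
    exact Finset.inter_subset_right
  · obtain ⟨a, ha, rfl⟩ := List.mem_map.1 (List.mem_toFinset.1 ht)
    obtain ⟨b, hb, rfl⟩ := List.mem_map.1 (List.mem_toFinset.1 hu)
    rw [← toSet_or, mem_hexL (Nat.or_lt_two_pow (hall a ha).1.1.1 (hall b hb).1.1.1)]
    exact ((hall a ha).2 b hb).resolve_left fun e => hne (by rw [e])

theorem quartets_eq : quartets (toSet baseDod) = qSet '' {X | X ∈ qList} := by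
  refine (Set.eq_of_subset_of_ncard_le ?_ ?_ (Set.toFinite _)).symm
  · rintro _ ⟨X, hX, rfl⟩; exact qSet_mem hX
  · have hinj : Set.InjOn qSet {X | X ∈ qList} := fun X hX Y hY e => qSet_injOn hX hY e
    rw [ncard_quartets, Set.ncard_image_of_injOn hinj,
      show {X | X ∈ qList} = ((qList.toFinset : Finset (List ℕ)) : Set (List ℕ)) by ext; simp,
      Set.ncard_coe_finset, List.toFinset_card_of_nodup (of_decide_eq_true qList_nodup), nodup_ok.2.2.2]

theorem invF_qSet {X : List ℕ} (hX : X.Nodup) (hlt : ∀ a ∈ X, a < 2 ^ 24) : invF (qSet X) = invL X := by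
  have hq : qBase = qSet q0 := rfl
  have hinj : ∀ Y : List ℕ, (∀ a ∈ Y, a < 2 ^ 24) → Y.Nodup → (Y.map toSet).Nodup := fun Y hY hn =>
    hn.map_on fun a ha b hb e => (toSet_eq_iff (hY a ha) (hY b hb)).1 e
  have hq0 : ∀ a ∈ q0, a < 2 ^ 24 := fun a ha => of_decide_eq_true (List.all_eq_true.1 nodup_ok.2.2.1 a ha)
  rw [invF, hq, qSet, List.sum_toFinset _ (hinj X hlt hX), List.map_map, invL]
  congr 1
  refine List.map_congr_left fun t _ => ?_
  show ∑ u ∈ qSet q0, (toSet t ∩ u).card ^ 4 = _
  rw [qSet, List.sum_toFinset _ (hinj q0 hq0 (of_decide_eq_true nodup_ok.2.1)), List.map_map]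
  congr 1
  refine List.map_congr_left fun u _ => ?_
  show (toSet t ∩ toSet u).card ^ 4 = _
  rw [card_inter_toSet]

theorem invF_smul {g : Equiv.Perm GolayPt} (hg : g • qBase = qBase) (X : Finset (Finset GolayPt)) :
    invF (g • X) = invF X := by
  classical
  unfold invF
  conv_lhs => rw [← hg]
  rw [Finset.smul_finset_def, Finset.smul_finset_def,
    Finset.sum_image fun a _ b _ e => MulAction.injective g e]
  refine Finset.sum_congr rfl fun t _ => ?_
  rw [Finset.sum_image fun a _ b _ e => MulAction.injective g e]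
  refine Finset.sum_congr rfl fun u _ => ?_
  rw [← Finset.smul_finset_inter, Finset.card_smul_finset]

theorem qSet_map {l : List ℕ} (hl : isPermList l = true) (X : List ℕ) :
    qSet (X.map (imgMask l)) = permOf l • qSet X := by
  ext t
  simp only [qSet, List.mem_toFinset, List.mem_map, Finset.mem_smul_finset]
  constructor
  · rintro ⟨_, ⟨a, ha, rfl⟩, rfl⟩
    exact ⟨toSet a, ⟨a, ha, rfl⟩, (toSet_imgMask hl a).symm⟩
  · rintro ⟨_, ⟨a, ha, rfl⟩, rfl⟩
    exact ⟨_, ⟨a, ha, rfl⟩, toSet_imgMask hl a⟩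

theorem word_spec : ∀ (w : List ℕ) (X : List ℕ), (∀ j ∈ w, j < qGens.length) →
    ∃ g ∈ H₀, g • qSet X = qSet (applyQ w X)
  | [], X, _ => ⟨1, H₀.one_mem, one_smul _ _⟩
  | j :: w, X, h => by
    have hj : j < qGens.length := h j (List.mem_cons_self ..)
    have hm : qGens.getD j [] ∈ qGens := by rw [List.getD_eq_getElem _ _ hj]; exact List.getElem_mem hj
    obtain ⟨hp, hH⟩ := inH_spec (List.all_eq_true.1 gens_ok _ hm)
    obtain ⟨g, hg, he⟩ := word_spec w (X.map (imgMask (qGens.getD j []))) fun k hk =>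
      h k (List.mem_cons_of_mem _ hk)
    refine ⟨g * permOf (qGens.getD j []), H₀.mul_mem hg hH, ?_⟩
    rw [mul_smul, ← qSet_map hp, he]
    rfl

theorem from_rep {X : List ℕ} (hX : X ∈ qList) :
    ∃ g ∈ H₀, g • qSet ((qReps.lookup (invL X)).getD []) = qSet X := by
  obtain ⟨e, he, rfl⟩ := List.mem_map.1 hX
  have hc := List.all_eq_true.1 words_ok e he
  simp only [Bool.and_eq_true, List.all_eq_true, decide_eq_true_eq, List.contains_eq_mem] at hc
  obtain ⟨⟨h1, h2⟩, h3⟩ := hc
  obtain ⟨g, hg, hge⟩ := word_spec e.2 ((qReps.lookup (invL e.1)).getD []) h1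
  refine ⟨g, hg, hge.trans ?_⟩
  ext t
  simp only [qSet, List.mem_toFinset, List.mem_map]
  exact ⟨fun ⟨a, ha, e⟩ => ⟨a, h3 a ha, e⟩, fun ⟨a, ha, e⟩ => ⟨a, h2 a ha, e⟩⟩

theorem inv_of_mem {X : List ℕ} (hX : X ∈ qList) : invF (qSet X) = invL X := by
  refine invF_qSet (of_decide_eq_true (List.all_eq_true.1 nodup_ok.1 X hX)) fun a ha => ?_
  have h := List.all_eq_true.1 list_ok X hX
  simp only [Bool.and_eq_true] at h
  have h' := List.all_eq_true.1 h.2 a ha
  simp only [Bool.and_eq_true, decide_eq_true_eq] at h'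
  exact h'.1.1.1

/-- The orbit is a level set of the invariant. -/
theorem orbit_spec {X : List ℕ} (hX : X ∈ qList) :
    MulAction.orbit H₀ (qSet X) = {Y | Y ∈ quartets (toSet baseDod) ∧ invF Y = invL X} ∧
      (MulAction.orbit H₀ (qSet X)).ncard = qList.countP (fun Y => invL Y == invL X) := by
  have heq : MulAction.orbit H₀ (qSet X) = {Y | Y ∈ quartets (toSet baseDod) ∧ invF Y = invL X} := by
    ext Y
    constructor
    · rintro ⟨⟨g, hg⟩, rfl⟩
      refine ⟨?_, (invF_smul hg.2 (qSet X)).trans (inv_of_mem hX)⟩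
      have h1 := quartets_smul hg.1.1 (qSet_mem hX)
      rwa [show g • toSet baseDod = toSet baseDod from hg.1.2] at h1
    · rintro ⟨hY, hi⟩
      rw [quartets_eq] at hY
      obtain ⟨Z, hZ, rfl⟩ := hY
      rw [inv_of_mem hZ] at hi
      obtain ⟨a, ha, hae⟩ := from_rep hX
      obtain ⟨b, hb, hbe⟩ := from_rep hZ
      refine ⟨⟨b * a⁻¹, H₀.mul_mem hb (H₀.inv_mem ha)⟩, ?_⟩
      show (b * a⁻¹) • qSet X = qSet Z
      rw [mul_smul, ← hae, inv_smul_smul, ← hi]
      exact hbe
  refine ⟨heq, ?_⟩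
  rw [heq, show {Y | Y ∈ quartets (toSet baseDod) ∧ invF Y = invL X} =
      qSet '' ((qList.filter fun Y => invL Y == invL X).toFinset : Set (List ℕ)) by
    ext Y
    simp only [quartets_eq, Set.mem_ofPred_eq, Set.mem_image, List.coe_toFinset, List.mem_filter, beq_iff_eq]
    constructor
    · rintro ⟨⟨Z, hZ, rfl⟩, hi⟩
      exact ⟨Z, ⟨hZ, (inv_of_mem hZ).symm.trans hi⟩, rfl⟩
    · rintro ⟨Z, ⟨hZ, hi⟩, rfl⟩
      exact ⟨⟨Z, hZ, rfl⟩, (inv_of_mem hZ).trans hi⟩,
    Set.ncard_image_of_injOn, Set.ncard_coe_finset,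
    List.toFinset_card_of_nodup ((of_decide_eq_true qList_nodup).filter _), ← List.countP_eq_length_filter]
  intro A hA B hB e
  simp only [List.coe_toFinset, Set.mem_ofPred_eq, List.mem_filter] at hA hB
  exact qSet_injOn hA.1 hB.1 e

theorem exists_level (v : ℕ) (h : 0 < qList.countP (fun X => invL X == v)) :
    ∃ X ∈ qList, invL X = v := by
  obtain ⟨X, hX, he⟩ := List.countP_pos_iff.1 h
  exact ⟨X, hX, beq_iff_eq.1 he⟩

end Cfsg.Lib.Golay.QuartetOrbits
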