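import Mathlib
import Cfsg.Prelude.Def_SporadicCombinatorics
import Cfsg.Agent.Lib.Golay.Elements
import Cfsg.Agent.Lib.Golay.Count

/-! The normalizer of a subgroup of order seven in `M24`. -/

set_option autoImplicit false
set_option maxRecDepth 100000
set_option linter.style.haveILetI false

namespace Cfsg.Lib.Golay.SevenNorm

open Cfsg
open scoped Pointwise

/-- An element of order seven. -/
def X : List ℕ := [19, 7, 4, 3, 22, 2, 6, 17, 13, 8, 20, 9, 10, 18, 16, 14, 12, 5, 0, 11, 21, 15, 1, 23]
/-- An involution centralizing it. -/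
def Y : List ℕ := [0, 10, 14, 3, 16, 15, 23, 20, 8, 9, 1, 11, 22, 13, 2, 5, 4, 21, 18, 19, 7, 17, 12, 6]
/-- An element of order three centralizing it. -/
def Z : List ℕ := [2, 10, 14, 6, 16, 15, 23, 20, 7, 1, 9, 22, 11, 17, 0, 18, 19, 21, 5, 4, 8, 13, 12, 3]
/-- An element of order three squaring it. -/
def W : List ℕ := [0, 5, 2, 3, 22, 17, 6, 4, 19, 18, 15, 8, 20, 9, 14, 21, 12, 1, 13, 11, 16, 10, 7, 23]
/-- The invariant trio. -/
def trioL : List ℕ := [797449, 4325622, 11654144]
/-- The fixed indices. -/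
def fixedIdx : List ℕ := [3, 6, 23]
/-- The cycle representatives. -/
def cycReps : List ℕ := [0, 1, 10]
/-- `X ^ k`. -/
def powX : ℕ → List ℕ
  | 0 => List.range 24
  | k + 1 => compL X (powX k)

theorem data_check : keepsCode X = true ∧ keepsCode Y = true ∧ keepsCode Z = true ∧
    keepsCode W = true ∧ X ≠ List.range 24 ∧ Y ≠ List.range 24 ∧ Z ≠ List.range 24 ∧
    powX 7 = List.range 24 ∧ compL Y Y = List.range 24 ∧ compL Z (compL Z Z) = List.range 24 ∧
    compL W (compL W W) = List.range 24 ∧ compL Y X = compL X Y ∧ compL Z X = compL X Z ∧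
    compL W X = compL (compL X X) W ∧ compL Y Z ≠ compL Z Y ∧ isPermList (compL Y Z) = true ∧
    isPermList (compL Z Y) = true ∧ isPermList (compL Y X) = true ∧ isPermList (compL Z X) = true ∧
    isPermList (compL W X) = true ∧ isPermList (compL X X) = true ∧ isPermList (compL Y Y) = true ∧
    isPermList (compL Z Z) = true ∧ isPermList (compL W W) = true ∧
    compL X X ≠ X ∧ ((List.range 8).all fun k => isPermList (powX k)) = true := by decide +kernel

theorem trio_check : (trioL.all fun t => octMasks.contains t) = true ∧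
    (trioL.all fun t => trioL.all fun u => decide (t = u) || decide (t &&& u = 0)) = true ∧ trioL.Nodup ∧
    ([X, Y, Z, W].all fun l => trioL.all fun t => trioL.contains (imgMask l t)) = true ∧
    (trioL.all fun t => decide (t < 2 ^ 24)) = true := by decide +kernel

theorem fixed_check : ((List.range 24).filter fun i => X.getD i 0 == i) = fixedIdx ∧
    ((List.range 24).all fun i => fixedIdx.contains i ||
      ((List.range 3).any fun j => (List.range 7).any fun k => (powX k).getD (cycReps.getD j 0) 0 == i)) = true ∧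
    ((List.range 3).all fun j => !fixedIdx.contains (cycReps.getD j 0) &&
      (List.range 7).all fun k => ((powX k).getD (cycReps.getD j 0) 0 == cycReps.getD j 0) == (k == 0)) = true := by
  decide +kernel

/-- The permutation. -/
noncomputable def x : Equiv.Perm GolayPt := permOf X

theorem permX : isPermList X = true := Elements.keeps_perm data_check.1

theorem x_mem : x ∈ M24 := permOf_mem_M24 data_check.1

theorem powX_perm {k : ℕ} (hk : k < 8) : isPermList (powX k) = true :=
  List.all_eq_true.1 data_check.2.2.2.2.2.2.2.2.2.2.2.2.2.2.2.2.2.2.2.2.2.2.2.2.2 k (List.mem_range.2 hk)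

theorem x_pow {k : ℕ} (hk : k < 8) : x ^ k = permOf (powX k) := by
  induction k with
  | zero => rw [pow_zero, powX, permOf_range]
  | succ k ih =>
    rw [pow_succ', ih (by omega), permOf_mul permX (powX_perm (by omega)) (powX_perm hk) rfl, x]

theorem eq_range_of_permOf_eq {l k : List ℕ} (hl : isPermList l = true) (hk : isPermList k = true)
    (h : permOf l = permOf k) : l = k := by
  have hl' : l.length = 24 := by
    simp only [isPermList, Bool.and_eq_true, beq_iff_eq] at hl; exact hl.1.1
  have hk' : k.length = 24 := by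
    simp only [isPermList, Bool.and_eq_true, beq_iff_eq] at hk; exact hk.1.1
  refine List.ext_getElem (hl'.trans hk'.symm) fun i hi hi' => ?_
  have h1 := congrArg idx (Equiv.ext_iff.1 h (pt i))
  rw [idx_permOf hl, idx_permOf hk, idx_pt (hl' ▸ hi)] at h1
  rwa [List.getD_eq_getElem _ _ hi, List.getD_eq_getElem _ _ hi'] at h1

theorem orderOf_x : orderOf x = 7 := by
  haveI : Fact (Nat.Prime 7) := ⟨by norm_num⟩
  refine orderOf_eq_prime ?_ ?_
  · rw [x_pow (by norm_num), data_check.2.2.2.2.2.2.2.1, permOf_range]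
  · intro h
    rw [x, ← permOf_range] at h
    exact data_check.2.2.2.2.1 (eq_range_of_permOf_eq permX (powX_perm (k := 0) (by norm_num)) h)

theorem fixPts_x : fixPts x = {pt 3, pt 6, pt 23} := by
  ext p
  simp only [mem_fixPts, Finset.mem_insert, Finset.mem_singleton]
  rw [x, permOf_apply permX]
  have h := fixed_check.1
  constructor
  · intro hp
    have hm : idx p ∈ (List.range 24).filter fun i => X.getD i 0 == i := by
      rw [List.mem_filter, List.mem_range, beq_iff_eq]
      refine ⟨idx_lt p, ?_⟩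
      have := congrArg idx hp
      rwa [idx_pt (getD_lt permX (idx_lt p))] at this
    rw [h] at hm
    simp only [fixedIdx, List.mem_cons, List.not_mem_nil, or_false] at hm
    rcases hm with e | e | e <;> rw [← pt_idx p, e] <;> simp
  · rintro (rfl | rfl | rfl) <;> decide +kernel

theorem card_fixPts_x : (fixPts x).card = 3 := by rw [fixPts_x]; decide +kernel

/-- A cycle representative. -/
def rep (j : Fin 3) : GolayPt := pt (cycReps.getD j 0)

theorem cycle_cover (p : GolayPt) (hp : p ∉ fixPts x) : ∃ (j : Fin 3) (k : ℕ), (x ^ k) (rep j) = p := by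
  have h := List.all_eq_true.1 fixed_check.2.1 _ (List.mem_range.2 (idx_lt p))
  simp only [Bool.or_eq_true, List.any_eq_true, List.mem_range, beq_iff_eq] at h
  rcases h with h | ⟨j, hj, k, hk, he⟩
  · exfalso
    apply hp
    rw [fixPts_x]
    simp only [fixedIdx, List.contains_eq_mem, List.mem_cons, List.not_mem_nil, or_false,
      decide_eq_true_eq] at h
    rcases h with e | e | e <;> rw [← pt_idx p, e] <;> simp
  · refine ⟨⟨j, hj⟩, k, ?_⟩
    have hlt : cycReps.getD j 0 < 24 := by interval_cases j <;> decide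
    rw [x_pow (by omega), rep, permOf_pt (powX_perm (by omega)) hlt, he, pt_idx]

theorem rep_notMem (j : Fin 3) : rep j ∉ fixPts x := by
  rw [fixPts_x]
  fin_cases j <;> decide +kernel

theorem pow_fix_rep {j : Fin 3} {k : ℕ} (h : (x ^ k) (rep j) = rep j) : 7 ∣ k := by
  have hlt : cycReps.getD (j : ℕ) 0 < 24 := by fin_cases j <;> decide
  rw [← pow_mod_orderOf, orderOf_x, x_pow (by omega), rep, permOf_pt (powX_perm (by omega)) hlt] at h
  have h1 := congrArg idx h
  rw [idx_pt (getD_lt (powX_perm (by omega)) hlt), idx_pt hlt] at h1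
  have h2 := List.all_eq_true.1 fixed_check.2.2 (j : ℕ) (List.mem_range.2 j.2)
  simp only [Bool.and_eq_true] at h2
  have h3 := List.all_eq_true.1 h2.2 (k % 7) (List.mem_range.2 (Nat.mod_lt _ (by norm_num)))
  rw [beq_iff_eq, h1] at h3
  simp at h3
  omega

theorem apply_pow_comm {g : Equiv.Perm GolayPt} (hg : g * x = x * g) (i : ℕ) (p : GolayPt) :
    g ((x ^ i) p) = (x ^ i) (g p) :=
  Equiv.ext_iff.1 ((show Commute g x from hg).pow_right i).eq p

/-- An element of the centraliser fixing the three fixed points and keeping one cycle is a power. -/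
theorem eq_pow_of_keep {g : Equiv.Perm GolayPt} (hg : g ∈ M24) (hgx : g * x = x * g)
    (hF : ∀ f ∈ fixPts x, g f = f) {j : Fin 3} {i : ℕ} (h : g (rep j) = (x ^ i) (rep j)) :
    g = x ^ i := by
  classical
  set u := (x ^ i)⁻¹ * g with hu
  have huM : u ∈ M24 := M24.mul_mem (M24.inv_mem (M24.pow_mem x_mem i)) hg
  have hfix : ∀ f ∈ fixPts x, (x ^ i) f = f := fun f hf =>
    (Equiv.Perm.pow_apply_eq_self_of_apply_eq_self (mem_fixPts.1 hf) i)
  have hu1 : ∀ k : ℕ, u ((x ^ k) (rep j)) = (x ^ k) (rep j) := fun k => by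
    rw [hu, Equiv.Perm.mul_apply, apply_pow_comm hgx, h, Equiv.Perm.inv_eq_iff_eq,
      ← Equiv.Perm.mul_apply, ← Equiv.Perm.mul_apply, ← pow_add, ← pow_add, add_comm]
  have hu2 : ∀ f ∈ fixPts x, u f = f := fun f hf => by
    rw [hu, Equiv.Perm.mul_apply, hF f hf, Equiv.Perm.inv_eq_iff_eq, hfix f hf]
  have hsub : fixPts x ∪ (Finset.range 7).image (fun k => (x ^ k) (rep j)) ⊆ fixPts u := fun p hp => by
    rw [mem_fixPts]
    rcases Finset.mem_union.1 hp with hp | hp
    · exact hu2 p hp
    · obtain ⟨k, -, rfl⟩ := Finset.mem_image.1 hp; exact hu1 k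
  have hdis : Disjoint (fixPts x) ((Finset.range 7).image fun k => (x ^ k) (rep j)) := by
    rw [Finset.disjoint_left]
    intro p hp hp'
    obtain ⟨k, -, rfl⟩ := Finset.mem_image.1 hp'
    refine rep_notMem j (mem_fixPts.2 ?_)
    have hp1 := mem_fixPts.1 hp
    rw [apply_pow_comm rfl] at hp1
    exact (x ^ k).injective hp1
  have hinj : Set.InjOn (fun k => (x ^ k) (rep j)) (Finset.range 7 : Set ℕ) := by
    intro a ha b hb hab
    simp only [Finset.coe_range, Set.mem_Iio] at ha hb
    rcases le_total a b with hle | hle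
    · obtain ⟨c, rfl⟩ := Nat.exists_eq_add_of_le hle
      have hab' : (x ^ a) (rep j) = (x ^ a) ((x ^ c) (rep j)) := by
        rw [← Equiv.Perm.mul_apply, ← pow_add]; exact hab
      have := pow_fix_rep ((x ^ a).injective hab').symm
      omega
    · obtain ⟨c, rfl⟩ := Nat.exists_eq_add_of_le hle
      have hab' : (x ^ b) ((x ^ c) (rep j)) = (x ^ b) (rep j) := by
        rw [← Equiv.Perm.mul_apply, ← pow_add]; exact hab
      have := pow_fix_rep ((x ^ b).injective hab')
      omega
  have h10 : 10 ≤ (fixPts u).card := by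
    refine le_trans (le_of_eq ?_) (Finset.card_le_card hsub)
    rw [Finset.card_union_of_disjoint hdis, Finset.card_image_of_injOn hinj, card_fixPts_x, Finset.card_range]
  have := eq_one_of_fix huM (by omega)
  rw [hu, inv_mul_eq_one] at this
  exact this.symm

/-- The centraliser elements fixing the three fixed points are powers. -/
theorem eq_pow_of_fix {g : Equiv.Perm GolayPt} (hg : g ∈ M24) (hgx : g * x = x * g)
    (hF : ∀ f ∈ fixPts x, g f = f) : ∃ i : ℕ, g = x ^ i := by
  classical
  have hπ : ∀ j : Fin 3, ∃ (l : Fin 3) (i : ℕ), g (rep j) = (x ^ i) (rep l) := fun j => by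
    obtain ⟨l, i, h⟩ := cycle_cover (g (rep j)) fun h => rep_notMem j (by
      have := hF _ h
      rwa [g.injective this] at h)
    exact ⟨l, i, h.symm⟩
  choose π e he using hπ
  by_cases hfp : ∃ j, π j = j
  · obtain ⟨j, hj⟩ := hfp
    exact ⟨e j, eq_pow_of_keep hg hgx hF (by rw [he j, hj])⟩
  push Not at hfp
  exfalso
  have hinj : Function.Injective π := by
    intro a b hab
    obtain ⟨c, hc⟩ : ∃ c : ℕ, (x ^ c) (rep a) = rep b := by
      refine ⟨e b + 6 * e a, g.injective ?_⟩
      rw [apply_pow_comm hgx, he a, he b, hab, ← Equiv.Perm.mul_apply, ← pow_add,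
        show e b + 6 * e a + e a = e b + 7 * e a by ring, pow_add, pow_mul, ← orderOf_x,
        pow_orderOf_eq_one, one_pow, mul_one]
    rw [← pow_mod_orderOf, orderOf_x, x_pow (by omega), rep, rep] at hc
    have hlt : ∀ j : Fin 3, cycReps.getD (j : ℕ) 0 < 24 := by decide
    rw [permOf_pt (powX_perm (by omega)) (hlt a)] at hc
    have h1 := congrArg idx hc
    rw [idx_pt (getD_lt (powX_perm (by omega)) (hlt a)), idx_pt (hlt b)] at h1
    have key : ∀ a b : Fin 3, ∀ k : Fin 7,
        (powX k).getD (cycReps.getD a 0) 0 = cycReps.getD b 0 → a = b := by decide +kernel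
    exact key a b ⟨(c % 7), Nat.mod_lt _ (by norm_num)⟩ h1
  have h3 : ∀ π : Fin 3 → Fin 3, Function.Injective π → (∀ j, π j ≠ j) → π (π (π 0)) = 0 := by decide
  set d := e (π (π 0)) + e (π 0) + e 0
  have hg3 : (g ^ 3) (rep 0) = (x ^ d) (rep 0) := by
    rw [show g ^ 3 = g * g * g by rw [pow_succ, pow_two], Equiv.Perm.mul_apply, Equiv.Perm.mul_apply,
      he 0, apply_pow_comm hgx, he (π 0), apply_pow_comm hgx, apply_pow_comm hgx, he (π (π 0)),
      h3 π hinj hfp, ← Equiv.Perm.mul_apply, ← pow_add, ← Equiv.Perm.mul_apply, ← pow_add]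
    congr 2; ring
  have hg3x : g ^ 3 = x ^ d := eq_pow_of_keep (M24.pow_mem hg 3)
    ((show Commute g x from hgx).pow_left 3).eq (fun f hf =>
      Equiv.Perm.pow_apply_eq_self_of_apply_eq_self (hF f hf) 3) hg3
  set g' := g * x ^ (2 * d) with hg'
  have hg'3 : g' ^ 3 = 1 := by
    rw [hg', ((show Commute g x from hgx).pow_right _).mul_pow, hg3x, ← pow_mul, ← pow_add,
      show d + 2 * d * 3 = 7 * d by ring, pow_mul, ← orderOf_x, pow_orderOf_eq_one, one_pow]
  have hnofix : ∀ p, p ∉ fixPts x → g' p ≠ p := by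
    intro p hp hgp
    obtain ⟨j, k, rfl⟩ := cycle_cover p hp
    have hg'x : g' * x = x * g' := ((show Commute g x from hgx).mul_left
      ((Commute.refl x).pow_left _)).eq
    have h1 : g' (rep j) = rep j := (x ^ k).injective ((apply_pow_comm hg'x k (rep j)).symm.trans hgp)
    rw [hg', Equiv.Perm.mul_apply, apply_pow_comm hgx] at h1
    refine hfp j ?_
    obtain ⟨c, hc⟩ : ∃ c : ℕ, (x ^ c) (rep (π j)) = rep j := ⟨2 * d + e j, by
      rw [pow_add, Equiv.Perm.mul_apply, ← he j]; exact h1⟩
    have key : ∀ a b : Fin 3, ∀ k : Fin 7,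
        (powX k).getD (cycReps.getD a 0) 0 = cycReps.getD b 0 → a = b := by decide +kernel
    have hlt : ∀ j : Fin 3, cycReps.getD (j : ℕ) 0 < 24 := by decide
    rw [← pow_mod_orderOf, orderOf_x, x_pow (by omega), rep, rep,
      permOf_pt (powX_perm (by omega)) (hlt _)] at hc
    have h2 := congrArg idx hc
    rw [idx_pt (getD_lt (powX_perm (by omega)) (hlt _)), idx_pt (hlt _)] at h2
    exact key _ _ ⟨c % 7, Nat.mod_lt _ (by norm_num)⟩ h2
  have hfix : fixPts g' = fixPts x := by
    ext p
    refine ⟨fun hp => by_contra fun h => hnofix p h (mem_fixPts.1 hp), fun hp => ?_⟩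
    rw [mem_fixPts, hg', Equiv.Perm.mul_apply,
      Equiv.Perm.pow_apply_eq_self_of_apply_eq_self (mem_fixPts.1 hp) _, hF p hp]
  haveI : Fact (Nat.Prime 3) := ⟨by norm_num⟩
  have hne : g' ≠ 1 := fun h => hnofix _ (rep_notMem 0) (by rw [h]; rfl)
  obtain ⟨k, -, ⟨h, -⟩ | ⟨h, -⟩⟩ := Elements.three_fix (M24.mul_mem hg (M24.pow_mem x_mem _))
    (orderOf_eq_prime hg'3 hne)
  all_goals rw [← hg', hfix, card_fixPts_x] at h; omega

end Cfsg.Lib.Golay.SevenNorm
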