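import Mathlib
import Cfsg.Agent.Lib.Golay.SevenNorm

/-! The normalizer of a subgroup of order seven in `M24` has order `126` and fixes a trio. -/

set_option autoImplicit false
set_option maxRecDepth 100000
set_option linter.style.haveILetI false

namespace Cfsg.Lib.Golay.SevenNorm

open Cfsg
open scoped Pointwise

/-- The element inside `M24`. -/
noncomputable def x₀ : ↥M24 := ⟨x, x_mem⟩

/-- The trio. -/
def trio : Finset (Finset GolayPt) := (trioL.map toSet).toFinset

theorem trio_inj : ∀ t ∈ trioL, ∀ u ∈ trioL, toSet t = toSet u → t = u := fun t ht u hu h =>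
  (toSet_eq_iff (of_decide_eq_true (List.all_eq_true.1 trio_check.2.2.2.2 t ht))
    (of_decide_eq_true (List.all_eq_true.1 trio_check.2.2.2.2 u hu))).1 h

theorem trio_mem : trio ∈ trios := by
  classical
  refine ⟨?_, fun o ho => ?_, fun o ho o' ho' hne => ?_⟩
  · rw [trio, List.toFinset_card_of_nodup]
    · rfl
    · exact trio_check.2.2.1.map_on trio_inj
  · obtain ⟨t, ht, rfl⟩ := List.mem_map.1 (List.mem_toFinset.1 ho)
    refine toSet_mem_octads ?_
    simpa using List.all_eq_true.1 trio_check.1 t ht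
  · obtain ⟨t, ht, rfl⟩ := List.mem_map.1 (List.mem_toFinset.1 ho)
    obtain ⟨u, hu, rfl⟩ := List.mem_map.1 (List.mem_toFinset.1 ho')
    have h := List.all_eq_true.1 (List.all_eq_true.1 trio_check.2.1 t ht) u hu
    rw [Bool.or_eq_true, decide_eq_true_eq, decide_eq_true_eq] at h
    rcases h with h | h
    · exact absurd (by rw [h]) hne
    · rw [Finset.disjoint_iff_inter_eq_empty, ← toSet_and, h]
      ext p; simp [mem_toSet]

theorem smul_trio {l : List ℕ} (hl : isPermList l = true)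
    (h : (trioL.all fun t => trioL.contains (imgMask l t)) = true) : permOf l • trio = trio := by
  classical
  refine Finset.eq_of_subset_of_card_le (fun o ho => ?_) (by rw [Finset.card_smul_finset])
  obtain ⟨o', ho', rfl⟩ := Finset.mem_smul_finset.1 ho
  obtain ⟨t, ht, rfl⟩ := List.mem_map.1 (List.mem_toFinset.1 ho')
  rw [← toSet_imgMask hl]
  have := List.all_eq_true.1 h t ht
  exact List.mem_toFinset.2 (List.mem_map.2 ⟨_, by simpa using this, rfl⟩)

theorem seven_sq : ∀ a : ZMod 7, a * a - 1 = 0 → a = 1 ∨ a = -1 := by decide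

/-- The facts about the subgroup generated by `x₀`. -/
theorem spec :
    let S := Subgroup.zpowers x₀
    Nat.card ↥(Subgroup.normalizer (S : Set ↥M24)) = 126 ∧
    Nat.card ↥(Subgroup.centralizer (S : Set ↥M24)) = 42 ∧
    (∃ a ∈ Subgroup.centralizer (S : Set ↥M24), ∃ b ∈ Subgroup.centralizer (S : Set ↥M24), a * b ≠ b * a) ∧
    ∀ n ∈ Subgroup.normalizer (S : Set ↥M24), ((n : ↥M24) : Equiv.Perm GolayPt) • trio = trio := by
  classical
  intro S
  obtain ⟨cX, cY, cZ, cW, nX, nY, nZ, -, yy, zz, ww, yx, zx, wx, yz, pyz, pzy, pyx, pzx, pwx, pxx,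
    pyy, pzz, pww, xx, -⟩ := data_check
  have pY := Elements.keeps_perm cY
  have pZ := Elements.keeps_perm cZ
  have pW := Elements.keeps_perm cW
  set y : ↥M24 := ⟨permOf Y, permOf_mem_M24 cY⟩
  set z : ↥M24 := ⟨permOf Z, permOf_mem_M24 cZ⟩
  set w : ↥M24 := ⟨permOf W, permOf_mem_M24 cW⟩
  have hxo : orderOf x₀ = 7 := by rw [← orderOf_x]; exact (Subgroup.orderOf_coe x₀).symm
  have hScard : Nat.card ↥S = 7 := by rw [Nat.card_zpowers, hxo]
  have hne1 : ∀ l : List ℕ, isPermList l = true → l ≠ List.range 24 → permOf l ≠ 1 := fun l hl hne h =>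
    hne (eq_range_of_permOf_eq hl (powX_perm (k := 0) (by norm_num)) (h.trans permOf_range.symm))
  have hmem_C : ∀ g : ↥M24, g ∈ Subgroup.centralizer (S : Set ↥M24) ↔ g.1 * x = x * g.1 := by
    intro g
    constructor
    · intro h; exact (congrArg Subtype.val (h x₀ (Subgroup.mem_zpowers _))).symm
    · rintro h _ ⟨i, rfl⟩
      have : Commute g x₀ := Subtype.ext h
      exact (this.zpow_right i).symm
  have hyC : y ∈ Subgroup.centralizer (S : Set ↥M24) := (hmem_C y).2 (by
    rw [x, ← permOf_mul pY permX pyx rfl, ← permOf_mul permX pY (yx ▸ pyx) yx.symm])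
  have hzC : z ∈ Subgroup.centralizer (S : Set ↥M24) := (hmem_C z).2 (by
    rw [x, ← permOf_mul pZ permX pzx rfl, ← permOf_mul permX pZ (zx ▸ pzx) zx.symm])
  have hne : y * z ≠ z * y := fun h => by
    have h' : permOf Y * permOf Z = permOf Z * permOf Y := congrArg Subtype.val h
    rw [← permOf_mul pY pZ pyz rfl, ← permOf_mul pZ pY pzy rfl] at h'
    exact yz (eq_range_of_permOf_eq pyz pzy h')
  have hy2 : orderOf y = 2 := by
    haveI : Fact (Nat.Prime 2) := ⟨Nat.prime_two⟩
    refine orderOf_eq_prime ?_ fun h => hne1 Y pY nY (congrArg Subtype.val h)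
    rw [pow_two]; refine Subtype.ext ?_
    show permOf Y * permOf Y = 1
    rw [← permOf_mul pY pY pyy rfl, yy, permOf_range]
  have hz3 : orderOf z = 3 := by
    haveI : Fact (Nat.Prime 3) := ⟨by norm_num⟩
    refine orderOf_eq_prime ?_ fun h => hne1 Z pZ nZ (congrArg Subtype.val h)
    refine Subtype.ext ?_
    show permOf Z ^ 3 = 1
    rw [pow_succ', pow_two, ← permOf_mul pZ pZ pzz rfl,
      ← permOf_mul pZ pzz (zz ▸ powX_perm (k := 0) (by norm_num)) rfl, zz, permOf_range]
  have hw3 : w ^ 3 = 1 := by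
    refine Subtype.ext ?_
    show permOf W ^ 3 = 1
    rw [pow_succ', pow_two, ← permOf_mul pW pW pww rfl,
      ← permOf_mul pW pww (ww ▸ powX_perm (k := 0) (by norm_num)) rfl, ww, permOf_range]
  have hwx : w * x₀ * w⁻¹ = x₀ ^ 2 := by
    refine mul_inv_eq_of_eq_mul (Subtype.ext ?_)
    show permOf W * x = x ^ 2 * permOf W
    rw [pow_two, x, ← permOf_mul permX permX pxx rfl, ← permOf_mul pW permX pwx rfl,
      ← permOf_mul pxx pW (wx ▸ pwx) wx.symm]
  -- the centraliser
  set C := Subgroup.centralizer (S : Set ↥M24) with hCdef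
  have hCle : Nat.card ↥C ≤ 42 := by
    have hinv : ∀ g : ↥C, ∀ f, f ∈ fixPts x ↔ g.1.1 f ∈ fixPts x := fun g f => by
      rw [mem_fixPts, mem_fixPts, ← Equiv.Perm.mul_apply, ← (hmem_C g.1).1 g.2, Equiv.Perm.mul_apply]
      exact ⟨fun h => congrArg _ h, fun h => g.1.1.injective h⟩
    let φ : ↥C →* Equiv.Perm {f // f ∈ fixPts x} :=
      MonoidHom.mk' (fun g => g.1.1.subtypePerm fun f => (hinv g f).symm) fun a b => by ext; rfl
    have hker : Nat.card ↥φ.ker ≤ 7 := by
      rw [← hScard]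
      have hk : ∀ g : φ.ker, (g.1.1 : ↥M24) ∈ S := fun g => by
        obtain ⟨i, hi⟩ := eq_pow_of_fix g.1.1.2 ((hmem_C g.1.1).1 g.1.2) fun f hf =>
          congrArg Subtype.val (Equiv.ext_iff.1 (MonoidHom.mem_ker.1 g.2) ⟨f, hf⟩)
        exact ⟨i, Subtype.ext (by
          show ((x₀ ^ (i : ℤ) : ↥M24) : Equiv.Perm GolayPt) = _
          rw [zpow_natCast, SubgroupClass.coe_pow]; exact hi.symm)⟩
      exact Nat.card_le_card_of_injective (fun g => ⟨_, hk g⟩) fun a b h =>
        Subtype.ext (Subtype.ext (congrArg (fun t : ↥S => (t : ↥M24)) h))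
    have h1 := φ.ker.card_mul_index
    rw [Subgroup.index_ker] at h1
    have h2 : Nat.card ↥φ.range ≤ 6 := by
      refine (Subgroup.card_le_card_group _).trans (le_of_eq ?_)
      rw [Nat.card_perm, Nat.card_eq_finsetCard, card_fixPts_x]; rfl
    rw [← h1]
    exact Nat.mul_le_mul hker h2
  have hCdvd : ∀ H : Subgroup ↥M24, x₀ ∈ H → y ∈ H → z ∈ H → 42 ∣ Nat.card ↥H := by
    intro H hx hy hz
    have h7 : 7 ∣ Nat.card ↥H := by rw [← hxo]; simpa using orderOf_dvd_natCard (⟨x₀, hx⟩ : H)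
    have h2 : 2 ∣ Nat.card ↥H := by rw [← hy2]; simpa using orderOf_dvd_natCard (⟨y, hy⟩ : H)
    have h3 : 3 ∣ Nat.card ↥H := by rw [← hz3]; simpa using orderOf_dvd_natCard (⟨z, hz⟩ : H)
    omega
  have hxC : x₀ ∈ C := (hmem_C x₀).2 rfl
  have hCcard : Nat.card ↥C = 42 :=
    le_antisymm hCle (Nat.le_of_dvd Nat.card_pos (hCdvd C hxC hyC hzC))
  -- the normalizer
  set N := Subgroup.normalizer (S : Set ↥M24) with hNdef
  let ψ : ↥N →* MulAut ↥S := S.normalizerMonoidHom
  have hker : ψ.ker = C.subgroupOf N := Subgroup.normalizerMonoidHom_ker S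
  have hCN : C ≤ N := Subgroup.centralizer_le_normalizer _
  have hwN : w ∈ N := by
    have hfw : ∀ n ∈ S, w * n * w⁻¹ ∈ S := by
      rintro _ ⟨i, rfl⟩
      refine ⟨((2 : ℕ) : ℤ) * i, ?_⟩
      show x₀ ^ (((2 : ℕ) : ℤ) * i) = w * x₀ ^ i * w⁻¹
      rw [← conj_zpow, hwx, ← zpow_natCast, ← zpow_mul]
    rw [hNdef, Subgroup.mem_normalizer_iff]
    intro n
    refine ⟨hfw n, fun h => ?_⟩
    have h2 := hfw _ (hfw _ h)
    rwa [show w * (w * (w * n * w⁻¹) * w⁻¹) * w⁻¹ = w ^ 3 * n * (w ^ 3)⁻¹ by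
      rw [pow_succ', pow_two]; group, hw3, one_mul, inv_one, mul_one] at h2
  have hnoinv : ∀ g : ↥N, g.1 * x₀ * g.1⁻¹ ≠ x₀⁻¹ := by
    intro g hg
    have hsq : g.1 ^ 2 ∈ C := (hmem_C _).2 (congrArg Subtype.val (show g.1 ^ 2 * x₀ = x₀ * g.1 ^ 2 from by
      have : g.1 ^ 2 * x₀ * (g.1 ^ 2)⁻¹ = x₀ := by
        calc g.1 ^ 2 * x₀ * (g.1 ^ 2)⁻¹ = g.1 * (g.1 * x₀ * g.1⁻¹) * g.1⁻¹ := by rw [pow_two]; group
          _ = g.1 * x₀⁻¹ * g.1⁻¹ := by rw [hg]
          _ = (g.1 * x₀ * g.1⁻¹)⁻¹ := by group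
          _ = x₀ := by rw [hg, inv_inv]
      exact mul_inv_eq_iff_eq_mul.1 this))
    set u : ↥M24 := g.1 ^ 21
    have hu2 : u ^ 2 = 1 := by
      have h := pow_card_eq_one' (x := (⟨g.1 ^ 2, hsq⟩ : C))
      rw [hCcard] at h
      have h' : (g.1 ^ 2) ^ 42 = 1 := congrArg Subtype.val h
      -- the square lies in a subgroup of exponent dividing `21`
      have h21 : (g.1 ^ 2) ^ 21 = 1 := by
        let F := {f // f ∈ fixPts x}
        have hinv : ∀ f, x f = f ↔ x (g.1.1 f) = g.1.1 f := by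
          intro f
          have hg' : g.1.1 * x = x⁻¹ * g.1.1 := congrArg Subtype.val (mul_inv_eq_iff_eq_mul.1 hg)
          have h1 : g.1.1 (x f) = x⁻¹ (g.1.1 f) := Equiv.ext_iff.1 hg' f
          constructor
          · intro hf
            rw [hf] at h1
            have := congrArg x h1
            rw [Equiv.Perm.coe_inv, Equiv.apply_symm_apply] at this
            exact this
          · intro hf
            refine g.1.1.injective ?_
            rw [h1, Equiv.Perm.inv_eq_iff_eq]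
            exact hf.symm
        let gF : Equiv.Perm F := g.1.1.subtypePerm fun f => by
          rw [mem_fixPts, mem_fixPts]; exact (hinv f).symm
        have hgF : (gF ^ 2) ^ 3 = 1 := by
          have hc : Fintype.card F = 3 := by rw [Fintype.card_coe, card_fixPts_x]
          obtain ⟨eF⟩ : Nonempty (F ≃ Fin 3) := ⟨Fintype.equivFinOfCardEq hc⟩
          have key : ∀ π : Equiv.Perm (Fin 3), (π ^ 2) ^ 3 = 1 := by decide +kernel
          have h1 := key (eF.permCongrHom gF)
          rw [← map_pow, ← map_pow] at h1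
          exact eF.permCongrHom.injective (h1.trans (map_one _).symm)
        set v : ↥M24 := (g.1 ^ 2) ^ 3
        obtain ⟨i, hi⟩ := eq_pow_of_fix v.2 ((hmem_C v).1 (C.pow_mem hsq 3)) fun f hf => by
          have h1 := congrArg Subtype.val (Equiv.ext_iff.1 hgF ⟨f, hf⟩)
          have hpw : ∀ (n : ℕ) (q : F), ((gF ^ n) q).1 = (g.1.1 ^ n) q.1 := by
            intro n
            induction n with
            | zero => intro q; rfl
            | succ n ih => intro q; rw [pow_succ, pow_succ, Equiv.Perm.mul_apply, ih]; rfl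
          rw [← pow_mul, hpw] at h1
          show ((g.1 ^ 2) ^ 3 : ↥M24).1 f = f
          rw [← pow_mul, SubgroupClass.coe_pow]
          exact h1
        have hv7 : v ^ 7 = 1 := Subtype.ext (by
          rw [SubgroupClass.coe_pow, hi, ← pow_mul, mul_comm, pow_mul, ← orderOf_x, pow_orderOf_eq_one,
            one_pow]; rfl)
        rw [← pow_mul] at hv7
        exact hv7
      rwa [← pow_mul, mul_comm, pow_mul] at h21
    have hux : u * x₀ * u⁻¹ = x₀⁻¹ := by
      have h2 : ∀ n : ℕ, g.1 ^ (2 * n) * x₀ * (g.1 ^ (2 * n))⁻¹ = x₀ := fun n => by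
        have := (hmem_C _).1 (C.pow_mem hsq n)
        rw [pow_mul]
        exact mul_inv_eq_of_eq_mul (Subtype.ext this)
      show g.1 ^ 21 * x₀ * (g.1 ^ 21)⁻¹ = _
      rw [show 21 = 1 + 2 * 10 by norm_num, pow_add, pow_one]
      calc g.1 * g.1 ^ (2 * 10) * x₀ * (g.1 * g.1 ^ (2 * 10))⁻¹
          = g.1 * (g.1 ^ (2 * 10) * x₀ * (g.1 ^ (2 * 10))⁻¹) * g.1⁻¹ := by group
        _ = x₀⁻¹ := by rw [h2, hg]
    have hu1 : u ≠ 1 := fun h => by
      rw [h, one_mul, inv_one, mul_one] at hux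
      have h2 : x₀ ^ 2 = 1 := by rw [pow_two]; exact eq_inv_iff_mul_eq_one.1 hux
      have := orderOf_dvd_of_pow_eq_one h2
      rw [hxo] at this; norm_num at this
    haveI : Fact (Nat.Prime 2) := ⟨Nat.prime_two⟩
    have huo : orderOf u.1 = 2 := orderOf_eq_prime (congrArg Subtype.val hu2)
      fun h => hu1 (Subtype.ext h)
    have hu' : ∀ p, u.1 (x p) = x⁻¹ (u.1 p) :=
      fun p => Equiv.ext_iff.1 (congrArg Subtype.val (mul_inv_eq_iff_eq_mul.1 hux)) p
    have hupow : ∀ (k : ℕ) p, u.1 ((x ^ k) p) = ((x ^ k)⁻¹) (u.1 p) := by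
      intro k
      induction k with
      | zero => intro p; simp
      | succ k ih =>
        intro p
        rw [pow_succ, Equiv.Perm.mul_apply, ih, hu', mul_inv_rev, ← Equiv.Perm.mul_apply]
        congr 1
        exact ((Commute.refl x).pow_left k).inv_inv.eq
    have hu_cases : ∃ p, u.1 p = p := by
      by_contra hall
      push Not at hall
      have hset : ∀ f, f ∈ fixPts x → u.1 f ∈ fixPts x := fun f hf => by
        rw [mem_fixPts] at hf ⊢
        have h1 := hu' f
        rw [hf] at h1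
        have := congrArg x h1
        rw [Equiv.Perm.coe_inv, Equiv.apply_symm_apply] at this
        exact this
      have hinvol : ∀ f, u.1 (u.1 f) = f := Elements.apply_two huo
      let uF : Equiv.Perm {f // f ∈ fixPts x} := u.1.subtypePerm fun f =>
        ⟨fun h => hinvol f ▸ hset _ h, hset f⟩
      have hc : Fintype.card {f // f ∈ fixPts x} = 3 := by rw [Fintype.card_coe, card_fixPts_x]
      obtain ⟨eF⟩ : Nonempty ({f // f ∈ fixPts x} ≃ Fin 3) := ⟨Fintype.equivFinOfCardEq hc⟩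
      have key : ∀ π : Equiv.Perm (Fin 3), (∀ a, π (π a) = a) → ∃ a, π a = a := by decide +kernel
      obtain ⟨a, ha⟩ := key (eF.permCongr uF) fun a => by
        simp only [Equiv.permCongr_apply, Equiv.symm_apply_apply, Equiv.apply_symm_apply]
        exact eF.apply_eq_iff_eq_symm_apply.2 (Subtype.ext (hinvol _))
      rw [Equiv.permCongr_apply, Equiv.apply_eq_iff_eq_symm_apply] at ha
      exact hall _ (congrArg Subtype.val ha)
    have hle6 : (fixPts u.1).card ≤ 6 := by
      have h1 : (fixPts u.1 \ fixPts x).card ≤ 3 := by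
        have hj : ∀ p : {p // p ∈ fixPts u.1 \ fixPts x}, ∃ (j : Fin 3) (k : ℕ), (x ^ k) (rep j) = p.1 :=
          fun p => cycle_cover _ (Finset.mem_sdiff.1 p.2).2
        choose jf kf hf using hj
        rw [← Fintype.card_coe, ← Fintype.card_fin 3]
        refine Fintype.card_le_of_injective jf fun a b hab => Subtype.ext ?_
        have hd : ∃ c : ℕ, (x ^ c) a.1 = b.1 := ⟨kf b + 6 * kf a, by
          rw [← hf a, ← hf b, hab, ← Equiv.Perm.mul_apply, ← pow_add,
            show kf b + 6 * kf a + kf a = kf b + 7 * kf a by ring, pow_add, pow_mul, ← orderOf_x,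
            pow_orderOf_eq_one, one_pow, mul_one]⟩
        obtain ⟨c, hc⟩ := hd
        have ha := mem_fixPts.1 (Finset.mem_sdiff.1 a.2).1
        have hb := mem_fixPts.1 (Finset.mem_sdiff.1 b.2).1
        rw [← hc, hupow, ha, Equiv.Perm.inv_eq_iff_eq, ← Equiv.Perm.mul_apply, ← pow_add] at hb
        have h2 : 7 ∣ c + c := by
          rw [← hf a, ← Equiv.Perm.mul_apply, ← pow_add, add_comm, pow_add, Equiv.Perm.mul_apply] at hb
          exact pow_fix_rep ((x ^ kf a).injective (by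
            rw [← Equiv.Perm.mul_apply, ← pow_add, add_comm, pow_add, Equiv.Perm.mul_apply]
            rw [← Equiv.Perm.mul_apply, ← pow_add, add_comm, pow_add, Equiv.Perm.mul_apply]
            exact hb.symm))
        obtain ⟨d, rfl⟩ : 7 ∣ c := by omega
        rwa [pow_mul, ← orderOf_x, pow_orderOf_eq_one, one_pow, Equiv.Perm.one_apply] at hc
      calc (fixPts u.1).card ≤ (fixPts u.1 \ fixPts x).card + (fixPts x).card :=
            (Finset.card_le_card (Finset.subset_union_left.trans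
              (Finset.sdiff_union_self_eq_union).ge)).trans (Finset.card_union_le _ _)
        _ ≤ 6 := by rw [card_fixPts_x]; omega
    obtain ⟨p, hp⟩ := hu_cases
    obtain ⟨k, -, ⟨h, -⟩ | ⟨h, -⟩⟩ := Elements.involution_fix u.2 huo
    · rw [Finset.card_eq_zero] at h
      have := mem_fixPts.2 hp
      rw [h] at this
      simp at this
    · omega
  haveI : Fact (Nat.Prime 7) := ⟨by norm_num⟩
  haveI : IsCyclic ↥S := isCyclic_of_prime_card hScard
  have haut : Nat.card (MulAut ↥S) = 6 := by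
    rw [IsCyclic.card_mulAut, hScard]; decide
  have hNC : Nat.card ↥(ψ.ker) = 42 := by
    rw [hker, Nat.card_congr (Subgroup.subgroupOfEquivOfLe hCN).toEquiv, hCcard]
  have hNidx := ψ.ker.card_mul_index
  rw [Subgroup.index_ker, hNC] at hNidx
  have hr6 : Nat.card ↥ψ.range ∣ 6 := haut ▸ Subgroup.card_subgroup_dvd_card _
  have hr2 : ¬ 2 ∣ Nat.card ↥ψ.range := by
    intro h
    haveI : Fact (Nat.Prime 2) := ⟨Nat.prime_two⟩
    obtain ⟨⟨φ, g, rfl⟩, hφ⟩ := exists_prime_orderOf_dvd_card' 2 h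
    obtain ⟨i, hi⟩ : (ψ g ⟨x₀, Subgroup.mem_zpowers _⟩ : ↥M24) ∈ S := SetLike.coe_mem _
    have hval : g.1 * x₀ * g.1⁻¹ = x₀ ^ i := hi.symm
    have hsq : g.1 * (g.1 * x₀ * g.1⁻¹) * g.1⁻¹ = x₀ := by
      have h2 : ψ g ^ 2 = 1 := by
        have := pow_orderOf_eq_one (⟨ψ g, g, rfl⟩ : ψ.range)
        rw [hφ] at this
        exact congrArg Subtype.val this
      have := congrArg Subtype.val (DFunLike.congr_fun h2 ⟨x₀, Subgroup.mem_zpowers _⟩)
      exact this
    rw [hval, ← conj_zpow, hval, ← zpow_mul] at hsq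
    have h7 : ((i * i - 1 : ℤ) : ZMod 7) = 0 := by
      rw [ZMod.intCast_zmod_eq_zero_iff_dvd]
      have := orderOf_dvd_iff_zpow_eq_one.2 (show x₀ ^ (i * i - 1) = 1 by
        rw [zpow_sub, hsq, zpow_one, mul_inv_cancel])
      rw [hxo] at this
      exact_mod_cast this
    push_cast at h7
    have hdiv : ∀ m : ℤ, (i : ZMod 7) = (m : ZMod 7) → x₀ ^ i = x₀ ^ m := fun m hm => by
      rw [zpow_eq_zpow_iff_modEq, hxo]
      exact ((ZMod.intCast_eq_intCast_iff _ _ 7).1 hm)
    rcases seven_sq _ h7 with h1 | h1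
    · have hg1 : g ∈ ψ.ker := by
        rw [hker, Subgroup.mem_subgroupOf, hmem_C]
        refine congrArg Subtype.val (mul_inv_eq_iff_eq_mul.1 (?_ : g.1 * x₀ * g.1⁻¹ = x₀))
        rw [hval, hdiv 1 (by rw [h1, Int.cast_one]), zpow_one]
      have : (⟨ψ g, g, rfl⟩ : ψ.range) = 1 := Subtype.ext (MonoidHom.mem_ker.1 hg1)
      rw [this, orderOf_one] at hφ
      omega
    · exact hnoinv g (by rw [hval, hdiv (-1) (by rw [h1, Int.cast_neg, Int.cast_one]), zpow_neg_one])
  set H := N ⊓ MulAction.stabilizer ↥M24 trio with hH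
  have hst : ∀ (l : List ℕ) (hl : keepsCode l = true), l ∈ [X, Y, Z, W] →
      (⟨permOf l, permOf_mem_M24 hl⟩ : ↥M24) ∈ MulAction.stabilizer ↥M24 trio := fun l hl hm =>
    smul_trio (Elements.keeps_perm hl) (List.all_eq_true.1 trio_check.2.2.2.1 l hm)
  have hxH : x₀ ∈ H := ⟨hCN hxC, hst X cX (by simp)⟩
  have hyH : y ∈ H := ⟨hCN hyC, hst Y cY (by simp)⟩
  have hzH : z ∈ H := ⟨hCN hzC, hst Z cZ (by simp)⟩
  have hwH : w ∈ H := ⟨hwN, hst W cW (by simp)⟩
  have hHC : 42 ∣ Nat.card ↥(H ⊓ C : Subgroup ↥M24) :=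
    hCdvd _ ⟨hxH, hxC⟩ ⟨hyH, hyC⟩ ⟨hzH, hzC⟩
  have hlt : Nat.card ↥(H ⊓ C : Subgroup ↥M24) < Nat.card ↥H := by
    by_contra h
    have := Subgroup.eq_of_le_of_card_ge (inf_le_left : H ⊓ C ≤ H) (not_lt.1 h)
    have hwC : w ∈ C := (this.ge hwH).2
    have h1 := (hmem_C w).1 hwC
    have h2 : x₀ ^ 2 = x₀ := by
      rw [← hwx]; exact mul_inv_eq_of_eq_mul (Subtype.ext h1)
    have h3 : x₀ = 1 := by rw [pow_two] at h2; exact mul_eq_left.1 h2
    rw [h3, orderOf_one] at hxo; omega
  have hNcard : Nat.card ↥N = 126 ∧ H = N := by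
    have h1 : Nat.card ↥(H ⊓ C : Subgroup ↥M24) ∣ Nat.card ↥H := Subgroup.card_dvd_of_le inf_le_left
    have h2 : Nat.card ↥H ∣ Nat.card ↥N := Subgroup.card_dvd_of_le inf_le_left
    have hr : Nat.card ↥ψ.range = 1 ∨ Nat.card ↥ψ.range = 3 := by
      have := Nat.le_of_dvd (by norm_num) hr6
      generalize Nat.card ↥ψ.range = r at *
      interval_cases r <;> omega
    have hHpos : 0 < Nat.card ↥H := Nat.card_pos
    have hNpos : 0 < Nat.card ↥N := Nat.card_pos
    obtain ⟨a, ha⟩ := dvd_trans hHC h1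
    have hNH : Nat.card ↥H ≤ Nat.card ↥N := Nat.le_of_dvd hNpos h2
    have hHC' := Nat.le_of_dvd Nat.card_pos hHC
    have hN126 : Nat.card ↥N = 126 := by
      rcases hr with hr | hr <;> rw [hr] at hNidx <;> omega
    refine ⟨hN126, Subgroup.eq_of_le_of_card_ge inf_le_left ?_⟩
    rw [hN126]
    have h3 : Nat.card ↥H ∣ 126 := hN126 ▸ h2
    have : Nat.card ↥H ≠ 84 := fun h => by rw [h] at h3; norm_num at h3
    omega
  exact ⟨hNcard.1, hCcard, ⟨y, hyC, z, hzC, hne⟩, fun n hn => (hNcard.2.ge hn).2⟩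

end Cfsg.Lib.Golay.SevenNorm
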