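import Mathlib
import Cfsg.Agent.Lib.Golay.Dec.ClsSextet
import Cfsg.Agent.Lib.Golay.Dec.Maximal
import Cfsg.Agent.Lib.Golay.OctKer

/-! The stabiliser of a sextet. -/

set_option autoImplicit false
set_option maxRecDepth 100000
set_option linter.constructorNameAsVariable false

namespace Cfsg.Lib.Golay.SextetStab

open Cfsg Dec
open scoped Pointwise

/-- Elements inducing the adjacent transpositions of tetrads. -/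
def swaps : List (List ℕ) := [
  [4, 7, 10, 12, 0, 5, 6, 1, 8, 22, 2, 11, 3, 13, 17, 15, 19, 14, 18, 16, 21, 20, 9, 23],
  [0, 1, 3, 2, 8, 5, 22, 15, 4, 9, 16, 11, 19, 13, 17, 7, 10, 14, 20, 12, 18, 21, 6, 23],
  [0, 1, 3, 2, 4, 5, 9, 10, 13, 6, 7, 11, 12, 8, 14, 20, 18, 23, 16, 21, 15, 19, 22, 17],
  [0, 1, 3, 2, 4, 5, 18, 7, 8, 21, 12, 13, 10, 11, 17, 15, 19, 14, 6, 16, 22, 9, 20, 23],
  [0, 1, 3, 2, 4, 6, 14, 10, 15, 5, 7, 23, 12, 18, 9, 19, 8, 11, 21, 16, 13, 20, 17, 22]]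

/-- The elements fixing every tetrad. -/
def kerL : List (List ℕ) := [
  [0, 1, 2, 3, 4, 5, 6, 7, 8, 9, 10, 11, 12, 13, 14, 15, 16, 17, 18, 19, 20, 21, 22, 23],
  [0, 1, 2, 3, 4, 14, 9, 7, 19, 6, 10, 22, 12, 21, 5, 16, 15, 23, 20, 8, 18, 13, 11, 17],
  [0, 1, 2, 3, 4, 17, 22, 7, 16, 11, 10, 9, 12, 20, 23, 19, 8, 5, 21, 15, 13, 18, 6, 14],
  [0, 1, 2, 3, 4, 23, 11, 7, 15, 22, 10, 6, 12, 18, 17, 8, 19, 14, 13, 16, 21, 20, 9, 5],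
  [0, 1, 2, 3, 7, 5, 22, 4, 15, 11, 12, 9, 10, 21, 14, 8, 19, 17, 20, 16, 18, 13, 6, 23],
  [0, 1, 2, 3, 7, 14, 11, 4, 16, 22, 12, 6, 10, 13, 5, 19, 8, 23, 18, 15, 20, 21, 9, 17],
  [0, 1, 2, 3, 7, 17, 6, 4, 19, 9, 12, 11, 10, 18, 23, 16, 15, 5, 13, 8, 21, 20, 22, 14],
  [0, 1, 2, 3, 7, 23, 9, 4, 8, 6, 12, 22, 10, 20, 17, 15, 16, 14, 21, 19, 13, 18, 11, 5],
  [0, 1, 2, 3, 10, 5, 11, 12, 19, 22, 4, 6, 7, 20, 14, 16, 15, 17, 21, 8, 13, 18, 9, 23],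
  [0, 1, 2, 3, 10, 14, 22, 12, 8, 11, 4, 9, 7, 18, 5, 15, 16, 23, 13, 19, 21, 20, 6, 17],
  [0, 1, 2, 3, 10, 17, 9, 12, 15, 6, 4, 22, 7, 13, 23, 8, 19, 5, 18, 16, 20, 21, 11, 14],
  [0, 1, 2, 3, 10, 23, 6, 12, 16, 9, 4, 11, 7, 21, 17, 19, 8, 14, 20, 15, 18, 13, 22, 5],
  [0, 1, 2, 3, 12, 5, 9, 10, 16, 6, 7, 22, 4, 18, 14, 19, 8, 17, 13, 15, 21, 20, 11, 23],
  [0, 1, 2, 3, 12, 14, 6, 10, 15, 9, 7, 11, 4, 20, 5, 8, 19, 23, 21, 16, 13, 18, 22, 17],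
  [0, 1, 2, 3, 12, 17, 11, 10, 8, 22, 7, 6, 4, 21, 23, 15, 16, 5, 20, 19, 18, 13, 9, 14],
  [0, 1, 2, 3, 12, 23, 22, 10, 19, 11, 7, 9, 4, 13, 17, 16, 15, 14, 18, 8, 20, 21, 6, 5],
  [0, 2, 3, 1, 4, 5, 9, 12, 8, 22, 7, 11, 10, 13, 23, 16, 19, 14, 20, 15, 21, 18, 6, 17],
  [0, 2, 3, 1, 4, 14, 6, 12, 19, 11, 7, 22, 10, 21, 17, 15, 8, 5, 18, 16, 13, 20, 9, 23],
  [0, 2, 3, 1, 4, 17, 11, 12, 16, 6, 7, 9, 10, 20, 14, 8, 15, 23, 13, 19, 18, 21, 22, 5],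
  [0, 2, 3, 1, 4, 23, 22, 12, 15, 9, 7, 6, 10, 18, 5, 19, 16, 17, 21, 8, 20, 13, 11, 14],
  [0, 2, 3, 1, 7, 5, 11, 10, 15, 6, 4, 9, 12, 21, 23, 19, 16, 14, 18, 8, 13, 20, 22, 17],
  [0, 2, 3, 1, 7, 14, 22, 10, 16, 9, 4, 6, 12, 13, 17, 8, 15, 5, 20, 19, 21, 18, 11, 23],
  [0, 2, 3, 1, 7, 17, 9, 10, 19, 22, 4, 11, 12, 18, 14, 15, 8, 23, 21, 16, 20, 13, 6, 5],
  [0, 2, 3, 1, 7, 23, 6, 10, 8, 11, 4, 22, 12, 20, 5, 16, 19, 17, 13, 15, 18, 21, 9, 14],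
  [0, 2, 3, 1, 10, 5, 22, 7, 19, 9, 12, 6, 4, 20, 23, 15, 8, 14, 13, 16, 18, 21, 11, 17],
  [0, 2, 3, 1, 10, 14, 11, 7, 8, 6, 12, 9, 4, 18, 17, 16, 19, 5, 21, 15, 20, 13, 22, 23],
  [0, 2, 3, 1, 10, 17, 6, 7, 15, 11, 12, 22, 4, 13, 14, 19, 16, 23, 20, 8, 21, 18, 9, 5],
  [0, 2, 3, 1, 10, 23, 9, 7, 16, 22, 12, 11, 4, 21, 5, 8, 15, 17, 18, 19, 13, 20, 6, 14],
  [0, 2, 3, 1, 12, 5, 6, 4, 16, 11, 10, 22, 7, 18, 23, 8, 15, 14, 21, 19, 20, 13, 9, 17],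
  [0, 2, 3, 1, 12, 14, 9, 4, 15, 22, 10, 11, 7, 20, 17, 19, 16, 5, 13, 8, 18, 21, 6, 23],
  [0, 2, 3, 1, 12, 17, 22, 4, 8, 9, 10, 6, 7, 21, 14, 16, 19, 23, 18, 15, 13, 20, 11, 5],
  [0, 2, 3, 1, 12, 23, 11, 4, 19, 6, 10, 9, 7, 13, 5, 15, 8, 17, 20, 16, 21, 18, 22, 14],
  [0, 3, 1, 2, 4, 5, 22, 10, 8, 6, 12, 11, 7, 13, 17, 19, 15, 23, 21, 16, 18, 20, 9, 14],
  [0, 3, 1, 2, 4, 14, 11, 10, 19, 9, 12, 22, 7, 21, 23, 8, 16, 17, 13, 15, 20, 18, 6, 5],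
  [0, 3, 1, 2, 4, 17, 6, 10, 16, 22, 12, 9, 7, 20, 5, 15, 19, 14, 18, 8, 21, 13, 11, 23],
  [0, 3, 1, 2, 4, 23, 9, 10, 15, 11, 12, 6, 7, 18, 14, 16, 8, 5, 20, 19, 13, 21, 22, 17],
  [0, 3, 1, 2, 7, 5, 6, 12, 15, 22, 10, 9, 4, 21, 17, 16, 8, 23, 13, 19, 20, 18, 11, 14],
  [0, 3, 1, 2, 7, 14, 9, 12, 16, 11, 10, 6, 4, 13, 23, 15, 19, 17, 21, 8, 18, 20, 22, 5],
  [0, 3, 1, 2, 7, 17, 22, 12, 19, 6, 10, 11, 4, 18, 5, 8, 16, 14, 20, 15, 13, 21, 9, 23],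
  [0, 3, 1, 2, 7, 23, 11, 12, 8, 9, 10, 22, 4, 20, 14, 19, 15, 5, 18, 16, 21, 13, 6, 17],
  [0, 3, 1, 2, 10, 5, 9, 4, 19, 11, 7, 6, 12, 20, 17, 8, 16, 23, 18, 15, 21, 13, 22, 14],
  [0, 3, 1, 2, 10, 14, 6, 4, 8, 22, 7, 9, 12, 18, 23, 19, 15, 17, 20, 16, 13, 21, 11, 5],
  [0, 3, 1, 2, 10, 17, 11, 4, 15, 9, 7, 22, 12, 13, 5, 16, 8, 14, 21, 19, 18, 20, 6, 23],
  [0, 3, 1, 2, 10, 23, 22, 4, 16, 6, 7, 11, 12, 21, 14, 15, 19, 5, 13, 8, 20, 18, 9, 17],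
  [0, 3, 1, 2, 12, 5, 11, 7, 16, 9, 4, 22, 10, 18, 17, 15, 19, 23, 20, 8, 13, 21, 6, 14],
  [0, 3, 1, 2, 12, 14, 22, 7, 15, 6, 4, 11, 10, 20, 23, 16, 8, 17, 18, 19, 21, 13, 9, 5],
  [0, 3, 1, 2, 12, 17, 9, 7, 8, 11, 4, 6, 10, 21, 5, 19, 15, 14, 13, 16, 20, 18, 22, 23],
  [0, 3, 1, 2, 12, 23, 6, 7, 19, 22, 4, 9, 10, 13, 14, 8, 16, 5, 21, 15, 18, 20, 11, 17],
  [1, 0, 3, 2, 4, 5, 9, 7, 15, 6, 10, 22, 12, 20, 14, 8, 19, 17, 21, 16, 13, 18, 11, 23],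
  [1, 0, 3, 2, 4, 14, 6, 7, 16, 9, 10, 11, 12, 18, 5, 19, 8, 23, 13, 15, 21, 20, 22, 17],
  [1, 0, 3, 2, 4, 17, 11, 7, 19, 22, 10, 6, 12, 13, 23, 16, 15, 5, 18, 8, 20, 21, 9, 14],
  [1, 0, 3, 2, 4, 23, 22, 7, 8, 11, 10, 9, 12, 21, 17, 15, 16, 14, 20, 19, 18, 13, 6, 5],
  [1, 0, 3, 2, 7, 5, 11, 4, 8, 22, 12, 6, 10, 18, 14, 15, 16, 17, 13, 19, 21, 20, 9, 23],
  [1, 0, 3, 2, 7, 14, 22, 4, 19, 11, 12, 9, 10, 20, 5, 16, 15, 23, 21, 8, 13, 18, 6, 17],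
  [1, 0, 3, 2, 7, 17, 9, 4, 16, 6, 12, 22, 10, 21, 23, 19, 8, 5, 20, 15, 18, 13, 11, 14],
  [1, 0, 3, 2, 7, 23, 6, 4, 15, 9, 12, 11, 10, 13, 17, 8, 19, 14, 18, 16, 20, 21, 22, 5],
  [1, 0, 3, 2, 10, 5, 22, 12, 16, 11, 4, 9, 7, 13, 14, 19, 8, 17, 18, 15, 20, 21, 6, 23],
  [1, 0, 3, 2, 10, 14, 11, 12, 15, 22, 4, 6, 7, 21, 5, 8, 19, 23, 20, 16, 18, 13, 9, 17],
  [1, 0, 3, 2, 10, 17, 6, 12, 8, 9, 4, 11, 7, 20, 23, 15, 16, 5, 21, 19, 13, 18, 22, 14],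
  [1, 0, 3, 2, 10, 23, 9, 12, 19, 6, 4, 22, 7, 18, 17, 16, 15, 14, 13, 8, 21, 20, 11, 5],
  [1, 0, 3, 2, 12, 5, 6, 10, 19, 9, 7, 11, 4, 21, 14, 16, 15, 17, 20, 8, 18, 13, 22, 23],
  [1, 0, 3, 2, 12, 14, 9, 10, 8, 6, 7, 22, 4, 13, 5, 15, 16, 23, 18, 19, 20, 21, 11, 17],
  [1, 0, 3, 2, 12, 17, 22, 10, 15, 11, 7, 9, 4, 18, 23, 8, 19, 5, 13, 16, 21, 20, 6, 14],
  [1, 0, 3, 2, 12, 23, 11, 10, 16, 22, 7, 6, 4, 20, 17, 19, 8, 14, 21, 15, 13, 18, 9, 5],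
  [1, 2, 0, 3, 4, 5, 11, 10, 15, 9, 12, 22, 7, 20, 17, 16, 8, 23, 18, 19, 21, 13, 6, 14],
  [1, 2, 0, 3, 4, 14, 22, 10, 16, 6, 12, 11, 7, 18, 23, 15, 19, 17, 20, 8, 13, 21, 9, 5],
  [1, 2, 0, 3, 4, 17, 9, 10, 19, 11, 12, 6, 7, 13, 5, 8, 16, 14, 21, 15, 18, 20, 22, 23],
  [1, 2, 0, 3, 4, 23, 6, 10, 8, 22, 12, 9, 7, 21, 14, 19, 15, 5, 13, 16, 20, 18, 11, 17],
  [1, 2, 0, 3, 7, 5, 9, 12, 8, 11, 10, 6, 4, 18, 17, 19, 15, 23, 20, 16, 13, 21, 22, 14],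
  [1, 2, 0, 3, 7, 14, 6, 12, 19, 22, 10, 9, 4, 20, 23, 8, 16, 17, 18, 15, 21, 13, 11, 5],
  [1, 2, 0, 3, 7, 17, 11, 12, 16, 9, 10, 22, 4, 21, 5, 15, 19, 14, 13, 8, 20, 18, 6, 23],
  [1, 2, 0, 3, 7, 23, 22, 12, 15, 6, 10, 11, 4, 13, 14, 16, 8, 5, 21, 19, 18, 20, 9, 17],
  [1, 2, 0, 3, 10, 5, 6, 4, 16, 22, 7, 9, 12, 13, 17, 15, 19, 23, 21, 8, 18, 20, 11, 14],
  [1, 2, 0, 3, 10, 14, 9, 4, 15, 11, 7, 6, 12, 21, 23, 16, 8, 17, 13, 19, 20, 18, 22, 5],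
  [1, 2, 0, 3, 10, 17, 22, 4, 8, 6, 7, 11, 12, 20, 5, 19, 15, 14, 18, 16, 21, 13, 9, 23],
  [1, 2, 0, 3, 10, 23, 11, 4, 19, 9, 7, 22, 12, 18, 14, 8, 16, 5, 20, 15, 13, 21, 6, 17],
  [1, 2, 0, 3, 12, 5, 22, 7, 19, 6, 4, 11, 10, 21, 17, 8, 16, 23, 13, 15, 20, 18, 9, 14],
  [1, 2, 0, 3, 12, 14, 11, 7, 8, 9, 4, 22, 10, 13, 23, 19, 15, 17, 21, 16, 18, 20, 6, 5],
  [1, 2, 0, 3, 12, 17, 6, 7, 15, 22, 4, 9, 10, 18, 5, 16, 8, 14, 20, 19, 13, 21, 11, 23],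
  [1, 2, 0, 3, 12, 23, 9, 7, 16, 11, 4, 6, 10, 20, 14, 15, 19, 5, 18, 8, 21, 13, 22, 17],
  [1, 3, 2, 0, 4, 5, 6, 12, 15, 11, 7, 22, 10, 20, 23, 19, 16, 14, 13, 8, 18, 21, 9, 17],
  [1, 3, 2, 0, 4, 14, 9, 12, 16, 22, 7, 11, 10, 18, 17, 8, 15, 5, 21, 19, 20, 13, 6, 23],
  [1, 3, 2, 0, 4, 17, 22, 12, 19, 9, 7, 6, 10, 13, 14, 15, 8, 23, 20, 16, 21, 18, 11, 5],
  [1, 3, 2, 0, 4, 23, 11, 12, 8, 6, 7, 9, 10, 21, 5, 16, 19, 17, 18, 15, 13, 20, 22, 14],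
  [1, 3, 2, 0, 7, 5, 22, 10, 8, 9, 4, 6, 12, 18, 23, 16, 19, 14, 21, 15, 20, 13, 11, 17],
  [1, 3, 2, 0, 7, 14, 11, 10, 19, 6, 4, 9, 12, 20, 17, 15, 8, 5, 13, 16, 18, 21, 22, 23],
  [1, 3, 2, 0, 7, 17, 6, 10, 16, 11, 4, 22, 12, 21, 14, 8, 15, 23, 18, 19, 13, 20, 9, 5],
  [1, 3, 2, 0, 7, 23, 9, 10, 15, 22, 4, 11, 12, 13, 5, 19, 16, 17, 20, 8, 21, 18, 6, 14],
  [1, 3, 2, 0, 10, 5, 11, 7, 16, 6, 12, 9, 4, 13, 23, 8, 15, 14, 20, 19, 21, 18, 22, 17],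
  [1, 3, 2, 0, 10, 14, 22, 7, 15, 9, 12, 6, 4, 21, 17, 19, 16, 5, 18, 8, 13, 20, 11, 23],
  [1, 3, 2, 0, 10, 17, 9, 7, 8, 22, 12, 11, 4, 20, 14, 16, 19, 23, 13, 15, 18, 21, 6, 5],
  [1, 3, 2, 0, 10, 23, 6, 7, 19, 11, 12, 22, 4, 18, 5, 15, 8, 17, 21, 16, 20, 13, 9, 14],
  [1, 3, 2, 0, 12, 5, 9, 4, 19, 22, 10, 11, 7, 21, 23, 15, 8, 14, 18, 16, 13, 20, 6, 17],
  [1, 3, 2, 0, 12, 14, 6, 4, 8, 11, 10, 22, 7, 13, 17, 16, 19, 5, 20, 15, 21, 18, 9, 23],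
  [1, 3, 2, 0, 12, 17, 11, 4, 15, 6, 10, 9, 7, 18, 14, 19, 16, 23, 21, 8, 20, 13, 22, 5],
  [1, 3, 2, 0, 12, 23, 22, 4, 16, 9, 10, 6, 7, 20, 5, 8, 15, 17, 13, 19, 18, 21, 11, 14],
  [2, 0, 1, 3, 4, 5, 22, 12, 16, 9, 7, 6, 10, 21, 23, 8, 15, 14, 18, 19, 13, 20, 11, 17],
  [2, 0, 1, 3, 4, 14, 11, 12, 15, 6, 7, 9, 10, 13, 17, 19, 16, 5, 20, 8, 21, 18, 22, 23],
  [2, 0, 1, 3, 4, 17, 6, 12, 8, 11, 7, 22, 10, 18, 14, 16, 19, 23, 21, 15, 20, 13, 9, 5],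
  [2, 0, 1, 3, 4, 23, 9, 12, 19, 22, 7, 11, 10, 20, 5, 15, 8, 17, 13, 16, 18, 21, 6, 14],
  [2, 0, 1, 3, 7, 5, 6, 10, 19, 11, 4, 22, 12, 13, 23, 15, 8, 14, 20, 16, 21, 18, 9, 17],
  [2, 0, 1, 3, 7, 14, 9, 10, 8, 22, 4, 11, 12, 21, 17, 16, 19, 5, 18, 15, 13, 20, 6, 23],
  [2, 0, 1, 3, 7, 17, 22, 10, 15, 9, 4, 6, 12, 20, 14, 19, 16, 23, 13, 8, 18, 21, 11, 5],
  [2, 0, 1, 3, 7, 23, 11, 10, 16, 6, 4, 9, 12, 18, 5, 8, 15, 17, 21, 19, 20, 13, 22, 14],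
  [2, 0, 1, 3, 10, 5, 9, 7, 15, 22, 12, 11, 4, 18, 23, 19, 16, 14, 21, 8, 20, 13, 6, 17],
  [2, 0, 1, 3, 10, 14, 6, 7, 16, 11, 12, 22, 4, 20, 17, 8, 15, 5, 13, 19, 18, 21, 9, 23],
  [2, 0, 1, 3, 10, 17, 11, 7, 19, 6, 12, 9, 4, 21, 14, 15, 8, 23, 18, 16, 13, 20, 22, 5],
  [2, 0, 1, 3, 10, 23, 22, 7, 8, 9, 12, 6, 4, 13, 5, 16, 19, 17, 20, 15, 21, 18, 11, 14],
  [2, 0, 1, 3, 12, 5, 11, 4, 8, 6, 10, 9, 7, 20, 23, 16, 19, 14, 13, 15, 18, 21, 22, 17],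
  [2, 0, 1, 3, 12, 14, 22, 4, 19, 9, 10, 6, 7, 18, 17, 15, 8, 5, 21, 16, 20, 13, 11, 23],
  [2, 0, 1, 3, 12, 17, 9, 4, 16, 22, 10, 11, 7, 13, 14, 8, 15, 23, 20, 19, 21, 18, 6, 5],
  [2, 0, 1, 3, 12, 23, 6, 4, 15, 11, 10, 22, 7, 21, 5, 19, 16, 17, 18, 8, 13, 20, 9, 14],
  [2, 1, 3, 0, 4, 5, 9, 10, 16, 11, 12, 6, 7, 21, 17, 15, 19, 23, 13, 8, 20, 18, 22, 14],
  [2, 1, 3, 0, 4, 14, 6, 10, 15, 22, 12, 9, 7, 13, 23, 16, 8, 17, 21, 19, 18, 20, 11, 5],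
  [2, 1, 3, 0, 4, 17, 11, 10, 8, 9, 12, 22, 7, 18, 5, 19, 15, 14, 20, 16, 13, 21, 6, 23],
  [2, 1, 3, 0, 4, 23, 22, 10, 19, 6, 12, 11, 7, 20, 14, 8, 16, 5, 18, 15, 21, 13, 9, 17],
  [2, 1, 3, 0, 7, 5, 11, 12, 19, 9, 10, 22, 4, 13, 17, 8, 16, 23, 21, 15, 18, 20, 6, 14],
  [2, 1, 3, 0, 7, 14, 22, 12, 8, 6, 10, 11, 4, 21, 23, 19, 15, 17, 13, 16, 20, 18, 9, 5],
  [2, 1, 3, 0, 7, 17, 9, 12, 15, 11, 10, 6, 4, 20, 5, 16, 8, 14, 18, 19, 21, 13, 22, 23],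
  [2, 1, 3, 0, 7, 23, 6, 12, 16, 22, 10, 9, 4, 18, 14, 15, 19, 5, 20, 8, 13, 21, 11, 17],
  [2, 1, 3, 0, 10, 5, 22, 4, 15, 6, 7, 11, 12, 18, 17, 16, 8, 23, 20, 19, 13, 21, 9, 14],
  [2, 1, 3, 0, 10, 14, 11, 4, 16, 9, 7, 22, 12, 20, 23, 15, 19, 17, 18, 8, 21, 13, 6, 5],
  [2, 1, 3, 0, 10, 17, 6, 4, 19, 22, 7, 9, 12, 21, 5, 8, 16, 14, 13, 15, 20, 18, 11, 23],
  [2, 1, 3, 0, 10, 23, 9, 4, 8, 11, 7, 6, 12, 13, 14, 19, 15, 5, 21, 16, 18, 20, 22, 17],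
  [2, 1, 3, 0, 12, 5, 6, 7, 8, 22, 4, 9, 10, 20, 17, 19, 15, 23, 18, 16, 21, 13, 11, 14],
  [2, 1, 3, 0, 12, 14, 9, 7, 19, 11, 4, 6, 10, 18, 23, 8, 16, 17, 20, 15, 13, 21, 22, 5],
  [2, 1, 3, 0, 12, 17, 22, 7, 16, 6, 4, 11, 10, 13, 5, 15, 19, 14, 21, 8, 18, 20, 9, 23],
  [2, 1, 3, 0, 12, 23, 11, 7, 15, 9, 4, 22, 10, 21, 14, 16, 8, 5, 13, 19, 20, 18, 6, 17],
  [2, 3, 0, 1, 4, 5, 11, 7, 16, 22, 10, 6, 12, 21, 14, 19, 8, 17, 20, 15, 18, 13, 9, 23],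
  [2, 3, 0, 1, 4, 14, 22, 7, 15, 11, 10, 9, 12, 13, 5, 8, 19, 23, 18, 16, 20, 21, 6, 17],
  [2, 3, 0, 1, 4, 17, 9, 7, 8, 6, 10, 22, 12, 18, 23, 15, 16, 5, 13, 19, 21, 20, 11, 14],
  [2, 3, 0, 1, 4, 23, 6, 7, 19, 9, 10, 11, 12, 20, 17, 16, 15, 14, 21, 8, 13, 18, 22, 5],
  [2, 3, 0, 1, 7, 5, 9, 4, 19, 6, 12, 22, 10, 13, 14, 16, 15, 17, 18, 8, 20, 21, 11, 23],
  [2, 3, 0, 1, 7, 14, 6, 4, 8, 9, 12, 11, 10, 21, 5, 15, 16, 23, 20, 19, 18, 13, 22, 17],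
  [2, 3, 0, 1, 7, 17, 11, 4, 15, 22, 12, 6, 10, 20, 23, 8, 19, 5, 21, 16, 13, 18, 9, 14],
  [2, 3, 0, 1, 7, 23, 22, 4, 16, 11, 12, 9, 10, 18, 17, 19, 8, 14, 13, 15, 21, 20, 6, 5],
  [2, 3, 0, 1, 10, 5, 6, 12, 15, 9, 4, 11, 7, 18, 14, 8, 19, 17, 13, 16, 21, 20, 22, 23],
  [2, 3, 0, 1, 10, 14, 9, 12, 16, 6, 4, 22, 7, 20, 5, 19, 8, 23, 21, 15, 13, 18, 11, 17],
  [2, 3, 0, 1, 10, 17, 22, 12, 19, 11, 4, 9, 7, 21, 23, 16, 15, 5, 20, 8, 18, 13, 6, 14],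
  [2, 3, 0, 1, 10, 23, 11, 12, 8, 22, 4, 6, 7, 13, 17, 15, 16, 14, 18, 19, 20, 21, 9, 5],
  [2, 3, 0, 1, 12, 5, 22, 10, 8, 11, 7, 9, 4, 20, 14, 15, 16, 17, 21, 19, 13, 18, 6, 23],
  [2, 3, 0, 1, 12, 14, 11, 10, 19, 22, 7, 6, 4, 18, 5, 16, 15, 23, 13, 8, 21, 20, 9, 17],
  [2, 3, 0, 1, 12, 17, 6, 10, 16, 9, 7, 11, 4, 13, 23, 19, 8, 5, 18, 15, 20, 21, 22, 14],
  [2, 3, 0, 1, 12, 23, 9, 10, 15, 6, 7, 22, 4, 21, 17, 8, 19, 14, 20, 16, 18, 13, 11, 5],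
  [3, 0, 2, 1, 4, 5, 6, 10, 19, 22, 12, 9, 7, 18, 17, 8, 16, 23, 20, 15, 13, 21, 11, 14],
  [3, 0, 2, 1, 4, 14, 9, 10, 8, 11, 12, 6, 7, 20, 23, 19, 15, 17, 18, 16, 21, 13, 22, 5],
  [3, 0, 2, 1, 4, 17, 22, 10, 15, 6, 12, 11, 7, 21, 5, 16, 8, 14, 13, 19, 20, 18, 9, 23],
  [3, 0, 2, 1, 4, 23, 11, 10, 16, 9, 12, 22, 7, 13, 14, 15, 19, 5, 21, 8, 18, 20, 6, 17],
  [3, 0, 2, 1, 7, 5, 22, 12, 16, 6, 10, 11, 4, 20, 17, 15, 19, 23, 18, 8, 21, 13, 9, 14],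
  [3, 0, 2, 1, 7, 14, 11, 12, 15, 9, 10, 22, 4, 18, 23, 16, 8, 17, 20, 19, 13, 21, 6, 5],
  [3, 0, 2, 1, 7, 17, 6, 12, 8, 22, 10, 9, 4, 13, 5, 19, 15, 14, 21, 16, 18, 20, 11, 23],
  [3, 0, 2, 1, 7, 23, 9, 12, 19, 11, 10, 6, 4, 21, 14, 8, 16, 5, 13, 15, 20, 18, 22, 17],
  [3, 0, 2, 1, 10, 5, 11, 4, 8, 9, 7, 22, 12, 21, 17, 19, 15, 23, 13, 16, 20, 18, 6, 14],
  [3, 0, 2, 1, 10, 14, 22, 4, 19, 6, 7, 11, 12, 13, 23, 8, 16, 17, 21, 15, 18, 20, 9, 5],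
  [3, 0, 2, 1, 10, 17, 9, 4, 16, 11, 7, 6, 12, 18, 5, 15, 19, 14, 20, 8, 13, 21, 22, 23],
  [3, 0, 2, 1, 10, 23, 6, 4, 15, 22, 7, 9, 12, 20, 14, 16, 8, 5, 18, 19, 21, 13, 11, 17],
  [3, 0, 2, 1, 12, 5, 9, 7, 15, 11, 4, 6, 10, 13, 17, 16, 8, 23, 21, 19, 18, 20, 22, 14],
  [3, 0, 2, 1, 12, 14, 6, 7, 16, 22, 4, 9, 10, 21, 23, 15, 19, 17, 13, 8, 20, 18, 11, 5],
  [3, 0, 2, 1, 12, 17, 11, 7, 19, 9, 4, 22, 10, 20, 5, 8, 16, 14, 18, 15, 21, 13, 6, 23],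
  [3, 0, 2, 1, 12, 23, 22, 7, 8, 6, 4, 11, 10, 18, 14, 19, 15, 5, 20, 16, 13, 21, 9, 17],
  [3, 1, 0, 2, 4, 5, 11, 12, 19, 6, 7, 9, 10, 18, 23, 15, 8, 14, 21, 16, 20, 13, 22, 17],
  [3, 1, 0, 2, 4, 14, 22, 12, 8, 9, 7, 6, 10, 20, 17, 16, 19, 5, 13, 15, 18, 21, 11, 23],
  [3, 1, 0, 2, 4, 17, 9, 12, 15, 22, 7, 11, 10, 21, 14, 19, 16, 23, 18, 8, 13, 20, 6, 5],
  [3, 1, 0, 2, 4, 23, 6, 12, 16, 11, 7, 22, 10, 13, 5, 8, 15, 17, 20, 19, 21, 18, 9, 14],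
  [3, 1, 0, 2, 7, 5, 9, 10, 16, 22, 4, 11, 12, 20, 23, 8, 15, 14, 13, 19, 18, 21, 6, 17],
  [3, 1, 0, 2, 7, 14, 6, 10, 15, 11, 4, 22, 12, 18, 17, 19, 16, 5, 21, 8, 20, 13, 9, 23],
  [3, 1, 0, 2, 7, 17, 11, 10, 8, 6, 4, 9, 12, 13, 14, 16, 19, 23, 20, 15, 21, 18, 22, 5],
  [3, 1, 0, 2, 7, 23, 22, 10, 19, 9, 4, 6, 12, 21, 5, 15, 8, 17, 18, 16, 13, 20, 11, 14],
  [3, 1, 0, 2, 10, 5, 6, 7, 8, 11, 12, 22, 4, 21, 23, 16, 19, 14, 18, 15, 13, 20, 9, 17],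
  [3, 1, 0, 2, 10, 14, 9, 7, 19, 22, 12, 11, 4, 13, 17, 15, 8, 5, 20, 16, 21, 18, 6, 23],
  [3, 1, 0, 2, 10, 17, 22, 7, 16, 9, 12, 6, 4, 18, 14, 8, 15, 23, 21, 19, 20, 13, 11, 5],
  [3, 1, 0, 2, 10, 23, 11, 7, 15, 6, 12, 9, 4, 20, 5, 19, 16, 17, 13, 8, 18, 21, 22, 14],
  [3, 1, 0, 2, 12, 5, 22, 4, 15, 9, 10, 6, 7, 13, 23, 19, 16, 14, 20, 8, 21, 18, 11, 17],
  [3, 1, 0, 2, 12, 14, 11, 4, 16, 6, 10, 9, 7, 21, 17, 8, 15, 5, 18, 19, 13, 20, 22, 23],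
  [3, 1, 0, 2, 12, 17, 6, 4, 19, 11, 10, 22, 7, 20, 14, 15, 8, 23, 13, 16, 18, 21, 9, 5],
  [3, 1, 0, 2, 12, 23, 9, 4, 8, 22, 10, 11, 7, 18, 5, 16, 19, 17, 21, 15, 20, 13, 6, 14],
  [3, 2, 1, 0, 4, 5, 22, 7, 19, 11, 10, 9, 12, 18, 14, 16, 15, 17, 13, 8, 21, 20, 6, 23],
  [3, 2, 1, 0, 4, 14, 11, 7, 8, 22, 10, 6, 12, 20, 5, 15, 16, 23, 21, 19, 13, 18, 9, 17],
  [3, 2, 1, 0, 4, 17, 6, 7, 15, 9, 10, 11, 12, 21, 23, 8, 19, 5, 20, 16, 18, 13, 22, 14],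
  [3, 2, 1, 0, 4, 23, 9, 7, 16, 6, 10, 22, 12, 13, 17, 19, 8, 14, 18, 15, 20, 21, 11, 5],
  [3, 2, 1, 0, 7, 5, 6, 4, 16, 9, 12, 11, 10, 20, 14, 19, 8, 17, 21, 15, 13, 18, 22, 23],
  [3, 2, 1, 0, 7, 14, 9, 4, 15, 6, 12, 22, 10, 18, 5, 8, 19, 23, 13, 16, 21, 20, 11, 17],
  [3, 2, 1, 0, 7, 17, 22, 4, 8, 11, 12, 9, 10, 13, 23, 15, 16, 5, 18, 19, 20, 21, 6, 14],
  [3, 2, 1, 0, 7, 23, 11, 4, 19, 22, 12, 6, 10, 21, 17, 16, 15, 14, 20, 8, 18, 13, 9, 5],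
  [3, 2, 1, 0, 10, 5, 9, 12, 8, 6, 4, 22, 7, 21, 14, 15, 16, 17, 20, 19, 18, 13, 11, 23],
  [3, 2, 1, 0, 10, 14, 6, 12, 19, 9, 4, 11, 7, 13, 5, 16, 15, 23, 18, 8, 20, 21, 22, 17],
  [3, 2, 1, 0, 10, 17, 11, 12, 16, 22, 4, 6, 7, 18, 23, 19, 8, 5, 13, 15, 21, 20, 9, 14],
  [3, 2, 1, 0, 10, 23, 22, 12, 15, 11, 4, 9, 7, 20, 17, 8, 19, 14, 21, 16, 13, 18, 6, 5],
  [3, 2, 1, 0, 12, 5, 11, 10, 15, 22, 7, 6, 4, 13, 14, 8, 19, 17, 18, 16, 20, 21, 9, 23],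
  [3, 2, 1, 0, 12, 14, 22, 10, 16, 11, 7, 9, 4, 21, 5, 19, 8, 23, 20, 15, 18, 13, 6, 17],
  [3, 2, 1, 0, 12, 17, 9, 10, 19, 6, 7, 22, 4, 20, 23, 16, 15, 5, 21, 8, 13, 18, 11, 14],
  [3, 2, 1, 0, 12, 23, 6, 10, 8, 9, 7, 11, 4, 18, 17, 15, 16, 14, 13, 19, 21, 20, 22, 5]]

/-- The tetrads of the base sextet. -/
def tet (i : Fin 6) : Finset GolayPt := toSet (SextetCls.base.getD i 0)

/-- The base sextet. -/
def S₀ : Obj := interp SextetCls.base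

theorem S₀_eq : S₀ = Finset.univ.image tet := by decide +kernel

theorem tet_inj : Function.Injective tet := by decide +kernel

theorem swaps_check : ((List.range 5).all fun i => keepsCode (swaps.getD i []) && (List.range 6).all fun j =>
    imgMask (swaps.getD i []) (SextetCls.base.getD j 0) ==
      SextetCls.base.getD (if j == i then i + 1 else if j == i + 1 then i else j) 0) = true := by decide +kernel

/-- The check of one kernel element. -/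
def kerOK (l : List ℕ) : Bool := keepsCode l && SextetCls.base.all fun t => imgMask l t == t

theorem ker_ok0 : (kerL.take 64).all kerOK = true := by decide +kernel
theorem ker_ok1 : ((kerL.drop 64).take 64).all kerOK = true := by decide +kernel
theorem ker_ok2 : (kerL.drop 128).all kerOK = true := by decide +kernel

/-- The involutions in the kernel, with the identity. -/
def invL : List (List ℕ) := kerL.filter fun l => compL l l == List.range 24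

theorem ker_meta : kerL.length = 192 ∧ kerL.Nodup ∧ invL.length = 64 := by decide +kernel

/-- Whether two lists commute. -/
def commL' (x s : List ℕ) : Bool := (List.range 24).all fun i => x.getD (s.getD i 0) 0 == s.getD (x.getD i 0) 0

theorem inv_comm0 : (invL.take 32).all (fun x => invL.all (commL' x)) = true := by decide +kernel
theorem inv_comm1 : (invL.drop 32).all (fun x => invL.all (commL' x)) = true := by decide +kernel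

theorem kerL_spec {l : List ℕ} (hl : l ∈ kerL) :
    isPermList l = true ∧ permOf l ∈ M24 ∧ ∀ t ∈ S₀, permOf l • t = t := by
  have h : kerOK l = true := by
    rw [← List.take_append_drop 64 kerL, ← List.take_append_drop 64 (kerL.drop 64), List.mem_append, List.mem_append,
      List.drop_drop] at hl
    rcases hl with h | h | h
    exacts [List.all_eq_true.1 ker_ok0 l h, List.all_eq_true.1 ker_ok1 l h, List.all_eq_true.1 ker_ok2 l h]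
  simp only [kerOK, Bool.and_eq_true, List.all_eq_true, beq_iff_eq] at h
  have hp : isPermList l = true := by have := h.1; simp only [keepsCode, Bool.and_eq_true] at this; exact this.1
  refine ⟨hp, permOf_mem_M24 h.1, fun t ht => ?_⟩
  simp only [S₀, interp, List.mem_toFinset, List.mem_map] at ht
  obtain ⟨a, ha, rfl⟩ := ht
  rw [← toSet_imgMask hp, h.2 a ha]

theorem perm_realised (e : Equiv.Perm (Fin 6)) : ∃ g ∈ M24, ∀ i, g • tet i = tet (e i) := by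
  let R : Submonoid (Equiv.Perm (Fin 6)) :=
    { carrier := {e | ∃ g ∈ M24, ∀ i, g • tet i = tet (e i)}
      one_mem' := ⟨1, M24.one_mem, fun i => one_smul _ _⟩
      mul_mem' := by
        rintro a b ⟨g, hg, ha⟩ ⟨h, hh, hb⟩
        exact ⟨g * h, M24.mul_mem hg hh, fun i => by rw [mul_smul, hb, ha]; rfl⟩ }
  have hgen : Submonoid.closure (Set.range fun i : Fin 5 => Equiv.swap i.castSucc i.succ) ≤ R := by
    rw [Submonoid.closure_le]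
    rintro _ ⟨i, rfl⟩
    have h := List.all_eq_true.1 swaps_check i (List.mem_range.2 i.isLt)
    simp only [Bool.and_eq_true, List.all_eq_true, List.mem_range, beq_iff_eq] at h
    have hp : isPermList (swaps.getD i []) = true := by
      have := h.1; simp only [keepsCode, Bool.and_eq_true] at this; exact this.1
    refine ⟨_, permOf_mem_M24 h.1, fun j => ?_⟩
    rw [tet, tet, ← toSet_imgMask hp, h.2 j j.isLt]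
    congr 2
    rw [Equiv.swap_apply_def]
    simp only [Fin.ext_iff, Fin.val_castSucc, Fin.val_succ]
    split_ifs <;> simp_all
  rw [Equiv.Perm.mclosure_swap_castSucc_succ] at hgen
  exact hgen (Submonoid.mem_top e)

/-- The elements fixing every tetrad. -/
def ker : Subgroup (Equiv.Perm GolayPt) where
  carrier := {g | g ∈ M24 ∧ ∀ t ∈ S₀, g • t = t}
  one_mem' := ⟨M24.one_mem, fun t _ => one_smul _ t⟩
  mul_mem' := fun {a b} ha hb => ⟨M24.mul_mem ha.1 hb.1, fun t ht => by rw [mul_smul, hb.2 t ht, ha.2 t ht]⟩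
  inv_mem' := fun {a} ha => ⟨M24.inv_mem ha.1, fun t ht => by rw [inv_smul_eq_iff, ha.2 t ht]⟩

theorem card_stab : Nat.card (MulAction.stabilizer M24 S₀) = 138240 := by
  have h := index_stabilizer_eq isEmb_id SextetCls.isCls (x := S₀) SextetCls.isCls.mem
  have h' := (MulAction.stabilizer M24 S₀).card_mul_index
  rw [h, card_M24] at h'
  omega

theorem stab_mem {g : M24} (hg : g ∈ MulAction.stabilizer M24 S₀) (i : Fin 6) :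
    ∃ j, (g : Equiv.Perm GolayPt) • tet i = tet j := by
  have h : (g : Equiv.Perm GolayPt) • tet i ∈ S₀ := by
    have e : (g : Equiv.Perm GolayPt) • S₀ = S₀ := hg
    rw [← e]
    refine Finset.smul_mem_smul_finset ?_
    rw [S₀_eq]; exact Finset.mem_image_of_mem _ (Finset.mem_univ i)
  rw [S₀_eq] at h
  obtain ⟨j, -, e⟩ := Finset.mem_image.1 h
  exact ⟨j, e.symm⟩

theorem card_ker : Nat.card ker = 192 := by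
  classical
  choose f hf using fun (g : MulAction.stabilizer M24 S₀) (i : Fin 6) => stab_mem g.2 i
  let F : MulAction.stabilizer M24 S₀ →* Function.End (Fin 6) :=
    { toFun := fun g => f g
      map_one' := by
        funext i
        refine tet_inj ((hf 1 i).symm.trans ?_)
        exact one_smul _ _
      map_mul' := fun a b => by
        funext i
        refine tet_inj ((hf (a * b) i).symm.trans ?_)
        show ((a : M24) * (b : M24) : M24).1 • tet i = _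
        rw [Subgroup.coe_mul, mul_smul, hf b i, hf a (f b i)]
        rfl }
  let P : MulAction.stabilizer M24 S₀ →* Equiv.Perm (Fin 6) :=
    MulAction.toPermHom _ _ |>.comp F.toHomUnits |>.comp (MonoidHom.id _)
  have hP : ∀ g i, P g i = f g i := fun g i => rfl
  have hsurj : Function.Surjective P := by
    intro e
    obtain ⟨g, hg, he⟩ := perm_realised e
    have hs : (⟨g, hg⟩ : M24) ∈ MulAction.stabilizer M24 S₀ := by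
      show g • S₀ = S₀
      refine Finset.eq_of_subset_of_card_le (fun x hx => ?_) (by rw [Finset.card_smul_finset])
      obtain ⟨y, hy, rfl⟩ := Finset.mem_smul_finset.1 hx
      rw [S₀_eq] at hy ⊢
      obtain ⟨i, -, rfl⟩ := Finset.mem_image.1 hy
      rw [he]; exact Finset.mem_image_of_mem _ (Finset.mem_univ _)
    exact ⟨⟨⟨g, hg⟩, hs⟩, Equiv.ext fun i => tet_inj ((congrArg tet (hP _ i)).trans ((hf ⟨⟨g, hg⟩, hs⟩ i).symm.trans (he i)))⟩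
  have e := Subgroup.card_eq_card_quotient_mul_card_subgroup P.ker
  rw [card_stab, Nat.card_congr (QuotientGroup.quotientKerEquivOfSurjective P hsurj).toEquiv, Nat.card_perm,
    Nat.card_eq_fintype_card (α := Fin 6), Fintype.card_fin, show Nat.factorial 6 = 720 by decide] at e
  have hk : Nat.card ker = Nat.card P.ker := Nat.card_congr
    { toFun := fun g => ⟨⟨⟨g.1, g.2.1⟩, by
        show g.1 • S₀ = S₀
        refine Finset.eq_of_subset_of_card_le (fun x hx => ?_) (by rw [Finset.card_smul_finset])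
        obtain ⟨y, hy, rfl⟩ := Finset.mem_smul_finset.1 hx
        rw [g.2.2 y hy]; exact hy⟩, by
          refine Equiv.ext fun i => tet_inj ?_
          rw [hP, ← hf]
          exact g.2.2 _ (by rw [S₀_eq]; exact Finset.mem_image_of_mem _ (Finset.mem_univ i))⟩
      invFun := fun g => ⟨g.1.1.1, g.1.1.2, fun t ht => by
        rw [S₀_eq] at ht
        obtain ⟨i, -, rfl⟩ := Finset.mem_image.1 ht
        rw [hf, ← hP, MonoidHom.mem_ker.1 g.2]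
        rfl⟩
      left_inv := fun _ => rfl
      right_inv := fun _ => rfl }
  omega

theorem ker_eq : (ker : Set (Equiv.Perm GolayPt)) = ((kerL.map permOf).toFinset : Set _) := by
  classical
  obtain ⟨hlen, hnd, -⟩ := ker_meta
  refine (Set.eq_of_subset_of_ncard_le ?_ ?_).symm
  · intro g hg
    simp only [List.coe_toFinset, Set.mem_ofPred_eq, List.mem_map] at hg
    obtain ⟨l, hl, rfl⟩ := hg
    exact (kerL_spec hl).2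
  · rw [← Nat.card_coe_set_eq (s := (ker : Set (Equiv.Perm GolayPt)))]
    rw [SetLike.coe_sort_coe, card_ker, Set.ncard_coe_finset, List.toFinset_card_of_nodup, List.length_map, hlen]
    exact hnd.map_on fun a ha b hb e => OctKer.permOf_injOn (kerL_spec ha).1 (kerL_spec hb).1 e

theorem sq_one_iff {l : List ℕ} (hl : l ∈ kerL) : permOf l * permOf l = 1 ↔ l ∈ invL := by
  have hp := (kerL_spec hl).1
  constructor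
  · intro h
    refine List.mem_filter.2 ⟨hl, beq_iff_eq.2 ?_⟩
    simp only [compL]
    refine List.ext_getElem ?_ fun i h1 h2 => ?_
    · simp only [List.length_map, List.length_range]
      simp only [isPermList, Bool.and_eq_true, beq_iff_eq] at hp; exact hp.1.1
    · simp only [List.length_range] at h2
      have e := congrArg idx (Equiv.ext_iff.1 h (pt i))
      rw [Equiv.Perm.mul_apply, idx_permOf hp, idx_permOf hp, idx_pt h2, Equiv.Perm.one_apply, idx_pt h2] at e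
      simp only [List.getElem_map, List.getElem_range]
      rw [List.getD_eq_getElem l _ (show i < l.length by simpa using h1)] at e
      exact e
  · intro h
    have e := (List.mem_filter.1 h).2
    rw [beq_iff_eq] at e
    rw [← permOf_mul hp hp (c := List.range 24) (by decide) e, permOf_range]

theorem comm_of_inv {a b : Equiv.Perm GolayPt} (ha : a ∈ ker) (hb : b ∈ ker) (ha2 : a * a = 1) (hb2 : b * b = 1) :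
    a * b = b * a := by
  rw [← SetLike.mem_coe, ker_eq, List.coe_toFinset, Set.mem_ofPred_eq, List.mem_map] at ha hb
  obtain ⟨l, hl, rfl⟩ := ha
  obtain ⟨k, hk, rfl⟩ := hb
  have hl' := (sq_one_iff hl).1 ha2
  have hk' := (sq_one_iff hk).1 hb2
  have hc : commL' l k = true := by
    have h := List.take_append_drop 32 invL
    rw [← h, List.mem_append] at hl'
    rcases hl' with h' | h'
    · exact List.all_eq_true.1 (List.all_eq_true.1 inv_comm0 l h') k hk'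
    · exact List.all_eq_true.1 (List.all_eq_true.1 inv_comm1 l h') k hk'
  simp only [commL', List.all_eq_true, List.mem_range, beq_iff_eq] at hc
  have pl := (kerL_spec hl).1
  have pk := (kerL_spec hk).1
  refine Equiv.ext fun p => idx_inj ?_
  rw [Equiv.Perm.mul_apply, Equiv.Perm.mul_apply, idx_permOf pl, idx_permOf pk, idx_permOf pk, idx_permOf pl]
  exact hc _ (idx_lt p)

theorem ncard_inv : {g | g ∈ ker ∧ g * g = 1}.ncard = 64 := by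
  classical
  have hset : {g | g ∈ ker ∧ g * g = 1} = ((invL.map permOf).toFinset : Set (Equiv.Perm GolayPt)) := by
    ext g
    simp only [Set.mem_ofPred_eq, ← SetLike.mem_coe, ker_eq, List.coe_toFinset, List.mem_map]
    constructor
    · rintro ⟨⟨l, hl, rfl⟩, h⟩; exact ⟨l, (sq_one_iff hl).1 h, rfl⟩
    · rintro ⟨l, hl, rfl⟩
      exact ⟨⟨l, (List.mem_filter.1 hl).1, rfl⟩, (sq_one_iff (List.mem_filter.1 hl).1).2 hl⟩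
  rw [hset, Set.ncard_coe_finset, List.toFinset_card_of_nodup, List.length_map, ker_meta.2.2]
  exact (ker_meta.2.1.filter _).map_on fun a ha b hb e =>
    OctKer.permOf_injOn (kerL_spec (List.mem_filter.1 ha).1).1 (kerL_spec (List.mem_filter.1 hb).1).1 e

end Cfsg.Lib.Golay.SextetStab
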